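import Mathlib

/-!
# CALL S5975 piece CONJ (helper91)
-/

set_option autoImplicit false

namespace Cfsg.Agent.Helper91

open Matrix Module

/-- PIECE CONJ -/
theorem c3e_conj {F : Type*} [Field F] {ι : Type*} [Fintype ι] [DecidableEq ι] (g x : GL ι F) :
    Module.finrank F (LinearMap.ker (Matrix.toLin' ((g⁻¹ * x * g : GL ι F) : Matrix ι ι F) - 1)) =
      Module.finrank F (LinearMap.ker (Matrix.toLin' (x : Matrix ι ι F) - 1)) := by
  have hgi : ((g⁻¹ : GL ι F) : Matrix ι ι F) * (g : Matrix ι ι F) = 1 := by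
    rw [← Matrix.GeneralLinearGroup.coe_mul, inv_mul_cancel]; rfl
  have hig : (g : Matrix ι ι F) * ((g⁻¹ : GL ι F) : Matrix ι ι F) = 1 := by
    rw [← Matrix.GeneralLinearGroup.coe_mul, mul_inv_cancel]; rfl
  let e : (ι → F) ≃ₗ[F] (ι → F) :=
    LinearEquiv.ofLinear (Matrix.toLin' (g : Matrix ι ι F))
      (Matrix.toLin' ((g⁻¹ : GL ι F) : Matrix ι ι F))
      (by rw [← Matrix.toLin'_mul, hig, Matrix.toLin'_one])
      (by rw [← Matrix.toLin'_mul, hgi, Matrix.toLin'_one])
  have hker : LinearMap.ker (Matrix.toLin' ((g⁻¹ * x * g : GL ι F) : Matrix ι ι F) - 1) =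
      (LinearMap.ker (Matrix.toLin' (x : Matrix ι ι F) - 1)).comap e.toLinearMap := by
    ext v
    simp only [LinearMap.mem_ker, Submodule.mem_comap, LinearMap.sub_apply, Matrix.toLin'_apply,
      Module.End.one_apply, LinearEquiv.coe_coe, sub_eq_zero]
    have hev : e v = (g : Matrix ι ι F) *ᵥ v := rfl
    rw [hev, Matrix.GeneralLinearGroup.coe_mul, Matrix.GeneralLinearGroup.coe_mul]
    constructor
    · intro h
      have h2 := congrArg (fun w => (g : Matrix ι ι F) *ᵥ w) h
      simp only [Matrix.mulVec_mulVec] at h2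
      rw [← mul_assoc, ← mul_assoc, hig, one_mul] at h2
      rw [Matrix.mulVec_mulVec]
      exact h2
    · intro h
      have h2 := congrArg (fun w => ((g⁻¹ : GL ι F) : Matrix ι ι F) *ᵥ w) h
      simp only [Matrix.mulVec_mulVec] at h2
      rw [hgi, Matrix.one_mulVec, ← mul_assoc] at h2
      exact h2
  rw [hker, Submodule.comap_equiv_eq_map_symm]
  exact LinearEquiv.finrank_map_eq e.symm _

end Cfsg.Agent.Helper91
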