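import Mathlib
import Cfsg.Agent.Helper15.B42Defs
import Cfsg.Agent.Helper77.D1Final
import Cfsg.Agent.Helper29.D1IL
import Cfsg.Agent.Helper79.S4441Setup
import Cfsg.Agent.Helper79.Basic
import Cfsg.Agent.Helper81.CharBasic
import Cfsg.Agent.Helper3.Induced
import Cfsg.Agent.Helper3.Frobenius

/-!
Piece STRONG of CALL S4503 (helper15): the main theorem on blocks of defect one with the
values of the `θ`-coefficients (the proof of `Helper77.d1_main`, keeping the value formulas).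
-/

universe u
set_option autoImplicit false
open Cfsg Cfsg.Agent.Helper77 Cfsg.Agent.Helper15
open scoped ComplexConjugate

namespace Cfsg.Agent.Helper91

variable {G : Type u} [Group G] [Finite G]

set_option maxHeartbeats 1600000 in
/-- STRONG -/
theorem b42_d1_strong (p : ℕ) [Fact p.Prime] : B42StrongStmt G p := by
  classical
  intro x K h θ
  have hp : p.Prime := Fact.out
  have hF : FBoundStmt G p :=
    Helper15.d1_fbound p (fun _ => theta_lattice_bound p) (Helper75.d1_cc p) (Helper74.d1_inj p)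
  -- the integer `M₀`
  have hpG : p ∣ Nat.card G := by
    rw [← h.hx]
    exact orderOf_dvd_natCard x
  obtain ⟨M₀, hM₀eq⟩ := hpG
  have hM₀ : ¬ p ∣ M₀ := by
    rintro ⟨q, hq⟩
    apply h.hsq
    rw [hM₀eq, hq]
    exact ⟨q, by ring⟩
  have hGM : Nat.card G ∣ p * M₀ := by rw [hM₀eq]
  haveI : Fintype (Cfsg.IrrCharacter G) := Fintype.ofFinite _
  have hζ := d1zeta_prim p
  obtain ⟨a, ha⟩ := d1m_exists_coeff p x K h θ
  obtain ⟨E, F, hE, hFn, hEF⟩ := Helper29.d1_units p x K h θ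
  obtain ⟨hin1, hin2, hin3⟩ := Helper65.d1_inertial p x K h M₀ hM₀ hGM
  choose τ hτM hτζ hτχ using hin2
  have hτθ : ∀ (u : (ZMod p)ˣ) (k : K), τ u ((θ : K → ℂ) k) = (θ : K → ℂ) k :=
    fun u k => (hin1 (τ u) (hτM u)).1 θ k
  obtain ⟨T, hT⟩ : ∃ T : Finset (Cfsg.IrrCharacter G),
      ∀ χ, χ ∈ T ↔ χ ∈ blkTheta K x (θ : K → ℂ) :=
    ⟨Finset.univ.filter (· ∈ blkTheta K x (θ : K → ℂ)), fun χ => by simp⟩
  have hmemE : ∀ s : (ZMod p)ˣ, s ∈ E ↔ s ∈ stabUnits p x K (θ : K → ℂ) :=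
    fun s => by rw [← hE]; rfl
  obtain ⟨gal, hgaldef⟩ : ∃ gal : (ZMod p)ˣ → Cfsg.IrrCharacter G → Cfsg.IrrCharacter G,
      ∀ u χ, gal u χ = Helper79.galIrr (τ u) χ := ⟨fun u χ => Helper79.galIrr (τ u) χ, fun _ _ => rfl⟩
  have hgalT : ∀ u, ∀ χ ∈ T, gal u χ ∈ T := by
    intro u χ hχ
    rw [hT] at hχ ⊢
    show dco K _ _ x ≠ 0
    rw [hgaldef, (d1m_gal p x K θ a ha (τ u) u (hτθ u) (hτζ u) χ).1 x]
    exact (map_ne_zero_iff _ (τ u).injective).mpr hχ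
  have hgal1 : ∀ χ ∈ T, gal 1 χ = χ := by
    intro χ _
    rw [hgaldef]
    apply Subtype.ext
    funext g
    rw [Helper79.galIrr_apply]
    refine hin3 (τ 1) (hτM 1) ?_ χ g
    rw [hτζ 1, Units.val_one, ZMod.val_one, pow_one]
  have hgal : ∀ u, ∀ χ ∈ T, ∀ l : ZMod p, a (gal u χ) ((u : ZMod p) * l) = a χ l := by
    intro u χ _ l
    rw [hgaldef]
    exact (d1m_gal p x K θ a ha (τ u) u (hτθ u) (hτζ u) χ).2 l
  have horb : ∀ χ χ' : Cfsg.IrrCharacter G,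
      galRel M₀ (χ : G → ℂ) (χ' : G → ℂ) ↔ ∃ u : (ZMod p)ˣ, χ' = gal u χ := by
    intro χ χ'
    rw [d1m_orbit p x K h M₀ hM₀ hGM τ hτM hτζ χ χ']
    simp only [hgaldef]
  have hΩ : ∀ χ χ' : Cfsg.IrrCharacter G,
      χ' ∈ Finset.univ.image (fun u : (ZMod p)ˣ => gal u χ)
        ↔ galRel M₀ (χ : G → ℂ) (χ' : G → ℂ) := by
    intro χ χ'
    rw [horb χ χ']
    simp only [Finset.mem_image, Finset.mem_univ, true_and]
    exact ⟨fun ⟨u, hu⟩ => ⟨u, hu.symm⟩, fun ⟨u, hu⟩ => ⟨u, hu.symm⟩⟩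
  have hFb : ∀ χ ∈ T, ‖∑ χ' ∈ Finset.univ.image (fun u : (ZMod p)ˣ => gal u χ),
        ∑ l : ZMod p, (a χ' l : ℂ) * d1zeta p ^ l.val‖ ≤ 1 := by
    intro χ _
    have h1 := hF x K M₀ h hM₀ hGM θ χ (Finset.univ.image (fun u : (ZMod p)ˣ => gal u χ)) (hΩ χ)
    rw [Finset.sum_congr rfl (fun χ' _ => ha.one χ')] at h1
    exact h1
  obtain ⟨X, Y, c, ε, hXY, hdisj, hXcard, hYcard, hc, hε, hDX, hDY, hgX, hgY, hgYt, hWX⟩ :=
    Helper91.d1_act p T a E (d1zeta p) hζ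
      (fun χ hχ => by rw [← ha.one χ]; exact (hT χ).mp hχ)
      (fun χ _ s hs l => d1m_hE p x K h θ a ha χ s ((hmemE s).mp hs) l)
      (fun i i' hi hi' hex =>
        (d1m_horth p x K h θ a ha T (fun χ hχ => (hT χ).mpr hχ) i i' hi hi').1
          (by obtain ⟨s, hs, hs'⟩ := hex; exact ⟨s, (hmemE s).mp hs, hs'⟩))
      (fun i i' hi hi' hex =>
        (d1m_horth p x K h θ a ha T (fun χ hχ => (hT χ).mpr hχ) i i' hi hi').2
          (fun ⟨s, hs, hs'⟩ => hex ⟨s, (hmemE s).mpr hs, hs'⟩))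
      gal hgalT hgal1 hgal hFb
      (fun χ => (Cfsg.charDegree (χ : G → ℂ) : ℤ))
      (fun χ _ => by exact_mod_cast Helper81.charDegree_pos χ)
      {w | ∃ g : G, ¬ p ∣ orderOf g ∧ w = fun χ : Cfsg.IrrCharacter G => (χ : G → ℂ) g}
      ⟨1, by rw [orderOf_one]; exact hp.one_lt.ne' ∘ Nat.dvd_one.mp, by
        funext χ
        rw [Helper81.irr_one_eq_charDegree]
        push_cast
        rfl⟩
      (fun w hw l l' => by
        obtain ⟨g, hg, rfl⟩ := hw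
        exact d1m_hW p x K h θ a ha T (fun χ hχ => (hT χ).mpr hχ) g hg l l')
  have hE1 : Nat.card (stabUnits p x K (θ : K → ℂ)) = Nat.card E := by rw [← hE]; rfl
  refine ⟨X, Y, c, ε, ?_, hdisj, ?_, ?_, hc, hε, ?_, ?_, ?_⟩
  · intro χ
    rw [← Finset.mem_union, hXY, hT]
  · rw [hXcard, hE1]
  · rw [Finset.nonempty_iff_ne_empty]
    intro hY0
    rw [hY0, Finset.card_empty, zero_mul] at hYcard
    have := hp.two_le
    omega
  · intro χ hχ i hi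
    rw [ha.val χ i, hDX χ hχ i hi]
  · intro ψ hψ
    obtain ⟨l₀, hl₀, hψD⟩ := hDY ψ hψ
    refine ⟨l₀, hl₀, fun i hi => ?_⟩
    rw [ha.val ψ i, hψD i hi, hE]
  · intro ψ hψ
    have h1 := hWX (fun χ : Cfsg.IrrCharacter G => (χ : G → ℂ) 1)
      ⟨1, by rw [orderOf_one]; exact hp.one_lt.ne' ∘ Nat.dvd_one.mp, rfl⟩ ψ hψ
    simp only [Helper81.irr_one_eq_charDegree] at h1
    exact_mod_cast h1

end Cfsg.Agent.Helper91
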