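/-
Helper91: indicator words; an invariant subspace of words containing a word whose support or whose
complement has 1, 2, 3 or 4 points contains all words of even weight; words outside the code.
-/
import Cfsg.Agent.Helper91.Syn

set_option autoImplicit false

namespace Cfsg.Agent.Helper91

open Cfsg
open scoped Pointwise

theorem perm_inv_apply (f : Equiv.Perm GolayPt) (x : GolayPt) : f⁻¹ (f x) = x := by simp

/-! ## Indicator words -/

/-- The word with support `s`. -/
def ind (s : Finset GolayPt) : GolayPt → ZMod 2 := fun p => if p ∈ s then 1 else 0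

theorem support_ind (s : Finset GolayPt) : support₂ (ind s) = s := by
  ext p
  simp only [support₂, Finset.mem_filter, Finset.mem_univ, true_and, ind]
  by_cases h : p ∈ s <;> simp [h]

theorem ind_support (w : GolayPt → ZMod 2) : ind (support₂ w) = w :=
  support₂_injective (support_ind _)

theorem ind_setM (m : Nat) : ind (setM m) = toWord m := by
  rw [← support_toWord', ind_support]

theorem ind_add (s t : Finset GolayPt) : ind s + ind t = ind (symmDiff s t) := by
  apply support₂_injective
  rw [Helper26.support₂_add, support_ind, support_ind, support_ind]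

theorem ind_smul (g : Equiv.Perm GolayPt) (s : Finset GolayPt) : ind (g • s) = ind s ∘ ⇑g⁻¹ := by
  apply support₂_injective
  rw [support₂_comp, inv_inv, support_ind, support_ind]

theorem ind_empty : ind ∅ = 0 := by
  funext p
  simp [ind]

theorem ind_univ : ind Finset.univ = 1 := by
  funext p
  simp [ind]

theorem ind_compl (s : Finset GolayPt) : ind sᶜ = 1 + ind s := by
  rw [← ind_univ, ind_add]
  congr 1
  ext p
  simp [Finset.mem_symmDiff]

theorem sum_ind (s : Finset GolayPt) : ∑ p, ind s p = (s.card : ZMod 2) := by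
  simp only [ind]
  rw [Finset.sum_boole]
  congr 2
  ext p
  simp

theorem symmDiff_insert_insert {a b : GolayPt} {t : Finset GolayPt} (hab : a ≠ b) (ha : a ∉ t)
    (hb : b ∉ t) : symmDiff (insert a t) (insert b t) = {a, b} := by
  ext x
  simp only [Finset.mem_symmDiff, Finset.mem_insert, Finset.mem_singleton]
  constructor
  · rintro (⟨h1 | h1, h2⟩ | ⟨h1 | h1, h2⟩)
    · exact Or.inl h1
    · exact absurd (Or.inr h1) h2
    · exact Or.inr h1
    · exact absurd (Or.inr h1) h2
  · rintro (rfl | rfl)
    · exact Or.inl ⟨Or.inl rfl, fun h => h.elim hab ha⟩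
    · exact Or.inr ⟨Or.inl rfl, fun h => h.elim (fun e => hab e.symm) hb⟩

/-! ## Moving one point -/

/-- Some element of `M24` carries `a` to `b` and fixes the points of a set of at most four points. -/
theorem exists_m24_move {a b : GolayPt} {t : Finset GolayPt} (ht : t.card ≤ 4) (ha : a ∉ t)
    (hb : b ∉ t) : ∃ g ∈ M24, g a = b ∧ ∀ x ∈ t, g x = x := by
  classical
  have hsub : t ⊆ ({a, b} : Finset GolayPt)ᶜ := by
    intro x hx
    rw [Finset.mem_compl, Finset.mem_insert, Finset.mem_singleton]
    rintro (rfl | rfl)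
    · exact ha hx
    · exact hb hx
  have hcard : 4 ≤ (({a, b} : Finset GolayPt)ᶜ).card := by
    rw [Finset.card_compl, Helper26.card_golayPt]
    have := Finset.card_le_two (a := a) (b := b)
    omega
  obtain ⟨t', h1, h2, h3⟩ := Finset.exists_subsuperset_card_eq hsub ht hcard
  have ha' : a ∉ t' := fun h => by
    have := h2 h
    simp at this
  have hb' : b ∉ t' := fun h => by
    have := h2 h
    simp at this
  obtain ⟨u, hu, hys⟩ := exists_m24_toList (t := t') (es := [a]) (by rw [h3]; rfl)
    (List.nodup_singleton a) (fun x hx => by rw [List.mem_singleton] at hx; rw [hx]; exact ha')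
  obtain ⟨u', hu', hys'⟩ := exists_m24_toList (t := t') (es := [b]) (by rw [h3]; rfl)
    (List.nodup_singleton b) (fun x hx => by rw [List.mem_singleton] at hx; rw [hx]; exact hb')
  have e0 : a = u (pt 23) := (List.cons.inj hys).1
  have e0' : b = u' (pt 23) := (List.cons.inj hys').1
  have el : t'.toList = [u (pt 0), u (pt 1), u (pt 2), u (pt 3)] := (List.cons.inj hys).2
  have el' : t'.toList = [u' (pt 0), u' (pt 1), u' (pt 2), u' (pt 3)] := (List.cons.inj hys').2
  rw [el] at el'
  simp only [List.cons.injEq, and_true] at el'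
  obtain ⟨q0, q1, q2, q3⟩ := el'
  refine ⟨u' * u⁻¹, mul_mem hu' (inv_mem hu), ?_, ?_⟩
  · rw [Equiv.Perm.mul_apply, e0, perm_inv_apply, e0']
  · intro x hx
    have hx' := h1 hx
    rw [← Finset.mem_toList, el] at hx'
    simp only [List.mem_cons, List.not_mem_nil, or_false] at hx'
    rcases hx' with rfl | rfl | rfl | rfl
    · rw [Equiv.Perm.mul_apply, perm_inv_apply, q0]
    · rw [Equiv.Perm.mul_apply, perm_inv_apply, q1]
    · rw [Equiv.Perm.mul_apply, perm_inv_apply, q2]
    · rw [Equiv.Perm.mul_apply, perm_inv_apply, q3]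

/-! ## Invariant subspaces with a word of small support -/

section
variable {W : Submodule (ZMod 2) (GolayPt → ZMod 2)}

theorem InvSub.ind_smul (hW : InvSub W) {g : Equiv.Perm GolayPt} (hg : g ∈ M24) {v : GolayPt → ZMod 2}
    (hv : v ∈ W) : v ∘ ⇑g⁻¹ ∈ W := hW.comp (inv_mem hg) hv

/-- A subspace with a word whose support, or the complement of whose support, has 1 to 4 points contains
the word of a set of two points. -/
theorem duad_of_small (hW : InvSub W) {v : GolayPt → ZMod 2} (hv : v ∈ W) {s : Finset GolayPt}
    (hs : v = ind s ∨ v = ind sᶜ) (h1 : 1 ≤ s.card) (h4 : s.card ≤ 4) :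
    ∃ a b : GolayPt, a ≠ b ∧ ind {a, b} ∈ W := by
  classical
  have hne : s.Nonempty := Finset.card_pos.1 h1
  obtain ⟨a, ha⟩ := hne
  have hnb : ∃ b, b ∉ s := by
    by_contra h
    have h' : ∀ e, e ∈ s := fun e => by_contra fun he => h ⟨e, he⟩
    have e : s = Finset.univ := Finset.eq_univ_iff_forall.2 h'
    rw [e, Finset.card_univ, Helper26.card_golayPt] at h4
    omega
  obtain ⟨b, hb⟩ := hnb
  have hab : a ≠ b := fun e => hb (e ▸ ha)
  have hat : a ∉ s.erase a := Finset.notMem_erase a s
  have hbt : b ∉ s.erase a := fun h => hb (Finset.mem_of_mem_erase h)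
  have hs' : s = insert a (s.erase a) := (Finset.insert_erase ha).symm
  obtain ⟨g, hg, hga, hgt⟩ := exists_m24_move (t := s.erase a)
    (by have := Finset.card_erase_le (a := a) (s := s); omega) hat hbt
  have hgs : g • s = insert b (s.erase a) := by
    rw [hs', Finset.smul_finset_insert]
    have e1 : g • a = b := hga
    have e2 : g • s.erase a = s.erase a := by
      ext x
      rw [Finset.mem_smul_finset]
      constructor
      · rintro ⟨y, hy, rfl⟩
        have : g • y = y := hgt y hy
        rw [this]; exact hy
      · intro hx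
        exact ⟨x, hx, hgt x hx⟩
    rw [e1, Finset.erase_insert hat, e2]
  have key : ind s + ind s ∘ ⇑g⁻¹ = ind {a, b} := by
    have e3 := symmDiff_insert_insert hab hat hbt
    rw [← hs'] at e3
    rw [← ind_smul, ind_add, hgs, e3]
  refine ⟨a, b, hab, ?_⟩
  rw [← key]
  rcases hs with rfl | rfl
  · exact W.add_mem hv (hW.ind_smul hg hv)
  · have hsum := W.add_mem hv (hW.ind_smul hg hv)
    have e : ind sᶜ + ind sᶜ ∘ ⇑g⁻¹ = ind s + ind s ∘ ⇑g⁻¹ := by
      rw [ind_compl]
      funext p
      simp only [Pi.add_apply, Function.comp_apply, Pi.one_apply]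
      have h2 : ∀ x y : ZMod 2, 1 + x + (1 + y) = x + y := by decide
      exact h2 _ _
    rw [e] at hsum
    exact hsum

/-- With the word of one set of two points the subspace contains the words of all sets of two points. -/
theorem all_duads (hW : InvSub W) {a b : GolayPt} (hab : a ≠ b) (h : ind {a, b} ∈ W) :
    ∀ a' b' : GolayPt, a' ≠ b' → ind {a', b'} ∈ W := by
  intro a' b' hab'
  obtain ⟨u, hu, u0, u4⟩ := exists_m24_two_pts hab
  obtain ⟨u', hu', u0', u4'⟩ := exists_m24_two_pts hab'
  have hg : u' * u⁻¹ ∈ M24 := mul_mem hu' (inv_mem hu)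
  have e : (u' * u⁻¹) • ({a, b} : Finset GolayPt) = {a', b'} := by
    rw [Finset.smul_finset_insert, Finset.smul_finset_singleton]
    have e1 : (u' * u⁻¹) • a = a' := by
      show (u' * u⁻¹) a = a'
      rw [Equiv.Perm.mul_apply, ← u0, perm_inv_apply, u0']
    have e2 : (u' * u⁻¹) • b = b' := by
      show (u' * u⁻¹) b = b'
      rw [Equiv.Perm.mul_apply, ← u4, perm_inv_apply, u4']
    rw [e1, e2]
  rw [← e, ind_smul]
  exact hW.ind_smul hg h

/-- A subspace containing the words of all sets of two points contains all words of even weight. -/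
theorem even_mem (h : ∀ a b : GolayPt, a ≠ b → ind {a, b} ∈ W) :
    ∀ w : GolayPt → ZMod 2, ∑ p, w p = 0 → w ∈ W := by
  classical
  have key : ∀ n : Nat, ∀ s : Finset GolayPt, s.card = n → Even n → ind s ∈ W := by
    intro n
    induction n using Nat.strong_induction_on with
    | _ n ih =>
      intro s hs hev
      by_cases hn : n = 0
      · rw [hn, Finset.card_eq_zero] at hs
        rw [hs, ind_empty]
        exact W.zero_mem
      · have hn2 : 2 ≤ n := by
          rcases hev with ⟨k, hk⟩
          omega
        have hne : s.Nonempty := Finset.card_pos.1 (by omega)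
        obtain ⟨a, ha⟩ := hne
        have hne' : (s.erase a).Nonempty := Finset.card_pos.1 (by rw [Finset.card_erase_of_mem ha]; omega)
        obtain ⟨b, hb⟩ := hne'
        have hab : a ≠ b := fun e => (Finset.notMem_erase a s) (e ▸ hb)
        have hbs : b ∈ s := Finset.mem_of_mem_erase hb
        have hc : ((s.erase a).erase b).card = n - 2 := by
          rw [Finset.card_erase_of_mem hb, Finset.card_erase_of_mem ha, hs]
          omega
        have hev' : Even (n - 2) := by
          rcases hev with ⟨k, hk⟩
          exact ⟨k - 1, by omega⟩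
        have h1 := ih (n - 2) (by omega) _ hc hev'
        have h2 := h a b hab
        have e : ind s = ind ((s.erase a).erase b) + ind {a, b} := by
          rw [ind_add]
          congr 1
          ext x
          simp only [Finset.mem_symmDiff, Finset.mem_erase, Finset.mem_insert, Finset.mem_singleton]
          constructor
          · intro hx
            by_cases hxa : x = a
            · exact Or.inr ⟨Or.inl hxa, fun h => h.2.1 hxa⟩
            · by_cases hxb : x = b
              · exact Or.inr ⟨Or.inr hxb, fun h => h.1 hxb⟩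
              · exact Or.inl ⟨⟨hxb, hxa, hx⟩, fun h => h.elim hxa hxb⟩
          · rintro (⟨⟨-, -, hx⟩, -⟩ | ⟨rfl | rfl, -⟩)
            · exact hx
            · exact ha
            · exact hbs
        rw [e]
        exact W.add_mem h1 h2
  intro w hw
  rw [← ind_support w] at hw ⊢
  rw [sum_ind] at hw
  have hev : Even (support₂ w).card := by
    have h2 : (2 : Nat) ∣ (support₂ w).card := (ZMod.natCast_eq_zero_iff _ 2).1 hw
    exact even_iff_two_dvd.2 h2
  exact key _ _ rfl hev

end

/-! ## Words outside the code -/

/-- The test for a table `T` and a word `m`: the difference of `m` and its image is a code word other than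
zero and the all-ones word. -/
def goodTab (T : List Nat) (m : Nat) : Bool :=
  Helper26.isCode (Nat.xor (pullMask T m) m) && !(Nat.beq (Nat.xor (pullMask T m) m) 0) &&
    !(Nat.beq (Nat.xor (pullMask T m) m) ALL)

/-- For every code word `c` other than zero and the all-ones word, some table is good for `r ^^^ c`. -/
def cosetChk (r : Nat) (gens : List (List Nat)) : Bool :=
  (List.range 4096).all (fun k => Nat.beq (Helper26.codeOf k) 0 || Nat.beq (Helper26.codeOf k) ALL ||
    gens.any (fun T => goodTab T (Nat.xor r (Helper26.codeOf k))))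

theorem xor_xor_self_right (a b : Nat) : (a ^^^ b) ^^^ b = a := by
  rw [Nat.xor_assoc, Nat.xor_self, Nat.xor_zero]

/-- A subspace that contains a word in the coset of `r` contains the word of `r` or its complement. -/
theorem small_of_coset {W : Submodule (ZMod 2) (GolayPt → ZMod 2)} (hW : InvSub W) {r : Nat}
    {gens : List (List Nat)} (hg : gens.all (fun T => validTab T && inM24 T) = true)
    (hchk : cosetChk r gens = true) {m : Nat} (hmW : toWord m ∈ W)
    (hc : Helper26.isCode (m ^^^ r) = true) : toWord r ∈ W ∨ toWord (ALL ^^^ r) ∈ W := by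
  rw [List.all_eq_true] at hg
  rw [cosetChk, List.all_eq_true] at hchk
  have hk : (m ^^^ r) % 4096 < 4096 := Nat.mod_lt _ (by norm_num)
  have hcode := Helper26.eq_codeOf_of_isCode hc
  have h := hchk _ (List.mem_range.2 hk)
  rw [← hcode, Bool.or_eq_true, Bool.or_eq_true, Nat.beq_eq, Nat.beq_eq, List.any_eq_true] at h
  have hm : m = r ^^^ (m ^^^ r) := by
    rw [Nat.xor_comm m r, ← Nat.xor_assoc, Nat.xor_self, Nat.zero_xor]
  rcases h with (h | h) | ⟨T, hT, h⟩
  · left
    rw [h, Nat.xor_zero] at hm
    rw [← hm]; exact hmW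
  · right
    rw [h] at hm
    rw [Nat.xor_comm, ← hm]; exact hmW
  · left
    have hT' := hg T hT
    rw [Bool.and_eq_true] at hT'
    have e0 : Nat.xor r (m ^^^ r) = m := hm.symm
    rw [e0] at h
    simp only [goodTab, Bool.and_eq_true, Bool.not_eq_true'] at h
    obtain ⟨⟨h1, h2'⟩, h3'⟩ := h
    have h2 : pullMask T m ^^^ m ≠ 0 := Nat.ne_of_beq_eq_false h2'
    have h3 : pullMask T m ^^^ m ≠ ALL := Nat.ne_of_beq_eq_false h3'
    have hx : toWord (pullMask T m ^^^ m) ∈ W := by
      rw [toWord_xor]
      exact W.add_mem (hW.tab hT'.1 hT'.2 hmW) hmW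
    have hle := code_le_of_mem hW h1 h2 h3 hx
    have hcW : toWord (m ^^^ r) ∈ W := hle ((toWord_mem_iff26 (isCode_lt hc)).2 hc)
    have e : toWord r = toWord m + toWord (m ^^^ r) := by
      rw [← toWord_xor]
      congr 1
      rw [← Nat.xor_assoc, Nat.xor_self, Nat.zero_xor]
    rw [e]
    exact W.add_mem hmW hcW

/-- A set of 1, 2, 3 or 4 points is an image of one of four standard sets. -/
theorem exists_m24_small {s : Finset GolayPt} (h1 : 1 ≤ s.card) (h4 : s.card ≤ 4) :
    (∃ g ∈ M24, g • setM 1 = s) ∨ (∃ g ∈ M24, g • setM 17 = s) ∨ (∃ g ∈ M24, g • setM 14 = s) ∨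
      (∃ g ∈ M24, g • setM 15 = s) := by
  have hc : s.card = 1 ∨ s.card = 2 ∨ s.card = 3 ∨ s.card = 4 := by omega
  rcases hc with h | h | h | h
  · left
    obtain ⟨p, rfl⟩ := Finset.card_eq_one.1 h
    obtain ⟨q, hq⟩ := exists_ne p
    obtain ⟨u, hu, u0, -⟩ := exists_m24_two_pts hq.symm
    refine ⟨u, hu, ?_⟩
    symm
    apply Finset.eq_of_subset_of_card_le
    · intro x hx
      rw [Finset.mem_singleton] at hx
      rw [hx, ← u0]
      exact (apply_mem_smul_iff _ _ _).2 (pt_mem_setM (by norm_num) (by decide))
    · rw [Finset.card_smul_finset, card_setM (by norm_num), Finset.card_singleton]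
      decide
  · right; left
    obtain ⟨p, q, hpq, rfl⟩ := Finset.card_eq_two.1 h
    obtain ⟨u, hu, u0, u4⟩ := exists_m24_two_pts hpq
    refine ⟨u, hu, ?_⟩
    symm
    apply Finset.eq_of_subset_of_card_le
    · intro x hx
      rw [Finset.mem_insert, Finset.mem_singleton] at hx
      rcases hx with rfl | rfl
      · rw [← u0]
        exact (apply_mem_smul_iff _ _ _).2 (pt_mem_setM (by norm_num) (by decide))
      · rw [← u4]
        exact (apply_mem_smul_iff _ _ _).2 (pt_mem_setM (by norm_num) (by decide))
    · rw [Finset.card_smul_finset, card_setM (by norm_num), Finset.card_pair hpq]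
      decide
  · right; right; left
    exact exists_m24_three h
  · right; right; right
    exact exists_m24_tetrad h

/-- A subspace with a word outside the code, whose coset leader is an image of the standard set `r`, contains
the word of a set of two points. -/
theorem duad_of_coset {W : Submodule (ZMod 2) (GolayPt → ZMod 2)} (hW : InvSub W) {r : Nat}
    (hr : r < 2 ^ 24) {gens : List (List Nat)} (hok : gens.all (fun T => validTab T && inM24 T) = true)
    (hchk : cosetChk r gens = true) {w : GolayPt → ZMod 2} (hw : w ∈ W) {L : Nat} (hL : L < 2 ^ 24)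
    (hLc : Helper26.isCode (mk w ^^^ L) = true) (h1 : 1 ≤ (setM L).card) (h4 : (setM L).card ≤ 4)
    {g : Equiv.Perm GolayPt} (hg : g ∈ M24) (e : g • setM r = setM L) :
    ∃ a b : GolayPt, a ≠ b ∧ ind {a, b} ∈ W := by
  have hw0 : w ∘ ⇑g ∈ W := hW.comp hg hw
  have hm0 : toWord (mk (w ∘ ⇑g)) ∈ W := by rw [toWord_mk]; exact hw0
  have hc0 : Helper26.isCode (mk (w ∘ ⇑g) ^^^ r) = true := by
    rw [← toWord_mem_iff26 (Nat.xor_lt_two_pow (mk_lt _) hr), toWord_xor, toWord_mk]
    have e1 : toWord r = toWord L ∘ ⇑g := by
      rw [word_of_smul e]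
      funext p
      simp
    rw [e1]
    have e2 : w ∘ ⇑g + toWord L ∘ ⇑g = (w + toWord L) ∘ ⇑g := rfl
    rw [e2]
    apply comp_mem_of_mem_M24 hg
    rw [← toWord_mk w, ← toWord_xor, toWord_mem_iff26 (Nat.xor_lt_two_pow (mk_lt w) hL)]
    exact hLc
  have hcard : (setM r).card = (setM L).card := by rw [← e, Finset.card_smul_finset]
  rcases small_of_coset hW hok hchk hm0 hc0 with h | h
  · exact duad_of_small hW h (s := setM r) (Or.inl (ind_setM r).symm) (by omega) (by omega)
  · exact duad_of_small hW h (s := setM r) (Or.inr (by rw [← setM_compl, ind_setM])) (by omega) (by omega)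

end Cfsg.Agent.Helper91
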