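import Mathlib
import Cfsg.Agent.Lead.H581Defs

/-!
Piece P2 of CALL S4221 (Hall 5.8.1): involutions in a coset `tY` of a subgroup `Y` of odd order normalised by
the involution `t`.
-/

set_option autoImplicit false

namespace Cfsg.Agent.Helper91.H581P2

open Cfsg.Agent.Lead.H581 Equiv


/-- an element of the odd-order subgroup `Y` inverted by `t` has a square root in `Y` inverted by `t` -/
theorem exists_sqrt_inverted {G : Type*} [Group G] (Y : Subgroup G) (hY : Odd (Nat.card Y)) (t : G)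
    (w : G) (hw : w ∈ Y) (hinv : t * w * t⁻¹ = w⁻¹) :
    ∃ v ∈ Y, v * v = w ∧ t * v * t⁻¹ = v⁻¹ := by
  obtain ⟨k, hk⟩ := hY
  refine ⟨w ^ (k + 1), Y.pow_mem hw _, ?_, ?_⟩
  · have h1 : w ^ Nat.card Y = 1 := by
      have h := pow_card_eq_one' (G := Y) (x := ⟨w, hw⟩)
      have h' := Subtype.ext_iff.mp h
      rw [Subgroup.coe_pow, Subgroup.coe_one] at h'
      exact h'
    rw [← pow_add]
    have h2 : k + 1 + (k + 1) = Nat.card Y + 1 := by omega
    rw [h2, pow_succ, h1, one_mul]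
  · rw [← conj_pow, hinv, inv_pow]

/-- PIECE P2 (second half) -/
theorem coset_inv_conj {G : Type*} [Group G] [Finite G] (Y : Subgroup G) (hY : Odd (Nat.card Y)) (t : G)
    (ht : t * t = 1) (hn : ∀ y ∈ Y, t * y * t⁻¹ ∈ Y) (u : G) (hu : u * u = 1) (huY : t⁻¹ * u ∈ Y) :
    ∃ w ∈ Y, u = w⁻¹ * t * w := by
  have htinv : t⁻¹ = t := inv_eq_of_mul_eq_one_left ht
  have huinv : u⁻¹ = u := inv_eq_of_mul_eq_one_left hu
  have hinv : t * (t⁻¹ * u) * t⁻¹ = (t⁻¹ * u)⁻¹ := by
    rw [mul_inv_rev, inv_inv, huinv, mul_inv_cancel_left, htinv]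
  obtain ⟨v, hvY, hvv, hv⟩ := exists_sqrt_inverted Y hY t (t⁻¹ * u) huY hinv
  refine ⟨v, hvY, ?_⟩
  have h1 : v⁻¹ * t = t * v := by
    rw [← hv, htinv]
    rw [mul_assoc, mul_assoc, ht, mul_one]
  rw [h1, mul_assoc, hvv, mul_inv_cancel_left]

/-- PIECE P2 (first half) -/
theorem coset_inv_card {G : Type*} [Group G] [Finite G] (Y : Subgroup G) (hY : Odd (Nat.card Y)) (t : G)
    (ht : t * t = 1) (hn : ∀ y ∈ Y, t * y * t⁻¹ ∈ Y) :
    {u : G | u * u = 1 ∧ t⁻¹ * u ∈ Y}.ncard * Nat.card ↥(Y ⊓ Subgroup.centralizer ({t} : Set G)) = Nat.card Y := by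
  classical
  have htinv : t⁻¹ = t := inv_eq_of_mul_eq_one_left ht
  set C : Subgroup Y := (Y ⊓ Subgroup.centralizer ({t} : Set G)).subgroupOf Y with hC
  have hcardC : Nat.card C = Nat.card ↥(Y ⊓ Subgroup.centralizer ({t} : Set G)) :=
    Nat.card_congr (Subgroup.subgroupOfEquivOfLe inf_le_left).toEquiv
  have hq := Subgroup.card_eq_card_quotient_mul_card_subgroup C
  have hmemC : ∀ y : Y, y ∈ C ↔ t * (y : G) = (y : G) * t := by
    intro y
    rw [hC, Subgroup.mem_subgroupOf, Subgroup.mem_inf, Subgroup.mem_centralizer_iff]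
    simp only [Set.mem_singleton_iff, forall_eq, SetLike.coe_mem, true_and]
  let F : Y ⧸ C → G := Quotient.lift (fun y : Y => (y : G) * t * (y : G)⁻¹) (by
    intro a b hab
    have h1 : a⁻¹ * b ∈ C := QuotientGroup.leftRel_apply.mp hab
    have h2 := (hmemC _).mp h1
    simp only [Subgroup.coe_mul, Subgroup.coe_inv] at h2
    show (a : G) * t * (a : G)⁻¹ = (b : G) * t * (b : G)⁻¹
    have h3 := congrArg (fun x => (a : G) * x * (b : G)⁻¹) h2
    simp only [mul_assoc, mul_inv_cancel_left, mul_inv_cancel, mul_one] at h3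
    simpa [mul_assoc] using h3)
  have hFmk : ∀ y : Y, F (QuotientGroup.mk y) = (y : G) * t * (y : G)⁻¹ := fun y => rfl
  have hFinj : Function.Injective F := by
    intro x y hxy
    induction x using QuotientGroup.induction_on with | _ a => ?_
    induction y using QuotientGroup.induction_on with | _ b => ?_
    rw [hFmk, hFmk] at hxy
    apply QuotientGroup.eq.mpr
    rw [hmemC]
    simp only [Subgroup.coe_mul, Subgroup.coe_inv]
    have h3 := congrArg (fun x => (a : G)⁻¹ * x * (b : G)) hxy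
    simp only [mul_assoc, inv_mul_cancel_left, inv_mul_cancel, mul_one] at h3
    simpa [mul_assoc] using h3
  have hrange : Set.range F = {u : G | u * u = 1 ∧ t⁻¹ * u ∈ Y} := by
    ext u
    constructor
    · rintro ⟨x, rfl⟩
      induction x using QuotientGroup.induction_on with | _ a => ?_
      rw [hFmk]
      refine ⟨?_, ?_⟩
      · calc (a : G) * t * (a : G)⁻¹ * ((a : G) * t * (a : G)⁻¹)
            = (a : G) * (t * t) * (a : G)⁻¹ := by group
          _ = 1 := by rw [ht]; group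
      · have h4 : t⁻¹ * ((a : G) * t * (a : G)⁻¹) = (t * (a : G) * t⁻¹) * (a : G)⁻¹ := by
          rw [htinv]; group
        rw [h4]
        exact Y.mul_mem (hn _ a.2) (Y.inv_mem a.2)
    · rintro ⟨hu, huY⟩
      obtain ⟨w, hwY, rfl⟩ := coset_inv_conj Y hY t ht hn u hu huY
      refine ⟨QuotientGroup.mk ((⟨w, hwY⟩ : Y)⁻¹), ?_⟩
      rw [hFmk]
      simp
  have hcard : {u : G | u * u = 1 ∧ t⁻¹ * u ∈ Y}.ncard = Nat.card (Y ⧸ C) := by
    rw [← hrange]
    exact Set.ncard_range_of_injective hFinj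
  rw [hcard, ← hcardC, ← hq]

end Cfsg.Agent.Helper91.H581P2
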