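import Mathlib

/-!
# CALL S5975 piece IDX (helper91)
-/

set_option autoImplicit false

namespace Cfsg.Agent.Helper91

/-- PIECE IDX -/
theorem c3e_idx {G : Type*} [Group G] [Finite G] (N S : Subgroup G) (r b : ℕ)
    (hr : r ∣ N.relIndex S) (hb : b ∣ Nat.card ↥(N ⊓ S)) : r ∣ Nat.card ↥S / b := by
  have h1 : Nat.card ↥(N ⊓ S) * N.relIndex S = Nat.card ↥S := by
    have h := Subgroup.relIndex_mul_relIndex (⊥ : Subgroup G) (N ⊓ S) S bot_le inf_le_right
    rw [Subgroup.relIndex_bot_left, Subgroup.relIndex_bot_left, Subgroup.inf_relIndex_right] at h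
    exact h
  obtain ⟨c, hc⟩ := hb
  have hb0 : 0 < b := by
    rcases Nat.eq_zero_or_pos b with h0 | h0
    · exfalso
      rw [h0, zero_mul] at hc
      exact (Nat.card_pos (α := ↥(N ⊓ S))).ne' hc
    · exact h0
  rw [← h1, hc, mul_assoc, Nat.mul_div_cancel_left _ hb0]
  exact Dvd.dvd.mul_left hr c

end Cfsg.Agent.Helper91
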