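import Mathlib
import Cfsg.Prelude.Def_GeometricClasses
import Cfsg.Prelude.Def_ClassicalGeometry
import Cfsg.Agent.Helper94.SpGen

/-!
# CALL S5975 piece SQ (helper91)
-/

set_option autoImplicit false

namespace Cfsg.Agent.Helper91

open Matrix Module

/-- PIECE SQ -/
theorem c3e_sq {F : Type*} [Field F] (d : ℕ) (hd : 1 ≤ d) (x : GL (Fin d ⊕ Fin d) F)
    (hx : x ∈ Cfsg.spGL d F) (z : F)
    (hz : ((x ^ 2 : GL (Fin d ⊕ Fin d) F) : Matrix (Fin d ⊕ Fin d) (Fin d ⊕ Fin d) F) = z • 1) :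
    z = 1 ∨ z = -1 := by
  have hx2 : x ^ 2 ∈ Cfsg.spGL d F := Subgroup.pow_mem _ hx 2
  have hpres : ∀ u v : Fin d ⊕ Fin d → F,
      Cfsg.sympForm d F (((x ^ 2 : GL (Fin d ⊕ Fin d) F) :
        Matrix (Fin d ⊕ Fin d) (Fin d ⊕ Fin d) F) *ᵥ u)
        (((x ^ 2 : GL (Fin d ⊕ Fin d) F) : Matrix (Fin d ⊕ Fin d) (Fin d ⊕ Fin d) F) *ᵥ v) =
      Cfsg.sympForm d F u v := hx2
  let i0 : Fin d := ⟨0, hd⟩
  let u : Fin d ⊕ Fin d → F := Pi.single (Sum.inr i0) 1
  let v : Fin d ⊕ Fin d → F := Pi.single (Sum.inl i0) 1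
  have huv : Cfsg.sympForm d F u v = 1 := by
    rw [Cfsg.Agent.Helper94.symp_explicit]
    rw [Finset.sum_eq_single i0]
    · simp [u, v]
    · intro b _ hb
      simp [u, v, hb]
    · intro h; exact absurd (Finset.mem_univ _) h
  have h := hpres u v
  rw [hz] at h
  have hzu : ∀ w : Fin d ⊕ Fin d → F,
      (z • (1 : Matrix (Fin d ⊕ Fin d) (Fin d ⊕ Fin d) F)) *ᵥ w = z • w := by
    intro w
    rw [Matrix.smul_mulVec, Matrix.one_mulVec]
  rw [hzu, hzu] at h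
  have h3 : Cfsg.sympForm d F (z • u) (z • v) = z * z * Cfsg.sympForm d F u v := by
    rw [← Cfsg.Agent.Helper94.sympB_apply, ← Cfsg.Agent.Helper94.sympB_apply]
    simp only [map_smul, LinearMap.smul_apply, smul_eq_mul]
    ring
  rw [h3, huv, mul_one] at h
  have h4 : (z - 1) * (z + 1) = 0 := by linear_combination h
  rcases mul_eq_zero.1 h4 with h5 | h5
  · left; linear_combination h5
  · right; linear_combination h5

end Cfsg.Agent.Helper91
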