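import Mathlib

/-!
# CALL S2100 piece A1 (helper91)
-/

set_option autoImplicit false

namespace Cfsg.Agent.Helper91.STUA1

section

variable {K : Type*} [Field K] {Γ : Type*} [Group Γ] {E : Type*} [Group E]

/-- PIECE A1: in a central extension the commutator of two elements depends only on their
images. -/
theorem comm_lift_eq (ψ : E →* Γ) (hc : ψ.ker ≤ Subgroup.center E) {a a' b b' : E}
    (ha : ψ a = ψ a') (hb : ψ b = ψ b') :
    a * b * a⁻¹ * b⁻¹ = a' * b' * a'⁻¹ * b'⁻¹ := by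
  have hz : a'⁻¹ * a ∈ Subgroup.center E :=
    hc (by rw [MonoidHom.mem_ker, map_mul, map_inv, ha, inv_mul_cancel])
  have hw : b'⁻¹ * b ∈ Subgroup.center E :=
    hc (by rw [MonoidHom.mem_ker, map_mul, map_inv, hb, inv_mul_cancel])
  obtain ⟨z, hzdef⟩ : ∃ z, z = a'⁻¹ * a := ⟨_, rfl⟩
  obtain ⟨w, hwdef⟩ : ∃ w, w = b'⁻¹ * b := ⟨_, rfl⟩
  rw [← hzdef] at hz
  rw [← hwdef] at hw
  have h1 := Subgroup.mem_center_iff.1 hz
  have h2 := Subgroup.mem_center_iff.1 hw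
  have ea : a = a' * z := by rw [hzdef]; group
  have eb : b = b' * w := by rw [hwdef]; group
  rw [ea, eb]
  have k1 : z * (b' * w) * z⁻¹ = b' * w := by
    rw [← h1 (b' * w), mul_inv_cancel_right]
  have k2 : w * a'⁻¹ * w⁻¹ = a'⁻¹ := by
    rw [← h2 a'⁻¹, mul_inv_cancel_right]
  calc a' * z * (b' * w) * (a' * z)⁻¹ * (b' * w)⁻¹
      = a' * (z * (b' * w) * z⁻¹) * a'⁻¹ * (b' * w)⁻¹ := by group
    _ = a' * (b' * w) * a'⁻¹ * (b' * w)⁻¹ := by rw [k1]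
    _ = a' * b' * (w * a'⁻¹ * w⁻¹) * b'⁻¹ := by group
    _ = a' * b' * a'⁻¹ * b'⁻¹ := by rw [k2]

end

end Cfsg.Agent.Helper91.STUA1
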