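import Mathlib
import Cfsg.Prelude.Def_GeometricClasses
import Cfsg.Agent.Helper69.E3Def

/-!
# Piece NF of CALL S5998 (helper69): the normal form of a non-abelian subgroup of order 27 and exponent 3
of `GL_3(F)`

Such a subgroup `R` is conjugate to the standard group `E3 ω` generated by the cyclic shift and
`diag(1, ω, ω²)`.  Proof: take non-commuting `a, b ∈ R`; the commutator `c` is central, `c ≠ 1`, so it has an
eigenvalue `ω ≠ 1`; inside this eigenspace `a` has an eigenvector `v`; the vectors `v, b v, b² v` are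
eigenvectors of `a` for `μ, μ ω, μ ω²`, and after replacing `v` by `b^k v` we may take `μ = 1`.
-/

set_option autoImplicit false

namespace Cfsg.Agent.Helper91

open Cfsg.Agent.Helper69 Matrix

/-! ### Group theory: order 27 -/

theorem e3nf_comm_mem_center {G : Type*} [Group G] (hG : Nat.card G = 27) (hna : ¬ IsMulCommutative G)
    (a b : G) : a * b * a⁻¹ * b⁻¹ ∈ Subgroup.center G := by
  haveI : Finite G := Nat.finite_of_card_ne_zero (by rw [hG]; norm_num)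
  haveI : Fact (Nat.Prime 3) := ⟨Nat.prime_three⟩
  have hp : IsPGroup 3 G := IsPGroup.of_card (n := 3) (by rw [hG]; norm_num)
  haveI : Nontrivial G := (Finite.one_lt_card_iff_nontrivial).mp (by rw [hG]; norm_num)
  have hnt : Nontrivial (Subgroup.center G) := hp.center_nontrivial
  have hq := Subgroup.card_eq_card_quotient_mul_card_subgroup (Subgroup.center G)
  rw [hG] at hq
  have hdvd : Nat.card (Subgroup.center G) ∣ 3 ^ 3 := ⟨Nat.card (G ⧸ Subgroup.center G), by rw [mul_comm, ← hq]; norm_num⟩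
  obtain ⟨k, hk, hz⟩ := (Nat.dvd_prime_pow Nat.prime_three).mp hdvd
  have h1lt := (Finite.one_lt_card_iff_nontrivial (α := Subgroup.center G)).mpr hnt
  interval_cases k
  · exfalso
    rw [hz] at h1lt
    norm_num at h1lt
  · have hq9 : Nat.card (G ⧸ Subgroup.center G) = 3 ^ 2 := by
      have hz' : Nat.card (Subgroup.center G) = 3 := by simpa using hz
      rw [hz'] at hq
      omega
    have hcomm := (IsPGroup.isMulCommutative_of_card_eq_prime_sq hq9).is_comm.comm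
    have h1 := hcomm (QuotientGroup.mk a) (QuotientGroup.mk b)
    rw [← QuotientGroup.eq_one_iff, QuotientGroup.mk_mul, QuotientGroup.mk_mul, QuotientGroup.mk_mul,
      QuotientGroup.mk_inv, QuotientGroup.mk_inv, h1]
    group
  · exfalso
    have hq3 : Nat.card (G ⧸ Subgroup.center G) = 3 := by
      have hz' : Nat.card (Subgroup.center G) = 9 := by simpa using hz
      rw [hz'] at hq
      omega
    haveI : IsCyclic (G ⧸ Subgroup.center G) := isCyclic_of_prime_card hq3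
    exact hna ((QuotientGroup.mk' (Subgroup.center G)).isMulCommutative_of_isCyclic_of_ker_le_center
      (by rw [QuotientGroup.ker_mk']))
  · exfalso
    have htop : Subgroup.center G = ⊤ := Subgroup.eq_top_of_card_eq _ (by rw [hz, hG]; norm_num)
    apply hna
    rw [isMulCommutative_iff]
    intro x y
    have hx : x ∈ Subgroup.center G := by rw [htop]; trivial
    exact ((Subgroup.mem_center_iff.mp hx) y).symm

theorem e3nf_card_eq {G : Type*} [Group G] (R H : Subgroup G) (hR : Nat.card R = 27) (hle : H ≤ R)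
    (a b : G) (ha : a ∈ H) (hb : b ∈ H) (hab : a * b ≠ b * a) : Nat.card H = 27 := by
  haveI : Fact (Nat.Prime 3) := ⟨Nat.prime_three⟩
  have hdvd : Nat.card H ∣ 3 ^ 3 := by
    have h := Subgroup.card_dvd_of_le hle
    rw [hR] at h
    exact h
  obtain ⟨k, hk, hz⟩ := (Nat.dvd_prime_pow Nat.prime_three).mp hdvd
  have hcontra : (∀ x y : H, x * y = y * x) → False := by
    intro h
    apply hab
    have h' := h ⟨a, ha⟩ ⟨b, hb⟩
    exact congrArg Subtype.val h'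
  interval_cases k
  · exfalso
    apply hcontra
    have hsub : Subsingleton H := (Nat.card_eq_one_iff_unique.mp (by simpa using hz)).1
    intro x y
    rw [Subsingleton.elim x 1, Subsingleton.elim y 1]
  · exfalso
    apply hcontra
    haveI : IsCyclic H := isCyclic_of_prime_card (by simpa using hz)
    intro x y
    exact (IsCyclic.isMulCommutative (α := H)).is_comm.comm x y
  · exfalso
    apply hcontra
    exact (IsPGroup.isMulCommutative_of_card_eq_prime_sq hz).is_comm.comm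
  · simpa using hz

/-! ### Linear algebra: eigenvectors of matrices with `M ^ 3 = 1` -/

section

variable {F : Type*} [Field F]

theorem e3nf_comm_sub_smul (N M : Matrix (Fin 3) (Fin 3) F) (r : F) (h : N * M = M * N) :
    N * (M - r • (1 : Matrix (Fin 3) (Fin 3) F)) = (M - r • (1 : Matrix (Fin 3) (Fin 3) F)) * N := by
  rw [mul_sub, sub_mul, h, mul_smul_comm, smul_mul_assoc, mul_one, one_mul]

theorem e3nf_sub_smul_mulVec (M : Matrix (Fin 3) (Fin 3) F) (r : F) (u : Fin 3 → F) :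
    (M - r • (1 : Matrix (Fin 3) (Fin 3) F)) *ᵥ u = M *ᵥ u - r • u := by
  rw [Matrix.sub_mulVec, Matrix.smul_mulVec, Matrix.one_mulVec]

theorem e3nf_chain2 (M : Matrix (Fin 3) (Fin 3) F) (r₁ r₂ : F) (u : Fin 3 → F)
    (h : (M - r₂ • (1 : Matrix (Fin 3) (Fin 3) F)) *ᵥ ((M - r₁ • (1 : Matrix (Fin 3) (Fin 3) F)) *ᵥ u) = 0)
    (hu : u ≠ 0) :
    ∃ Q : Matrix (Fin 3) (Fin 3) F, (∀ N : Matrix (Fin 3) (Fin 3) F, N * M = M * N → N * Q = Q * N) ∧
      Q *ᵥ u ≠ 0 ∧ ∃ μ : F, (μ = r₁ ∨ μ = r₂) ∧ M *ᵥ (Q *ᵥ u) = μ • (Q *ᵥ u) := by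
  by_cases h1 : (M - r₁ • (1 : Matrix (Fin 3) (Fin 3) F)) *ᵥ u = 0
  · refine ⟨1, fun N _ => by rw [mul_one, one_mul], by rwa [Matrix.one_mulVec], r₁, Or.inl rfl, ?_⟩
    rw [Matrix.one_mulVec]
    rw [e3nf_sub_smul_mulVec] at h1
    exact sub_eq_zero.mp h1
  · refine ⟨M - r₁ • 1, fun N hN => e3nf_comm_sub_smul N M r₁ hN, h1, r₂, Or.inr rfl, ?_⟩
    rw [e3nf_sub_smul_mulVec M r₂] at h
    exact sub_eq_zero.mp h

theorem e3nf_chain3 (M : Matrix (Fin 3) (Fin 3) F) (r₁ r₂ r₃ : F) (u : Fin 3 → F)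
    (h : (M - r₃ • (1 : Matrix (Fin 3) (Fin 3) F)) *ᵥ ((M - r₂ • (1 : Matrix (Fin 3) (Fin 3) F)) *ᵥ
      ((M - r₁ • (1 : Matrix (Fin 3) (Fin 3) F)) *ᵥ u)) = 0)
    (hu : u ≠ 0) :
    ∃ Q : Matrix (Fin 3) (Fin 3) F, (∀ N : Matrix (Fin 3) (Fin 3) F, N * M = M * N → N * Q = Q * N) ∧
      Q *ᵥ u ≠ 0 ∧ ∃ μ : F, (μ = r₁ ∨ μ = r₂ ∨ μ = r₃) ∧ M *ᵥ (Q *ᵥ u) = μ • (Q *ᵥ u) := by
  by_cases h1 : (M - r₁ • (1 : Matrix (Fin 3) (Fin 3) F)) *ᵥ u = 0
  · refine ⟨1, fun N _ => by rw [mul_one, one_mul], by rwa [Matrix.one_mulVec], r₁, Or.inl rfl, ?_⟩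
    rw [Matrix.one_mulVec]
    rw [e3nf_sub_smul_mulVec] at h1
    exact sub_eq_zero.mp h1
  · obtain ⟨Q, hQ, hQu, μ, hμ, hM⟩ := e3nf_chain2 M r₂ r₃ _ h h1
    refine ⟨Q * (M - r₁ • 1), fun N hN => ?_, ?_, μ, Or.inr hμ, ?_⟩
    · rw [← mul_assoc, hQ N hN, mul_assoc, e3nf_comm_sub_smul N M r₁ hN, mul_assoc]
    · rwa [← Matrix.mulVec_mulVec]
    · rw [← Matrix.mulVec_mulVec]
      exact hM

theorem e3nf_cube_factor (M : Matrix (Fin 3) (Fin 3) F) (hM : M ^ 3 = 1) (w : F) (hsum : 1 + w + w ^ 2 = 0)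
    (hw3 : w ^ 3 = 1) (u : Fin 3 → F) :
    (M - w ^ 2 • (1 : Matrix (Fin 3) (Fin 3) F)) *ᵥ ((M - w • (1 : Matrix (Fin 3) (Fin 3) F)) *ᵥ
      ((M - (1 : F) • (1 : Matrix (Fin 3) (Fin 3) F)) *ᵥ u)) = 0 := by
  have key : (M - w ^ 2 • (1 : Matrix (Fin 3) (Fin 3) F)) * (M - w • (1 : Matrix (Fin 3) (Fin 3) F)) *
      (M - (1 : F) • (1 : Matrix (Fin 3) (Fin 3) F)) = 0 := by
    have e : (M - w ^ 2 • (1 : Matrix (Fin 3) (Fin 3) F)) * (M - w • (1 : Matrix (Fin 3) (Fin 3) F)) *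
        (M - (1 : F) • (1 : Matrix (Fin 3) (Fin 3) F))
        = M ^ 3 - (1 + w + w ^ 2) • (M * M) + (w * (1 + w + w ^ 2)) • M - w ^ 3 • 1 := by
      simp only [sub_mul, mul_sub, smul_mul_assoc, mul_smul_comm, one_mul, mul_one, smul_sub, smul_smul,
        pow_succ, pow_zero, mul_assoc]
      module
    rw [e, hsum, hw3, hM]
    simp
  rw [Matrix.mulVec_mulVec, Matrix.mulVec_mulVec, key, Matrix.zero_mulVec]

theorem e3nf_exists_eigen_ne_one (C : Matrix (Fin 3) (Fin 3) F) (hC3 : C ^ 3 = 1) (hC1 : C ≠ 1) (w : F)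
    (hsum : 1 + w + w ^ 2 = 0) (hw3 : w ^ 3 = 1) :
    ∃ v : Fin 3 → F, v ≠ 0 ∧ ∃ ω : F, (ω = w ∨ ω = w ^ 2) ∧ C *ᵥ v = ω • v := by
  obtain ⟨u, hu⟩ : ∃ u : Fin 3 → F, (C - (1 : F) • (1 : Matrix (Fin 3) (Fin 3) F)) *ᵥ u ≠ 0 := by
    by_contra hno
    apply hC1
    apply Matrix.mulVec_injective
    funext u
    have h := not_not.mp (not_exists.mp hno u)
    rw [e3nf_sub_smul_mulVec, one_smul] at h
    rw [Matrix.one_mulVec]
    exact sub_eq_zero.mp h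
  obtain ⟨Q, -, hQu, μ, hμ, hM⟩ := e3nf_chain2 C w (w ^ 2) _ (e3nf_cube_factor C hC3 w hsum hw3 u) hu
  exact ⟨_, hQu, μ, hμ, hM⟩

theorem e3nf_eig_step (A B C : Matrix (Fin 3) (Fin 3) F) (hAB : A * B = C * B * A) (hCB : C * B = B * C)
    (v : Fin 3 → F) (μ ω : F) (hA : A *ᵥ v = μ • v) (hC : C *ᵥ v = ω • v) :
    A *ᵥ (B *ᵥ v) = (μ * ω) • (B *ᵥ v) ∧ C *ᵥ (B *ᵥ v) = ω • (B *ᵥ v) := by
  have h2 : C *ᵥ (B *ᵥ v) = ω • (B *ᵥ v) := by
    rw [Matrix.mulVec_mulVec, hCB, ← Matrix.mulVec_mulVec, hC, Matrix.mulVec_smul]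
  refine ⟨?_, h2⟩
  rw [Matrix.mulVec_mulVec, hAB, ← Matrix.mulVec_mulVec, ← Matrix.mulVec_mulVec, hA, Matrix.mulVec_smul,
    Matrix.mulVec_smul, h2, smul_smul]

theorem e3nf_mulVec_ne_zero (B : Matrix (Fin 3) (Fin 3) F) (hB : B ^ 3 = 1) (v : Fin 3 → F) (hv : v ≠ 0) :
    B *ᵥ v ≠ 0 := by
  intro h
  apply hv
  have h' : (B ^ 3) *ᵥ v = 0 := by
    rw [pow_succ, ← Matrix.mulVec_mulVec, h, Matrix.mulVec_zero]
  rwa [hB, Matrix.one_mulVec] at h'

theorem e3nf_exists_eigen_one (A B C : Matrix (Fin 3) (Fin 3) F) (hAB : A * B = C * B * A)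
    (hCB : C * B = B * C) (hB3 : B ^ 3 = 1) (w : F) (hw3 : w ^ 3 = 1)
    (v : Fin 3 → F) (hv : v ≠ 0) (μ ω : F) (hμ : μ = 1 ∨ μ = w ∨ μ = w ^ 2) (hω : ω = w ∨ ω = w ^ 2)
    (hA : A *ᵥ v = μ • v) (hC : C *ᵥ v = ω • v) :
    ∃ v' : Fin 3 → F, v' ≠ 0 ∧ A *ᵥ v' = v' ∧ C *ᵥ v' = ω • v' := by
  have s1 := e3nf_eig_step A B C hAB hCB v μ ω hA hC
  have s2 := e3nf_eig_step A B C hAB hCB (B *ᵥ v) (μ * ω) ω s1.1 s1.2
  have n1 := e3nf_mulVec_ne_zero B hB3 v hv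
  have n2 := e3nf_mulVec_ne_zero B hB3 _ n1
  rcases hμ with hμ | hμ | hμ
  · exact ⟨v, hv, by rw [hA, hμ, one_smul], hC⟩
  · rcases hω with hω | hω
    · refine ⟨_, n2, ?_, s2.2⟩
      have e : μ * ω * ω = 1 := by rw [hμ, hω, ← hw3]; ring
      rw [s2.1, e, one_smul]
    · refine ⟨_, n1, ?_, s1.2⟩
      have e : μ * ω = 1 := by rw [hμ, hω, ← hw3]; ring
      rw [s1.1, e, one_smul]
  · rcases hω with hω | hω
    · refine ⟨_, n1, ?_, s1.2⟩
      have e : μ * ω = 1 := by rw [hμ, hω, ← hw3]; ring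
      rw [s1.1, e, one_smul]
    · refine ⟨_, n2, ?_, s2.2⟩
      have e : μ * ω * ω = 1 := by
        have e' : μ * ω * ω = (w ^ 3) ^ 2 := by rw [hμ, hω]; ring
        rw [e', hw3, one_pow]
      rw [s2.1, e, one_smul]

theorem e3nf_inj_pows (ω : F) (h0 : ω ≠ 0) (h1 : ω ≠ 1) (h2 : ω ^ 2 ≠ 1) :
    Function.Injective (fun i : Fin 3 => ω ^ (i : ℕ)) := by
  have key : ∀ a b : ℕ, a < b → b < 3 → ω ^ a ≠ ω ^ b := by
    intro a b hab hb h
    have hb' : b = a + (b - a) := by omega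
    rw [hb', pow_add] at h
    have h' : ω ^ (b - a) = 1 := by
      have h'' := mul_left_cancel₀ (pow_ne_zero a h0) (show ω ^ a * 1 = ω ^ a * ω ^ (b - a) by rw [mul_one]; exact h)
      exact h''.symm
    have hd : b - a = 1 ∨ b - a = 2 := by omega
    rcases hd with hd | hd
    · rw [hd, pow_one] at h'
      exact h1 h'
    · rw [hd] at h'
      exact h2 h'
  intro i j hij
  by_contra hne
  rcases lt_or_gt_of_ne (fun h => hne (Fin.ext h) : (i : ℕ) ≠ j) with h | h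
  · exact key _ _ h j.2 hij
  · exact key _ _ h i.2 hij.symm

theorem e3nf_mul_of_cols (M : Matrix (Fin 3) (Fin 3) F) (vs : Fin 3 → Fin 3 → F) (i j : Fin 3) :
    (M * Matrix.of (fun i j => vs j i)) i j = (M *ᵥ vs j) i := rfl

/-- the matrix form of the normal form -/
theorem e3nf_matrix (A B C : Matrix (Fin 3) (Fin 3) F) (w : F) (hw1 : w ≠ 1) (hw3 : w ^ 3 = 1)
    (hA3 : A ^ 3 = 1) (hB3 : B ^ 3 = 1) (hC3 : C ^ 3 = 1) (hC1 : C ≠ 1)
    (hCA : C * A = A * C) (hCB : C * B = B * C) (hAB : A * B = C * B * A) :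
    ∃ (ω : F) (P : Matrix (Fin 3) (Fin 3) F), ω ≠ 1 ∧ ω ^ 3 = 1 ∧ P.det ≠ 0 ∧
      A * P = P * e3Z ω ∧ B * P = P * e3X F := by
  have hsum : 1 + w + w ^ 2 = 0 := by
    have h : (w - 1) * (1 + w + w ^ 2) = 0 := by
      have e : (w - 1) * (1 + w + w ^ 2) = w ^ 3 - 1 := by ring
      rw [e, hw3, sub_self]
    rcases mul_eq_zero.mp h with h | h
    · exact absurd (sub_eq_zero.mp h) hw1
    · exact h
  have hw0 : w ≠ 0 := by
    rintro rfl
    norm_num at hw3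
  have hw2 : w ^ 2 ≠ 1 := by
    intro h
    apply hw1
    have e : w ^ 3 = w := by rw [pow_succ, h, one_mul]
    rw [← e, hw3]
  obtain ⟨vc, hvc, ω, hω, hCvc⟩ := e3nf_exists_eigen_ne_one C hC3 hC1 w hsum hw3
  obtain ⟨Q, hQ, hQu, μ, hμ, hAQ⟩ := e3nf_chain3 A 1 w (w ^ 2) vc (e3nf_cube_factor A hA3 w hsum hw3 vc) hvc
  have hCQ : C *ᵥ (Q *ᵥ vc) = ω • (Q *ᵥ vc) := by
    rw [Matrix.mulVec_mulVec, hQ C hCA, ← Matrix.mulVec_mulVec, hCvc, Matrix.mulVec_smul]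
  obtain ⟨v₀, hv₀, hAv₀, hCv₀⟩ :=
    e3nf_exists_eigen_one A B C hAB hCB hB3 w hw3 _ hQu μ ω hμ hω hAQ hCQ
  have hω1 : ω ≠ 1 := by
    rcases hω with h | h
    · rw [h]; exact hw1
    · rw [h]; exact hw2
  have hω3 : ω ^ 3 = 1 := by
    rcases hω with h | h
    · rw [h]; exact hw3
    · rw [h, ← pow_mul, mul_comm, pow_mul, hw3, one_pow]
  have hω0 : ω ≠ 0 := by
    rintro rfl
    norm_num at hω3
  have hω2 : ω ^ 2 ≠ 1 := by
    intro h
    apply hω1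
    have e : ω ^ 3 = ω := by rw [pow_succ, h, one_mul]
    rw [← e, hω3]
  have s1 := e3nf_eig_step A B C hAB hCB v₀ 1 ω (by rw [hAv₀, one_smul]) hCv₀
  have s2 := e3nf_eig_step A B C hAB hCB (B *ᵥ v₀) (1 * ω) ω s1.1 s1.2
  have n1 := e3nf_mulVec_ne_zero B hB3 v₀ hv₀
  have n2 := e3nf_mulVec_ne_zero B hB3 _ n1
  have hB2 : B *ᵥ (B *ᵥ (B *ᵥ v₀)) = v₀ := by
    have h3 : B ^ 3 = B * (B * B) := by rw [pow_succ, pow_two, mul_assoc]
    rw [Matrix.mulVec_mulVec v₀ B B, Matrix.mulVec_mulVec v₀ B (B * B), ← h3, hB3, Matrix.one_mulVec]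
  obtain ⟨vs, hvs⟩ : ∃ vs : Fin 3 → Fin 3 → F, vs = ![v₀, B *ᵥ v₀, B *ᵥ (B *ᵥ v₀)] := ⟨_, rfl⟩
  have hvs0 : vs 0 = v₀ := by rw [hvs]; rfl
  have hvs1 : vs 1 = B *ᵥ v₀ := by rw [hvs]; rfl
  have hvs2 : vs 2 = B *ᵥ (B *ᵥ v₀) := by rw [hvs]; rfl
  refine ⟨ω, Matrix.of (fun i j => vs j i), hω1, hω3, ?_, ?_, ?_⟩
  · -- the determinant
    have hLI : LinearIndependent F vs := by
      apply Module.End.eigenvectors_linearIndependent' (Matrix.toLin' A) (fun i : Fin 3 => ω ^ (i : ℕ))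
        (e3nf_inj_pows ω hω0 hω1 hω2) vs
      intro i
      rw [Module.End.hasEigenvector_iff, Module.End.mem_eigenspace_iff, Matrix.toLin'_apply]
      fin_cases i
      · refine ⟨?_, ?_⟩
        · show A *ᵥ vs 0 = ω ^ (0 : ℕ) • vs 0
          rw [hvs0, hAv₀, pow_zero, one_smul]
        · show vs 0 ≠ 0
          rw [hvs0]; exact hv₀
      · refine ⟨?_, ?_⟩
        · show A *ᵥ vs 1 = ω ^ (1 : ℕ) • vs 1
          rw [hvs1, s1.1, one_mul, pow_one]
        · show vs 1 ≠ 0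
          rw [hvs1]; exact n1
      · refine ⟨?_, ?_⟩
        · show A *ᵥ vs 2 = ω ^ (2 : ℕ) • vs 2
          rw [hvs2, s2.1, one_mul, pow_two]
        · show vs 2 ≠ 0
          rw [hvs2]; exact n2
    have hcol : (Matrix.of (fun i j => vs j i) : Matrix (Fin 3) (Fin 3) F).col = vs := by
      funext j i
      rfl
    have hunit : IsUnit (Matrix.of (fun i j => vs j i) : Matrix (Fin 3) (Fin 3) F) :=
      Matrix.linearIndependent_cols_iff_isUnit.mp (by rw [hcol]; exact hLI)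
    exact ((Matrix.isUnit_iff_isUnit_det _).mp hunit).ne_zero
  · -- `A * P = P * Z`
    ext i j
    rw [e3nf_mul_of_cols]
    fin_cases j
    · show (A *ᵥ vs 0) i = _
      rw [hvs0, hAv₀]
      simp [Matrix.mul_apply, Fin.sum_univ_three, e3Z, hvs0]
    · show (A *ᵥ vs 1) i = _
      rw [hvs1, s1.1]
      simp [Matrix.mul_apply, Fin.sum_univ_three, e3Z, hvs1, mul_comm]
    · show (A *ᵥ vs 2) i = _
      rw [hvs2, s2.1]
      simp [Matrix.mul_apply, Fin.sum_univ_three, e3Z, hvs2, mul_comm, pow_two]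
  · -- `B * P = P * X`
    ext i j
    rw [e3nf_mul_of_cols]
    fin_cases j
    · show (B *ᵥ vs 0) i = _
      rw [hvs0]
      simp [Matrix.mul_apply, Fin.sum_univ_three, e3X, hvs1]
    · show (B *ᵥ vs 1) i = _
      rw [hvs1]
      simp [Matrix.mul_apply, Fin.sum_univ_three, e3X, hvs2]
    · show (B *ᵥ vs 2) i = _
      rw [hvs2, hB2]
      simp [Matrix.mul_apply, Fin.sum_univ_three, e3X, hvs0]

end

/-- PIECE NF -/
theorem e3_normal_form {F : Type*} [Field F] (h3 : (3 : F) ≠ 0) (w : F) (hw1 : w ≠ 1) (hw3 : w ^ 3 = 1)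
    (R : Subgroup (GL (Fin 3) F)) (hR : Nat.card R = 27) (hRe : Monoid.exponent R = 3)
    (hRna : ¬ IsMulCommutative R) :
    ∃ (ω : F) (P : GL (Fin 3) F), ω ≠ 1 ∧ ω ^ 3 = 1 ∧
      R = (E3 ω).map (MulAut.conj P).toMonoidHom := by
  classical
  haveI : Finite R := Nat.finite_of_card_ne_zero (by rw [hR]; norm_num)
  obtain ⟨a, b, hab⟩ : ∃ a b : R, a * b ≠ b * a := by
    by_contra hno
    apply hRna
    rw [isMulCommutative_iff]
    intro a b
    by_contra h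
    exact hno ⟨a, b, h⟩
  have hcen := e3nf_comm_mem_center hR hRna a b
  obtain ⟨c, hc⟩ : ∃ c : R, c = a * b * a⁻¹ * b⁻¹ := ⟨_, rfl⟩
  rw [← hc] at hcen
  have hca : c * a = a * c := ((Subgroup.mem_center_iff.mp hcen) a).symm
  have hcb : c * b = b * c := ((Subgroup.mem_center_iff.mp hcen) b).symm
  have hcba : a * b = c * b * a := by rw [hc]; group
  have hc1 : c ≠ 1 := by
    intro h
    apply hab
    rw [hcba, h, one_mul]
  have hexp : ∀ g : R, g ^ 3 = 1 := fun g => by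
    have h := Monoid.pow_exponent_eq_one g
    rwa [hRe] at h
  have toMat : ∀ x y : R, x = y →
      ((x : GL (Fin 3) F) : Matrix (Fin 3) (Fin 3) F) = ((y : GL (Fin 3) F) : Matrix (Fin 3) (Fin 3) F) :=
    fun x y h => by rw [h]
  have hA3 : ((a : GL (Fin 3) F) : Matrix (Fin 3) (Fin 3) F) ^ 3 = 1 := by
    have h := toMat _ _ (hexp a)
    simpa using h
  have hB3 : ((b : GL (Fin 3) F) : Matrix (Fin 3) (Fin 3) F) ^ 3 = 1 := by
    have h := toMat _ _ (hexp b)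
    simpa using h
  have hC3 : ((c : GL (Fin 3) F) : Matrix (Fin 3) (Fin 3) F) ^ 3 = 1 := by
    have h := toMat _ _ (hexp c)
    simpa using h
  have hC1 : ((c : GL (Fin 3) F) : Matrix (Fin 3) (Fin 3) F) ≠ 1 := by
    intro h
    apply hc1
    apply Subtype.ext
    apply Units.ext
    simpa using h
  have hCA : ((c : GL (Fin 3) F) : Matrix (Fin 3) (Fin 3) F) * ((a : GL (Fin 3) F) : Matrix (Fin 3) (Fin 3) F)
      = ((a : GL (Fin 3) F) : Matrix (Fin 3) (Fin 3) F) * ((c : GL (Fin 3) F) : Matrix (Fin 3) (Fin 3) F) := by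
    have h := toMat _ _ hca
    simpa using h
  have hCB : ((c : GL (Fin 3) F) : Matrix (Fin 3) (Fin 3) F) * ((b : GL (Fin 3) F) : Matrix (Fin 3) (Fin 3) F)
      = ((b : GL (Fin 3) F) : Matrix (Fin 3) (Fin 3) F) * ((c : GL (Fin 3) F) : Matrix (Fin 3) (Fin 3) F) := by
    have h := toMat _ _ hcb
    simpa using h
  have hAB : ((a : GL (Fin 3) F) : Matrix (Fin 3) (Fin 3) F) * ((b : GL (Fin 3) F) : Matrix (Fin 3) (Fin 3) F)
      = ((c : GL (Fin 3) F) : Matrix (Fin 3) (Fin 3) F) * ((b : GL (Fin 3) F) : Matrix (Fin 3) (Fin 3) F) *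
        ((a : GL (Fin 3) F) : Matrix (Fin 3) (Fin 3) F) := by
    have h := toMat _ _ hcba
    simpa using h
  obtain ⟨ω, P, hω1, hω3, hdet, hAP, hBP⟩ := e3nf_matrix _ _ _ w hw1 hw3 hA3 hB3 hC3 hC1 hCA hCB hAB
  obtain ⟨Pg, hPg⟩ : ∃ Pg : GL (Fin 3) F, (Pg : Matrix (Fin 3) (Fin 3) F) = P :=
    ⟨Matrix.GeneralLinearGroup.mkOfDetNeZero P hdet, rfl⟩
  refine ⟨ω, Pg, hω1, hω3, ?_⟩
  have hPinv : ((Pg⁻¹ : GL (Fin 3) F) : Matrix (Fin 3) (Fin 3) F) * P = 1 := by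
    rw [← hPg, ← Units.val_mul, inv_mul_cancel, Units.val_one]
  obtain ⟨gZ, hgZdef⟩ : ∃ gZ : GL (Fin 3) F, gZ = Pg⁻¹ * (a : GL (Fin 3) F) * Pg := ⟨_, rfl⟩
  obtain ⟨gX, hgXdef⟩ : ∃ gX : GL (Fin 3) F, gX = Pg⁻¹ * (b : GL (Fin 3) F) * Pg := ⟨_, rfl⟩
  have hgZ : (gZ : Matrix (Fin 3) (Fin 3) F) = e3Z ω := by
    rw [hgZdef, Units.val_mul, Units.val_mul, hPg, mul_assoc, hAP, ← mul_assoc, hPinv, one_mul]
  have hgX : (gX : Matrix (Fin 3) (Fin 3) F) = e3X F := by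
    rw [hgXdef, Units.val_mul, Units.val_mul, hPg, mul_assoc, hBP, ← mul_assoc, hPinv, one_mul]
  have hE3 : E3 ω = Subgroup.closure {gX, gZ} := by
    unfold E3
    congr 1
    ext g
    simp only [Set.mem_setOf_eq, Set.mem_insert_iff, Set.mem_singleton_iff]
    constructor
    · rintro (h | h)
      · left; exact Units.ext (h.trans hgX.symm)
      · right; exact Units.ext (h.trans hgZ.symm)
    · rintro (rfl | rfl)
      · left; exact hgX
      · right; exact hgZ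
  have e1 : (MulAut.conj Pg).toMonoidHom gX = (b : GL (Fin 3) F) := by
    show Pg * gX * Pg⁻¹ = (b : GL (Fin 3) F)
    rw [hgXdef]; group
  have e2 : (MulAut.conj Pg).toMonoidHom gZ = (a : GL (Fin 3) F) := by
    show Pg * gZ * Pg⁻¹ = (a : GL (Fin 3) F)
    rw [hgZdef]; group
  have hmap : (E3 ω).map (MulAut.conj Pg).toMonoidHom =
      Subgroup.closure {(b : GL (Fin 3) F), (a : GL (Fin 3) F)} := by
    rw [hE3, MonoidHom.map_closure, Set.image_pair, e1, e2]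
  have hle : (E3 ω).map (MulAut.conj Pg).toMonoidHom ≤ R := by
    rw [hmap, Subgroup.closure_le]
    intro g hg
    rcases hg with rfl | rfl
    · exact b.2
    · exact a.2
  have haH : (a : GL (Fin 3) F) ∈ (E3 ω).map (MulAut.conj Pg).toMonoidHom := by
    rw [hmap]; exact Subgroup.subset_closure (by simp)
  have hbH : (b : GL (Fin 3) F) ∈ (E3 ω).map (MulAut.conj Pg).toMonoidHom := by
    rw [hmap]; exact Subgroup.subset_closure (by simp)
  have habG : (a : GL (Fin 3) F) * (b : GL (Fin 3) F) ≠ (b : GL (Fin 3) F) * (a : GL (Fin 3) F) := by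
    intro h
    apply hab
    exact Subtype.ext h
  have hcardH := e3nf_card_eq R _ hR hle _ _ haH hbH habG
  exact (Subgroup.eq_of_le_of_card_ge hle (by rw [hR, hcardH])).symm

end Cfsg.Agent.Helper91
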