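import Mathlib
import Cfsg.Agent.Helper43.OTDefs
import Cfsg.Agent.Helper43.Spinor2

/-!
# CALL OT (S5972) piece CNTB (helper91)
-/

set_option autoImplicit false

namespace Cfsg.Agent.Helper91.OT5972

open Module Polynomial Cfsg.Agent.Helper90.HT Cfsg.Agent.Helper43.OT
open Cfsg.Agent.Helper43.C3O (gm)

universe u

section count

/-- the span of a totally singular family is totally singular -/
theorem otcntb_span_ts {F : Type*} [Field F] (d m : ℕ)
    (v : Fin m → (Unit ⊕ (Fin d ⊕ Fin d) → F))
    (hs : ∀ a, Cfsg.quadFormOdd d F (v a) = 0)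
    (hp : ∀ a b, QuadraticMap.polar (Cfsg.quadFormOdd d F) (v a) (v b) = 0) :
    ∀ x ∈ Submodule.span F (Set.range v), Cfsg.quadFormOdd d F x = 0 := by
  have hpol : ∀ x ∈ Submodule.span F (Set.range v), ∀ y ∈ Submodule.span F (Set.range v),
      QuadraticMap.polar (Cfsg.Agent.Helper43.oddQF d F) x y = 0 := by
    intro x hx y hy
    induction hx using Submodule.span_induction with
    | mem x hx =>
      obtain ⟨a, rfl⟩ := hx
      induction hy using Submodule.span_induction with
      | mem y hy => obtain ⟨b, rfl⟩ := hy; exact hp a b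
      | zero => exact QuadraticMap.polar_zero_right _ _
      | add y y' _ _ h h' => rw [QuadraticMap.polar_add_right, h, h', add_zero]
      | smul c y _ h => rw [QuadraticMap.polar_smul_right, h, smul_zero]
    | zero => exact QuadraticMap.polar_zero_left _ _
    | add x x' _ _ h h' => rw [QuadraticMap.polar_add_left, h, h', add_zero]
    | smul c x _ h => rw [QuadraticMap.polar_smul_left, h, smul_zero]
  intro x hx
  show Cfsg.Agent.Helper43.oddQF d F x = 0
  induction hx using Submodule.span_induction with
  | mem x hx => obtain ⟨a, rfl⟩ := hx; exact hs a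
  | zero => exact QuadraticMap.map_zero _
  | add x x' hx hx' h h' =>
    have h1 := hpol x hx x' hx'
    rw [QuadraticMap.polar, h, h', sub_zero, sub_zero] at h1
    exact h1
  | smul c x _ h => rw [QuadraticMap.map_smul, h, smul_zero]

/-- CNTB: frames = subspaces × bases (as helper41's `cnt_b` / helper37's `ht_cnt_b`). -/
theorem ot_cnt_b (F : Type*) [Field F] [Fintype F] (d m : ℕ) :
    Nat.card (TSFam F d m) =
      Nat.card {W : Submodule F (Unit ⊕ (Fin d ⊕ Fin d) → F) // Module.finrank F ↥W = m ∧
        (∀ w ∈ W, Cfsg.quadFormOdd d F w = 0)} *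
      ∏ j ∈ Finset.range m, (Fintype.card F ^ m - Fintype.card F ^ j) := by
  classical
  have hfinT : Finite (TSFam F d m) := by
    unfold TSFam
    infer_instance
  have hfinS : Finite (Submodule F (Unit ⊕ (Fin d ⊕ Fin d) → F)) :=
    Finite.of_injective (fun W : Submodule F (Unit ⊕ (Fin d ⊕ Fin d) → F) =>
      (W : Set (Unit ⊕ (Fin d ⊕ Fin d) → F))) SetLike.coe_injective
  let f : TSFam F d m →
      {W : Submodule F (Unit ⊕ (Fin d ⊕ Fin d) → F) // Module.finrank F ↥W = m ∧
        (∀ w ∈ W, Cfsg.quadFormOdd d F w = 0)} := fun v =>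
    ⟨Submodule.span F (Set.range v.1), by
      have := finrank_span_eq_card v.2.1
      rw [Fintype.card_fin] at this
      exact this, otcntb_span_ts d m v.1 v.2.2.1 v.2.2.2⟩
  have hfib : ∀ W : {W : Submodule F (Unit ⊕ (Fin d ⊕ Fin d) → F) // Module.finrank F ↥W = m ∧
        (∀ w ∈ W, Cfsg.quadFormOdd d F w = 0)},
      Nat.card {x : TSFam F d m // f x = W} =
        ∏ j ∈ Finset.range m, (Fintype.card F ^ m - Fintype.card F ^ j) := by
    intro W
    have hmem : ∀ (x : TSFam F d m), f x = W → ∀ a, x.1 a ∈ W.1 := by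
      intro x hx a
      have h1 : Submodule.span F (Set.range x.1) = W.1 := congrArg Subtype.val hx
      rw [← h1]
      exact Submodule.subset_span (Set.mem_range_self a)
    let e : {x : TSFam F d m // f x = W} ≃
        {s : Fin m → W.1 // LinearIndependent F s} :=
      { toFun := fun x => ⟨fun a => ⟨x.1.1 a, hmem x.1 x.2 a⟩, by
          apply LinearIndependent.of_comp W.1.subtype
          exact x.1.2.1⟩
        invFun := fun s => ⟨⟨fun a => (s.1 a : Unit ⊕ (Fin d ⊕ Fin d) → F),
            s.2.map' W.1.subtype (Submodule.ker_subtype _),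
            fun a => W.2.2 _ (s.1 a).2,
            fun a b => by
              show Cfsg.quadFormOdd d F ((s.1 a : Unit ⊕ (Fin d ⊕ Fin d) → F) + (s.1 b : _))
                - Cfsg.quadFormOdd d F (s.1 a : Unit ⊕ (Fin d ⊕ Fin d) → F)
                - Cfsg.quadFormOdd d F (s.1 b : Unit ⊕ (Fin d ⊕ Fin d) → F) = 0
              rw [W.2.2 _ (s.1 a).2, W.2.2 _ (s.1 b).2,
                W.2.2 _ (W.1.add_mem (s.1 a).2 (s.1 b).2), sub_zero, sub_zero]⟩, by
          apply Subtype.ext
          show Submodule.span F (Set.range fun a => (s.1 a : Unit ⊕ (Fin d ⊕ Fin d) → F)) = W.1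
          have h1 : Submodule.span F (Set.range s.1) = ⊤ := by
            apply s.2.span_eq_top_of_card_eq_finrank'
            rw [Fintype.card_fin, W.2.1]
          have h2 : (Set.range fun a => (s.1 a : Unit ⊕ (Fin d ⊕ Fin d) → F)) =
              W.1.subtype '' (Set.range s.1) := by
            rw [← Set.range_comp]
            rfl
          rw [h2, Submodule.span_image, h1, Submodule.map_top, Submodule.range_subtype]⟩
        left_inv := fun x => by
          apply Subtype.ext
          apply Subtype.ext
          rfl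
        right_inv := fun s => by
          apply Subtype.ext
          rfl }
    rw [Nat.card_congr e, card_linearIndependent (le_of_eq W.2.1.symm), W.2.1,
      ← Finset.prod_range (fun j => Fintype.card F ^ m - Fintype.card F ^ j)]
  have hfinW : Finite {W : Submodule F (Unit ⊕ (Fin d ⊕ Fin d) → F) //
      Module.finrank F ↥W = m ∧ (∀ w ∈ W, Cfsg.quadFormOdd d F w = 0)} := inferInstance
  letI : Fintype {W : Submodule F (Unit ⊕ (Fin d ⊕ Fin d) → F) //
      Module.finrank F ↥W = m ∧ (∀ w ∈ W, Cfsg.quadFormOdd d F w = 0)} := Fintype.ofFinite _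
  rw [← Nat.card_congr (Equiv.sigmaFiberEquiv f), Nat.card_sigma]
  simp_rw [hfib]
  rw [Finset.sum_const, Finset.card_univ, Nat.card_eq_fintype_card, smul_eq_mul]

end count

end Cfsg.Agent.Helper91.OT5972
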