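import Mathlib
import Cfsg.Prelude.Def_Classical
import Cfsg.Agent.Helper6.BN
import Cfsg.Agent.Helper40.BNStD

/-!
# CALL S2547 piece GCNT (helper91)
-/

set_option autoImplicit false

namespace Cfsg.Agent.Helper91.StGCNT

open Cfsg

open Cfsg.Agent.Helper6

variable {G : Type*} [Group G]

-- === PIECE GCNT ===
theorem p_GCNT [Finite G] (P : Cfsg.BNPair G) (p : ℕ) [Fact p.Prime]
    (hpow : ∀ n ∈ P.N, ∃ k : ℕ, Nat.card (MulAction.orbit ↥P.B ((n : G) : G ⧸ P.B)) = p ^ k)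
    (hfix : ∀ g : G, (∀ b ∈ P.B, g⁻¹ * b * g ∈ P.B) → g ∈ P.B) :
    ¬ p ∣ Nat.card (G ⧸ P.B) := by
  classical
  haveI : Fintype (MulAction.orbitRel.Quotient ↥P.B (G ⧸ P.B)) := Fintype.ofFinite _
  have hcard : Nat.card (G ⧸ P.B) =
      ∑ ω : MulAction.orbitRel.Quotient ↥P.B (G ⧸ P.B),
        Nat.card (MulAction.orbit ↥P.B ω.out) := by
    rw [Nat.card_congr (MulAction.selfEquivSigmaOrbits ↥P.B (G ⧸ P.B)), Nat.card_sigma]
  -- every orbit has `p`-power size
  have hpw : ∀ y : G ⧸ P.B, ∃ k : ℕ, Nat.card (MulAction.orbit ↥P.B y) = p ^ k := by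
    intro y
    induction y using QuotientGroup.induction_on with
    | H g =>
      obtain ⟨n, hn, hg⟩ := bruhat_exists P g
      have h1 : ((g : G) : G ⧸ P.B) ∈ MulAction.orbit ↥P.B ((n : G) : G ⧸ P.B) :=
        (Cfsg.Agent.Helper40.BNSt.mem_orbit_iff P).2 hg
      rw [MulAction.orbit_eq_iff.2 h1]
      exact hpow n hn
  -- the orbit of the base point
  have hbase : MulAction.orbit ↥P.B (((1 : G)) : G ⧸ P.B) = {(((1 : G)) : G ⧸ P.B)} := by
    ext y
    simp only [Set.mem_singleton_iff]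
    constructor
    · rintro ⟨b, rfl⟩
      show ((((b : G) * 1 : G)) : G ⧸ P.B) = (((1 : G)) : G ⧸ P.B)
      rw [QuotientGroup.eq]
      simp
    · intro hy
      rw [hy]
      exact MulAction.mem_orbit_self _
  -- an orbit of size one is the orbit of the base point
  have hone : ∀ y : G ⧸ P.B, Nat.card (MulAction.orbit ↥P.B y) = 1 →
      y = (((1 : G)) : G ⧸ P.B) := by
    intro y
    induction y using QuotientGroup.induction_on with
    | H g =>
      intro hc
      have hsub : ∀ z ∈ MulAction.orbit ↥P.B ((g : G) : G ⧸ P.B), z = ((g : G) : G ⧸ P.B) := by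
        intro z hz
        have hs := (Nat.card_eq_one_iff_unique.1 hc).1
        have := hs.elim ⟨z, hz⟩ ⟨_, MulAction.mem_orbit_self _⟩
        exact congrArg Subtype.val this
      have hgB : g ∈ P.B := by
        apply hfix
        intro b hb
        have h2 := hsub ((⟨b, hb⟩ : ↥P.B) • ((g : G) : G ⧸ P.B)) ⟨⟨b, hb⟩, rfl⟩
        have h3 : (((b * g : G)) : G ⧸ P.B) = ((g : G) : G ⧸ P.B) := h2
        rw [QuotientGroup.eq] at h3
        have e : g⁻¹ * b * g = ((b * g)⁻¹ * g)⁻¹ := by group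
        rw [e]
        exact P.B.inv_mem h3
      rw [QuotientGroup.eq]
      simpa using hgB
  let ω₀ : MulAction.orbitRel.Quotient ↥P.B (G ⧸ P.B) := Quotient.mk'' (((1 : G)) : G ⧸ P.B)
  have hω₀ : Nat.card (MulAction.orbit ↥P.B ω₀.out) = 1 := by
    have h1 : ω₀.out ∈ MulAction.orbit ↥P.B (((1 : G)) : G ⧸ P.B) := by
      have h2 : (Quotient.mk'' ω₀.out : MulAction.orbitRel.Quotient ↥P.B (G ⧸ P.B)) =
          Quotient.mk'' (((1 : G)) : G ⧸ P.B) := Quotient.out_eq' ω₀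
      exact MulAction.orbitRel_apply.1 (Quotient.eq''.1 h2)
    rw [MulAction.orbit_eq_iff.2 h1, hbase]
    simp
  have hother : ∀ ω : MulAction.orbitRel.Quotient ↥P.B (G ⧸ P.B), ω ≠ ω₀ →
      p ∣ Nat.card (MulAction.orbit ↥P.B ω.out) := by
    intro ω hω
    obtain ⟨k, hk⟩ := hpw ω.out
    rcases Nat.eq_zero_or_pos k with h0 | h0
    · exfalso
      rw [h0, pow_zero] at hk
      have h1 := hone ω.out hk
      apply hω
      rw [← Quotient.out_eq' ω, h1]
    · rw [hk]
      exact dvd_pow_self p h0.ne'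
  intro hdvd
  rw [hcard, ← Finset.add_sum_erase Finset.univ _ (Finset.mem_univ ω₀), hω₀] at hdvd
  have h2 : p ∣ ∑ ω ∈ Finset.univ.erase ω₀, Nat.card (MulAction.orbit ↥P.B ω.out) :=
    Finset.dvd_sum (fun ω hω => hother ω (Finset.ne_of_mem_erase hω))
  have h3 : p ∣ 1 := (Nat.dvd_add_left h2).1 hdvd
  exact (Fact.out : p.Prime).one_lt.ne' (Nat.dvd_one.1 h3)

end Cfsg.Agent.Helper91.StGCNT
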