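import Mathlib
import Cfsg.Prelude.Def_Classical
import Cfsg.Agent.Helper6.BN
import Cfsg.Agent.Helper40.BNStD

/-!
# CALL S2547 piece GFIX (helper91)
-/

set_option autoImplicit false

namespace Cfsg.Agent.Helper91.StGFIX

open Cfsg

open Cfsg.Agent.Helper6

variable {G : Type*} [Group G]

-- === PIECE GFIX ===
theorem p_GFIX [Finite G] (P : Cfsg.BNPair G) (g : G) (h : ∀ b ∈ P.B, g⁻¹ * b * g ∈ P.B) :
    g ∈ P.B := by
  obtain ⟨n, hn, hg⟩ := bruhat_exists P g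
  obtain ⟨b₁, hb₁, b₂, hb₂, e⟩ := (mem_DC P).1 hg
  -- `n⁻¹ B n ⊆ B`
  have h1 : ∀ b ∈ P.B, n⁻¹ * b * n ∈ P.B := by
    intro b hb
    have h2 := h (b₁ * b * b₁⁻¹) (P.B.mul_mem (P.B.mul_mem hb₁ hb) (P.B.inv_mem hb₁))
    have e2 : n⁻¹ * b * n = b₂ * (g⁻¹ * (b₁ * b * b₁⁻¹) * g) * b₂⁻¹ := by
      rw [e]; group
    rw [e2]
    exact P.B.mul_mem (P.B.mul_mem hb₂ h2) (P.B.inv_mem hb₂)
  -- by finiteness `n B n⁻¹ ⊆ B`
  let φ : ↥P.B → ↥P.B := fun b => ⟨n⁻¹ * (b : G) * n, h1 b b.2⟩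
  have hinj : Function.Injective φ := by
    intro a b hab
    have h3 : n⁻¹ * (a : G) * n = n⁻¹ * (b : G) * n := congrArg Subtype.val hab
    apply Subtype.ext
    have h4 : (a : G) = n * (n⁻¹ * (a : G) * n) * n⁻¹ := by group
    rw [h4, h3]; group
  have hsurj : Function.Surjective φ := Finite.injective_iff_surjective.1 hinj
  have hconj : ∀ b ∈ P.B, n * b * n⁻¹ ∈ P.B := by
    intro b hb
    obtain ⟨c, hc⟩ := hsurj ⟨b, hb⟩
    have h3 : n⁻¹ * (c : G) * n = b := congrArg Subtype.val hc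
    have h4 : n * b * n⁻¹ = (c : G) := by rw [← h3]; group
    rw [h4]; exact c.2
  have hnB : n ∈ P.B := mem_of_conj_le' P hn le_rfl hconj
  rw [e]
  exact P.B.mul_mem (P.B.mul_mem hb₁ hnB) hb₂

end Cfsg.Agent.Helper91.StGFIX
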