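import Mathlib
import Cfsg.Prelude.Def_Classical
import Cfsg.Agent.Helper6.BN
import Cfsg.Agent.Helper40.BNStD

/-!
# CALL S2547 piece GRK1 (helper91)
-/

set_option autoImplicit false

namespace Cfsg.Agent.Helper91.StGRK1

open Cfsg

variable {G : Type*} [Group G]

-- === PIECE GRK1 ===
theorem p_GRK1 [Finite G] (B : Subgroup G) (s : G) {K : Type*} [AddCommGroup K] (p : ℕ)
    [Fact p.Prime] (hK : ∀ t : K, p • t = 0) (x : K → G)
    (hx : ∀ t u : K, x (t + u) = x t * x u) (hxB : ∀ t, x t ∈ B)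
    (hdec : ∀ b ∈ B, ∃ t : K, ∃ b' ∈ B, b = x t * b' ∧ s⁻¹ * b' * s ∈ B) :
    ∃ k : ℕ, Nat.card (MulAction.orbit ↥B ((s : G) : G ⧸ B)) = p ^ k := by
  classical
  have hx0 : x 0 = 1 := by
    have h := hx 0 0
    rw [add_zero] at h
    exact (mul_eq_left.1 h.symm)
  let f : Multiplicative K →* G :=
    { toFun := fun t => x (Multiplicative.toAdd t)
      map_one' := hx0
      map_mul' := fun a b => hx _ _ }
  have hf : ∀ t : K, f (Multiplicative.ofAdd t) = x t := fun t => rfl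
  have hX : IsPGroup p ↥f.range := by
    rintro ⟨g, t, rfl⟩
    refine ⟨1, ?_⟩
    rw [pow_one]
    apply Subtype.ext
    show (f t) ^ p = 1
    rw [← map_pow]
    have h1 : t ^ p = 1 := by
      apply Multiplicative.toAdd.injective
      rw [toAdd_pow]
      exact hK _
    rw [h1, map_one]
  obtain ⟨n, hn⟩ := hX.card_orbit ((s : G) : G ⧸ B)
  refine ⟨n, ?_⟩
  rw [← hn]
  have hset : MulAction.orbit ↥B ((s : G) : G ⧸ B) =
      MulAction.orbit ↥f.range ((s : G) : G ⧸ B) := by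
    ext y
    constructor
    · rintro ⟨b, rfl⟩
      obtain ⟨t, b', hb', hbeq, hsb⟩ := hdec b b.2
      refine ⟨⟨x t, Multiplicative.ofAdd t, rfl⟩, ?_⟩
      show ((x t * s : G) : G ⧸ B) = (((b : G) * s : G) : G ⧸ B)
      rw [QuotientGroup.eq, hbeq]
      have e : (x t * s)⁻¹ * (x t * b' * s) = s⁻¹ * b' * s := by group
      rw [e]; exact hsb
    · rintro ⟨⟨g, t, rfl⟩, rfl⟩
      exact ⟨⟨f t, hxB _⟩, rfl⟩
  rw [hset]

end Cfsg.Agent.Helper91.StGRK1
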