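import Mathlib
import Cfsg.Agent.Lead.H581Defs
import Cfsg.Agent.Helper91.H581P2

/-!
Piece A5 of CALL S4221 (Hall 5.8.1): the numbers of involutions of the two types, by `coset_inv_card`.
-/

set_option autoImplicit false

namespace Cfsg.Agent.Helper91.H581A5

open Cfsg.Agent.Lead.H581 Equiv Cfsg.Agent.Helper91.H581P2

variable {α : Type*} [Fintype α] [DecidableEq α]

omit [Fintype α] [DecidableEq α] in
theorem perm_apply_apply_of_sq {u : Perm α} (hu : u * u = 1) (x : α) : u (u x) = x := by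
  have h := congrArg (fun p : Perm α => p x) hu
  simpa using h

/-- PIECE A5 (first half; uses P2) -/
theorem invA_card (G : Subgroup (Perm α)) (h : ℕ) (H : Hyp G h) (a b c d : α) (hd : Dist4 a b c d)
    (z : Perm α) (hz : z ∈ invA G a b c d) :
    (invA G a b c d).ncard * Nat.card ↥(stab4 G a b c d ⊓ Subgroup.centralizer ({z} : Set (Perm α))) = h := by
  obtain ⟨hzG, hzz, hza, hzc⟩ := hz
  have hzinv : z⁻¹ = z := inv_eq_of_mul_eq_one_left hzz
  have hzb : z b = a := by rw [← hza]; exact perm_apply_apply_of_sq hzz a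
  have hzd : z d = c := by rw [← hzc]; exact perm_apply_apply_of_sq hzz c
  have hset : invA G a b c d = {u : Perm α | u * u = 1 ∧ z⁻¹ * u ∈ stab4 G a b c d} := by
    ext u
    constructor
    · rintro ⟨huG, huu, hua, huc⟩
      have hub : u b = a := by rw [← hua]; exact perm_apply_apply_of_sq huu a
      have hud : u d = c := by rw [← huc]; exact perm_apply_apply_of_sq huu c
      refine ⟨huu, G.mul_mem (G.inv_mem hzG) huG, ?_, ?_, ?_, ?_⟩ <;>
        simp [Perm.mul_apply, hzinv, hua, hub, huc, hud, hza, hzb, hzc, hzd]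
    · rintro ⟨huu, hwG, hwa, hwb, hwc, hwd⟩
      have hu : u = z * (z⁻¹ * u) := by group
      refine ⟨?_, huu, ?_, ?_⟩
      · rw [hu]; exact G.mul_mem hzG hwG
      · rw [hu, Perm.mul_apply, hwa, hza]
      · rw [hu, Perm.mul_apply, hwc, hzc]
  have hn : ∀ y ∈ stab4 G a b c d, z * y * z⁻¹ ∈ stab4 G a b c d := by
    rintro y ⟨hyG, hya, hyb, hyc, hyd⟩
    refine ⟨G.mul_mem (G.mul_mem hzG hyG) (G.inv_mem hzG), ?_, ?_, ?_, ?_⟩ <;>
      simp [Perm.mul_apply, hzinv, hya, hyb, hyc, hyd, hza, hzb, hzc, hzd]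
  have hcard := H.card a b c d hd
  have hodd : Odd (Nat.card (stab4 G a b c d)) := by rw [hcard]; exact H.odd
  have hP2 := coset_inv_card (stab4 G a b c d) hodd z hzz hn
  rw [hset, hP2, hcard]

/-- PIECE A5 (second half; uses P2) -/
theorem invB_card (G : Subgroup (Perm α)) (h : ℕ) (H : Hyp G h) (a b c d : α) (hd : Dist4 a b c d)
    (y : Perm α) (hy : y ∈ invB G a b c d) :
    (invB G a b c d).ncard * Nat.card ↥(stab4 G a b c d ⊓ Subgroup.centralizer ({y} : Set (Perm α))) = h := by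
  obtain ⟨hyG, hyy, hya, hyc, hyd⟩ := hy
  have hyinv : y⁻¹ = y := inv_eq_of_mul_eq_one_left hyy
  have hyb : y b = a := by rw [← hya]; exact perm_apply_apply_of_sq hyy a
  have hset : invB G a b c d = {u : Perm α | u * u = 1 ∧ y⁻¹ * u ∈ stab4 G a b c d} := by
    ext u
    constructor
    · rintro ⟨huG, huu, hua, huc, hud⟩
      have hub : u b = a := by rw [← hua]; exact perm_apply_apply_of_sq huu a
      refine ⟨huu, G.mul_mem (G.inv_mem hyG) huG, ?_, ?_, ?_, ?_⟩ <;>
        simp [Perm.mul_apply, hyinv, hua, hub, huc, hud, hya, hyb, hyc, hyd]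
    · rintro ⟨huu, hwG, hwa, hwb, hwc, hwd⟩
      have hu : u = y * (y⁻¹ * u) := by group
      refine ⟨?_, huu, ?_, ?_, ?_⟩
      · rw [hu]; exact G.mul_mem hyG hwG
      · rw [hu, Perm.mul_apply, hwa, hya]
      · rw [hu, Perm.mul_apply, hwc, hyc]
      · rw [hu, Perm.mul_apply, hwd, hyd]
  have hn : ∀ w ∈ stab4 G a b c d, y * w * y⁻¹ ∈ stab4 G a b c d := by
    rintro w ⟨hwG, hwa, hwb, hwc, hwd⟩
    refine ⟨G.mul_mem (G.mul_mem hyG hwG) (G.inv_mem hyG), ?_, ?_, ?_, ?_⟩ <;>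
      simp [Perm.mul_apply, hyinv, hwa, hwb, hwc, hwd, hya, hyb, hyc, hyd]
  have hcard := H.card a b c d hd
  have hodd : Odd (Nat.card (stab4 G a b c d)) := by rw [hcard]; exact H.odd
  have hP2 := coset_inv_card (stab4 G a b c d) hodd y hyy hn
  rw [hset, hP2, hcard]

end Cfsg.Agent.Helper91.H581A5
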