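import Mathlib
import Cfsg.Agent.Lead.H581Defs

/-!
Piece A8 of CALL S4221 (Hall 5.8.1): an invariant set all of whose point stabilisers have `q` elements.
-/

set_option autoImplicit false

namespace Cfsg.Agent.Helper91.H581A8

open Cfsg.Agent.Lead.H581 Equiv

/-- PIECE A8 -/
theorem orbit_dvd {M β : Type*} [Group M] [Finite M] [Fintype β] [DecidableEq β] [MulAction M β] (S : Finset β)
    (hS : ∀ g : M, ∀ x ∈ S, g • x ∈ S) (q : ℕ) (hq : ∀ x ∈ S, Nat.card (MulAction.stabilizer M x) = q) :
    Nat.card M ∣ q * S.card := by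
  classical
  let f : β → MulAction.orbitRel.Quotient M β := Quotient.mk''
  have hcard := Finset.card_eq_sum_card_fiberwise (f := f) (s := S) (t := S.image f)
    (fun x hx => Finset.mem_image_of_mem f hx)
  have hfib : ∀ b ∈ S.image f, q * (S.filter (fun x => f x = b)).card = Nat.card M := by
    intro b hb
    obtain ⟨x₀, hx₀, rfl⟩ := Finset.mem_image.mp hb
    have hset : ((S.filter (fun x => f x = f x₀) : Finset β) : Set β) = MulAction.orbit M x₀ := by
      ext y
      simp only [Finset.coe_filter, Set.mem_setOf_eq]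
      constructor
      · rintro ⟨_, hy⟩
        exact (MulAction.orbitRel_apply).mp (Quotient.eq''.mp hy)
      · intro hy
        obtain ⟨g, rfl⟩ := hy
        exact ⟨hS g x₀ hx₀, Quotient.eq''.mpr (MulAction.orbitRel_apply.mpr ⟨g, rfl⟩)⟩
    have h1 : (S.filter (fun x => f x = f x₀)).card = Nat.card (MulAction.orbit M x₀) := by
      rw [← Set.ncard_coe_finset, hset]; rfl
    have h2 : Nat.card (MulAction.orbit M x₀) = Nat.card (M ⧸ MulAction.stabilizer M x₀) :=
      Nat.card_congr (MulAction.orbitEquivQuotientStabilizer M x₀)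
    have h3 := Subgroup.card_eq_card_quotient_mul_card_subgroup (MulAction.stabilizer M x₀)
    rw [h1, h2, h3, hq x₀ hx₀, mul_comm]
  refine ⟨(S.image f).card, ?_⟩
  rw [hcard, Finset.mul_sum, Finset.sum_congr rfl hfib, Finset.sum_const, smul_eq_mul, mul_comm]

end Cfsg.Agent.Helper91.H581A8
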