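import Mathlib
import Cfsg.Agent.Lead.H581Defs
import Cfsg.Agent.Helper91.H581A8

/-!
Piece A7c of CALL S4221 (Hall 5.8.1): the centraliser of the four-group acts on its regular points.
-/

set_option autoImplicit false

namespace Cfsg.Agent.Helper91.H581A7c

open Cfsg.Agent.Lead.H581 Equiv Cfsg.Agent.Helper91.H581A8

variable {α : Type*} [Fintype α] [DecidableEq α]

/-- PIECE A7c (uses A8) -/
theorem cent_dvd (G : Subgroup (Perm α)) (y₁ y₂ : Perm α) (hy₁ : y₁ ∈ G) (hy₂ : y₂ ∈ G) (q : ℕ)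
    (hq : ∀ x ∈ regPts y₁ y₂,
      Nat.card ↥(stab4 G x (y₁ x) (y₂ x) ((y₁ * y₂) x) ⊓ Subgroup.centralizer ({y₁, y₂} : Set (Perm α))) = q) :
    Nat.card ↥(G ⊓ Subgroup.centralizer ({y₁, y₂} : Set (Perm α))) ∣ q * (regPts y₁ y₂).card := by
  set C : Subgroup (Perm α) := G ⊓ Subgroup.centralizer ({y₁, y₂} : Set (Perm α)) with hC
  have hcomm : ∀ g ∈ C, (∀ x, g (y₁ x) = y₁ (g x)) ∧ (∀ x, g (y₂ x) = y₂ (g x)) := by
    intro g hg
    have hcen := (Subgroup.mem_inf.mp hg).2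
    rw [Subgroup.mem_centralizer_iff] at hcen
    have e1 := hcen y₁ (by simp)
    have e2 := hcen y₂ (by simp)
    refine ⟨fun x => ?_, fun x => ?_⟩
    · have h := congrArg (fun p : Perm α => p x) e1
      simpa [Perm.mul_apply] using h.symm
    · have h := congrArg (fun p : Perm α => p x) e2
      simpa [Perm.mul_apply] using h.symm
  have hS : ∀ g : C, ∀ x ∈ regPts y₁ y₂, g • x ∈ regPts y₁ y₂ := by
    intro g x hx
    obtain ⟨h1, h2⟩ := hcomm g.1 g.2
    have hgx : g • x = (g : Perm α) x := rfl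
    rw [hgx]
    have hmem : ∀ z : α, z ∈ regPts y₁ y₂ ↔ y₁ z ≠ z ∧ y₂ z ≠ z ∧ y₁ (y₂ z) ≠ z := by
      intro z
      unfold regPts
      rw [Finset.mem_filter]
      simp
    rw [hmem] at hx ⊢
    refine ⟨?_, ?_, ?_⟩
    · rw [← h1]; exact fun h => hx.1 (g.1.injective h)
    · rw [← h2]; exact fun h => hx.2.1 (g.1.injective h)
    · rw [← h2, ← h1]; exact fun h => hx.2.2 (g.1.injective h)
  have hqq : ∀ x ∈ regPts y₁ y₂, Nat.card (MulAction.stabilizer C x) = q := by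
    intro x hx
    rw [← hq x hx]
    have hmap : (MulAction.stabilizer C x).map C.subtype =
        stab4 G x (y₁ x) (y₂ x) ((y₁ * y₂) x) ⊓ Subgroup.centralizer ({y₁, y₂} : Set (Perm α)) := by
      ext g
      simp only [Subgroup.mem_map, MulAction.mem_stabilizer_iff, Subgroup.coe_subtype, Subgroup.mem_inf,
        mem_stab4]
      constructor
      · rintro ⟨g', hg', rfl⟩
        obtain ⟨h1, h2⟩ := hcomm g'.1 g'.2
        have hgx : (g' : Perm α) x = x := hg'
        have hg'C : (g' : Perm α) ∈ G ∧ (g' : Perm α) ∈ Subgroup.centralizer ({y₁, y₂} : Set (Perm α)) :=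
          Subgroup.mem_inf.mp g'.2
        refine ⟨⟨hg'C.1, hgx, ?_, ?_, ?_⟩, hg'C.2⟩
        · rw [h1, hgx]
        · rw [h2, hgx]
        · rw [Perm.mul_apply, h1, h2, hgx]
      · rintro ⟨⟨hgG, hgx, -, -, -⟩, hcen⟩
        exact ⟨⟨g, Subgroup.mem_inf.mpr ⟨hgG, hcen⟩⟩, hgx, rfl⟩
    rw [← hmap]
    exact Nat.card_congr (Subgroup.equivMapOfInjective _ _ C.subtype_injective).toEquiv
  exact orbit_dvd (M := C) (regPts y₁ y₂) hS q hqq

end Cfsg.Agent.Helper91.H581A7c
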