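import Mathlib

/-!
# CALL S2100 piece A2 (helper91)
-/

set_option autoImplicit false

namespace Cfsg.Agent.Helper91.STUA2

section

variable {K : Type*} [Field K] {Γ : Type*} [Group Γ] {E : Type*} [Group E]

/-- PIECE A2: in a central extension of a perfect group, an element over the centre is central. -/
theorem center_of_map (ψ : E →* Γ) (hψ : Function.Surjective ψ)
    (hc : ψ.ker ≤ Subgroup.center E) (hperf : commutator Γ = ⊤) {z : E}
    (hz : ψ z ∈ Subgroup.center Γ) : z ∈ Subgroup.center E := by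
  have hmem : ∀ y : E, z * y * z⁻¹ * y⁻¹ ∈ Subgroup.center E := by
    intro y
    apply hc
    rw [MonoidHom.mem_ker]
    simp only [map_mul, map_inv]
    have h := Subgroup.mem_center_iff.1 hz (ψ y)
    rw [← h]
    group
  letI : CommGroup ↥(Subgroup.center E) :=
    { (inferInstance : Group ↥(Subgroup.center E)) with
      mul_comm := fun a b => Subtype.ext (Subgroup.mem_center_iff.1 b.2 a.1) }
  let c : E →* ↥(Subgroup.center E) :=
    { toFun := fun y => ⟨z * y * z⁻¹ * y⁻¹, hmem y⟩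
      map_one' := by
        apply Subtype.ext
        show z * 1 * z⁻¹ * 1⁻¹ = 1
        group
      map_mul' := fun y y' => by
        apply Subtype.ext
        show z * (y * y') * z⁻¹ * (y * y')⁻¹ = (z * y * z⁻¹ * y⁻¹) * (z * y' * z⁻¹ * y'⁻¹)
        have h1 := Subgroup.mem_center_iff.1 (hmem y')
        calc z * (y * y') * z⁻¹ * (y * y')⁻¹
            = (z * y * z⁻¹) * ((z * y' * z⁻¹ * y'⁻¹) * y⁻¹) := by group
          _ = (z * y * z⁻¹) * (y⁻¹ * (z * y' * z⁻¹ * y'⁻¹)) := by rw [h1 y⁻¹]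
          _ = (z * y * z⁻¹ * y⁻¹) * (z * y' * z⁻¹ * y'⁻¹) := by group }
  have hcy : ∀ y : E, ((c y : ↥(Subgroup.center E)) : E) = z * y * z⁻¹ * y⁻¹ := fun y => rfl
  have hker : commutator E ≤ c.ker := Abelianization.commutator_subset_ker c
  have hmap : (commutator E).map ψ = ⊤ := by
    rw [commutator_def, Subgroup.map_commutator, ← MonoidHom.range_eq_map,
      MonoidHom.range_eq_top.2 hψ, ← commutator_def, hperf]
  rw [Subgroup.mem_center_iff]
  intro y
  have hy : ψ y ∈ (commutator E).map ψ := by rw [hmap]; exact Subgroup.mem_top _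
  obtain ⟨y₀, hy₀, hy₀y⟩ := Subgroup.mem_map.1 hy
  have hc0 : c y₀ = 1 := MonoidHom.mem_ker.1 (hker hy₀)
  have hk : y₀⁻¹ * y ∈ Subgroup.center E :=
    hc (by rw [MonoidHom.mem_ker, map_mul, map_inv, hy₀y, inv_mul_cancel])
  have hck : c (y₀⁻¹ * y) = 1 := by
    apply Subtype.ext
    rw [hcy]
    have := Subgroup.mem_center_iff.1 hk z
    show z * (y₀⁻¹ * y) * z⁻¹ * (y₀⁻¹ * y)⁻¹ = 1
    rw [this]
    group
  have hcyy : c y = 1 := by
    have e : y = y₀ * (y₀⁻¹ * y) := by group
    rw [e, map_mul, hc0, hck, mul_one]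
  have h3 : z * y * z⁻¹ * y⁻¹ = 1 := by
    rw [← hcy, hcyy]; rfl
  have h4 : z * y = y * z := by
    have : z * y = (z * y * z⁻¹ * y⁻¹) * (y * z) := by group
    rw [this, h3, one_mul]
  exact h4.symm

end

end Cfsg.Agent.Helper91.STUA2
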