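import Cfsg.Agent.Helper64.UCDefs

/-!
# CALL S2100 piece C1B (helper91)
-/

set_option autoImplicit false

namespace Cfsg.Agent.Helper91.STUC1B

open Cfsg Cfsg.Lie Cfsg.Agent.Helper36 Cfsg.Agent.Helper64.UC

section

variable {K : Type*} [Field K] {Γ : Type*} [Group Γ] {E : Type*} [Group E]

/-- PIECE C1B: the lifts of the elements of the root subgroup of `r = 2a + b` commute, when
`x_r` commutes with `x_a`, `x_b`, `x_{a+b}` (long roots of type `B₂`). -/
theorem comm_self_spec {D : ChevalleyDatum} {x : ℕ → K → Γ} (G : GSys D x) (ψ : E →* Γ)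
    (hc : ψ.ker ≤ Subgroup.center E) (y : ℕ → K → E)
    (hmap : ∀ r < D.nroots, ∀ t : K, ψ (y r t) = x r t)
    {r a b p : ℕ} {C1 C2 : ℤ} (hr : r < D.nroots) (hp : p < D.nroots) (hv : VP D a b)
    (hab : D.commTerms a b = [(p, C1, 1, 1), (r, C2, 2, 1)]) (hC2 : C2 = 1 ∨ C2 = -1)
    (ca : ∀ t u : K, y a u * y r t = y r t * y a u)
    (cb : ∀ t u : K, y b u * y r t = y r t * y b u)
    (cp : ∀ t u : K, y p u * y r t = y r t * y p u) (t u : K) :
    Commute (y r t) (y r u) := by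
  obtain ⟨ha, hb, hba, hbna⟩ := hv
  have key : ∀ u' : K, Commute (y r t) (y r ((C2 : K) * (-1) ^ 2 * u' ^ 1)) := by
    intro u'
    obtain ⟨W, hW⟩ : ∃ W : E,
        W = (y a 1 * y b u' * y p ((C1 : K) * (-1) ^ 1 * u' ^ 1))⁻¹ * y b u' * y a 1 := ⟨_, rfl⟩
    have hA : Commute (y r t) (y a 1) := (ca t 1).symm
    have hB : Commute (y r t) (y b u') := (cb t u').symm
    have hP : Commute (y r t) (y p ((C1 : K) * (-1) ^ 1 * u' ^ 1)) := (cp t _).symm
    have hWc : Commute (y r t) W := by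
      rw [hW]
      exact ((((hA.mul_right hB).mul_right hP).inv_right).mul_right hB).mul_right hA
    have hcomm := G.comm a ha b hb hba hbna 1 u'
    have hword : sW x (D.commWord K a b 1 u') =
        x p ((C1 : K) * (-1) ^ 1 * u' ^ 1) * x r ((C2 : K) * (-1) ^ 2 * u' ^ 1) := by
      simp only [ChevalleyDatum.commWord, hab, List.map_cons, List.map_nil, sW_cons, sW_nil,
        mul_one]
    rw [hword] at hcomm
    have hψW : ψ W = ψ (y r ((C2 : K) * (-1) ^ 2 * u' ^ 1)) := by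
      rw [hW, hmap r hr]
      simp only [map_mul, map_inv, hmap a ha, hmap b hb, hmap p hp]
      rw [mul_assoc, hcomm]
      group
    have hz : (y r ((C2 : K) * (-1) ^ 2 * u' ^ 1))⁻¹ * W ∈ Subgroup.center E :=
      hc (by rw [MonoidHom.mem_ker, map_mul, map_inv, hψW, inv_mul_cancel])
    have hzc : Commute (y r t) ((y r ((C2 : K) * (-1) ^ 2 * u' ^ 1))⁻¹ * W) :=
      Subgroup.mem_center_iff.1 hz (y r t)
    have e : y r ((C2 : K) * (-1) ^ 2 * u' ^ 1) =
        W * ((y r ((C2 : K) * (-1) ^ 2 * u' ^ 1))⁻¹ * W)⁻¹ := by group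
    rw [e]
    exact hWc.mul_right hzc.inv_right
  have h2 := key ((C2 : K) * u)
  have e2 : (C2 : K) * (-1) ^ 2 * ((C2 : K) * u) ^ 1 = u := by
    rcases hC2 with h | h
    · rw [h]; push_cast; ring
    · rw [h]; push_cast; ring
  rw [e2] at h2
  exact h2

end

end Cfsg.Agent.Helper91.STUC1B
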