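import Mathlib

/-!
# CALL S2100 piece F1 (helper91)
-/

set_option autoImplicit false

namespace Cfsg.Agent.Helper91.STUF1

section

variable {K : Type*} [Field K] {Γ : Type*} [Group Γ] {E : Type*} [Group E]

/-- PIECE F1: a field with more than four elements has `a ≠ 0` with `a ^ k ≠ 1`, `0 < |k| ≤ 3`. -/
theorem exists_pow_ne_one (hK : ∃ s : Finset K, 4 < s.card) (k : ℤ) (hk : k ≠ 0)
    (hk3 : k.natAbs ≤ 3) : ∃ a : K, a ≠ 0 ∧ a ^ k ≠ 1 := by
  classical
  obtain ⟨s, hs⟩ := hK
  have hn0 : 0 < k.natAbs := Int.natAbs_pos.2 hk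
  have hT : ((Polynomial.nthRoots k.natAbs (1 : K)).toFinset ∪ {0}).card < s.card := by
    calc ((Polynomial.nthRoots k.natAbs (1 : K)).toFinset ∪ {0}).card
        ≤ (Polynomial.nthRoots k.natAbs (1 : K)).toFinset.card + ({0} : Finset K).card :=
          Finset.card_union_le _ _
      _ ≤ k.natAbs + 1 := by
          apply Nat.add_le_add
          · exact (Multiset.toFinset_card_le _).trans (Polynomial.card_nthRoots _ _)
          · simp
      _ < s.card := by omega
  obtain ⟨a, has, haT⟩ := Finset.exists_mem_notMem_of_card_lt_card hT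
  rw [Finset.mem_union, not_or] at haT
  have ha0 : a ≠ 0 := fun h => haT.2 (by rw [h]; exact Finset.mem_singleton_self 0)
  have han : a ^ k.natAbs ≠ 1 := by
    intro h
    apply haT.1
    rw [Multiset.mem_toFinset, Polynomial.mem_nthRoots hn0]
    exact h
  refine ⟨a, ha0, ?_⟩
  rcases Int.natAbs_eq k with h | h
  · rw [h, zpow_natCast]; exact han
  · rw [h, zpow_neg, zpow_natCast]
    intro hc
    exact han (inv_eq_one.1 hc)

end

end Cfsg.Agent.Helper91.STUF1
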