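import Mathlib

/-!
# CALL S2100 piece F2 (helper91)
-/

set_option autoImplicit false

namespace Cfsg.Agent.Helper91.STUF2

section

variable {K : Type*} [Field K] {Γ : Type*} [Group Γ] {E : Type*} [Group E]

/-- PIECE F2: a field with more than four elements has `c ≠ 0, 1` with `c² - c + 1 ≠ 0`. -/
theorem exists_c0 (hK : ∃ s : Finset K, 4 < s.card) :
    ∃ c : K, c ≠ 0 ∧ c ≠ 1 ∧ c ^ 2 - c + 1 ≠ 0 := by
  classical
  obtain ⟨s, hs⟩ := hK
  by_cases hr : ∃ r : K, r ^ 2 - r + 1 = 0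
  · obtain ⟨r, hr⟩ := hr
    have hT : ({0, 1, r, 1 - r} : Finset K).card < s.card :=
      lt_of_le_of_lt Finset.card_le_four hs
    obtain ⟨c, hcs, hcT⟩ := Finset.exists_mem_notMem_of_card_lt_card hT
    simp only [Finset.mem_insert, Finset.mem_singleton, not_or] at hcT
    refine ⟨c, hcT.1, hcT.2.1, ?_⟩
    intro hc
    have h1 : (c - r) * (c - (1 - r)) = 0 := by linear_combination hc - hr
    rcases mul_eq_zero.1 h1 with h2 | h2
    · exact hcT.2.2.1 (sub_eq_zero.1 h2)
    · exact hcT.2.2.2 (sub_eq_zero.1 h2)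
  · have hT : ({0, 1} : Finset K).card < s.card :=
      lt_of_le_of_lt Finset.card_le_two (by omega)
    obtain ⟨c, hcs, hcT⟩ := Finset.exists_mem_notMem_of_card_lt_card hT
    simp only [Finset.mem_insert, Finset.mem_singleton, not_or] at hcT
    exact ⟨c, hcT.1, hcT.2, fun hc => hr ⟨c, hc⟩⟩

end

end Cfsg.Agent.Helper91.STUF2
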