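/-
Helper91: PIECE HYP4 of CALL S5871 (helper97): a symmetric bilinear form in dimension four over a
finite field of odd characteristic whose discriminant is a square is `J ⊗ J`, `J = !![0, 1; -1, 0]`.
-/
import Mathlib
import Cfsg.Prelude.Def_GeometricClasses
import Cfsg.Agent.S2616

set_option autoImplicit false
open Cfsg Cfsg.Geo Matrix
open scoped Kronecker

namespace Cfsg.Agent.Helper91

variable {F : Type*} [Field F]

/-- Expansion of a bilinear form in coordinates. -/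
theorem hyp4_expand {κ : Type} [Fintype κ] [DecidableEq κ] (f : (κ → F) → (κ → F) → F)
    (hf : IsBilinearForm f) (x y : κ → F) :
    f x y = ∑ a, ∑ b, x a * gramMatrix f a b * y b := by
  have hzl : ∀ v, f 0 v = 0 := fun v => by
    have := hf.smul_left 0 0 v
    rwa [zero_smul, zero_mul] at this
  have hzr : ∀ v, f v 0 = 0 := fun v => by
    have := hf.smul_right 0 v 0
    rwa [zero_smul, zero_mul] at this
  have hsl : ∀ (s : Finset κ) (g : κ → κ → F) (v : κ → F),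
      f (∑ a ∈ s, g a) v = ∑ a ∈ s, f (g a) v := by
    intro s g v
    induction s using Finset.induction_on with
    | empty => rw [Finset.sum_empty, Finset.sum_empty, hzl]
    | insert a s ha ih => rw [Finset.sum_insert ha, Finset.sum_insert ha, hf.add_left, ih]
  have hsr : ∀ (s : Finset κ) (g : κ → κ → F) (v : κ → F),
      f v (∑ a ∈ s, g a) = ∑ a ∈ s, f v (g a) := by
    intro s g v
    induction s using Finset.induction_on with
    | empty => rw [Finset.sum_empty, Finset.sum_empty, hzr]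
    | insert a s ha ih => rw [Finset.sum_insert ha, Finset.sum_insert ha, hf.add_right, ih]
  have hdec : ∀ z : κ → F, z = ∑ a, z a • (Pi.single a (1 : F) : κ → F) := by
    intro z
    funext k
    simp [Finset.sum_apply, Pi.single_apply]
  conv_lhs => rw [hdec x, hdec y]
  rw [hsl]
  apply Finset.sum_congr rfl
  intro a _
  rw [hf.smul_left, hsr, Finset.mul_sum]
  apply Finset.sum_congr rfl
  intro b _
  rw [hf.smul_right]
  show x a * (y b * f (Pi.single a 1) (Pi.single b 1)) =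
    x a * f (Pi.single a 1) (Pi.single b 1) * y b
  ring

/-- The Gram matrix of a family of vectors. -/
theorem hyp4_gram {κ κ' : Type} [Fintype κ] [DecidableEq κ] [Fintype κ']
    (f : (κ → F) → (κ → F) → F) (hf : IsBilinearForm f) (v : κ' → κ → F) (p q : κ') :
    ((Matrix.of fun k p => v p k : Matrix κ κ' F)ᵀ * gramMatrix f *
      (Matrix.of fun k p => v p k : Matrix κ κ' F)) p q = f (v p) (v q) := by
  rw [hyp4_expand f hf, Matrix.mul_apply]
  simp only [Matrix.mul_apply, Matrix.transpose_apply, Matrix.of_apply, Finset.sum_mul]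
  rw [Finset.sum_comm]

/-- The determinant of a block triangular matrix of size 4. -/
theorem hyp4_det (M : Matrix (Fin 4) (Fin 4) F)
    (h20 : M 2 0 = 0) (h21 : M 2 1 = 0) (h30 : M 3 0 = 0) (h31 : M 3 1 = 0) :
    M.det = (M 0 0 * M 1 1 - M 0 1 * M 1 0) * (M 2 2 * M 3 3 - M 2 3 * M 3 2) := by
  rw [← Matrix.det_submatrix_equiv_self (finSumFinEquiv : Fin 2 ⊕ Fin 2 ≃ Fin 4) M,
    ← Matrix.fromBlocks_toBlocks (M.submatrix (finSumFinEquiv : Fin 2 ⊕ Fin 2 ≃ Fin 4)
      (finSumFinEquiv : Fin 2 ⊕ Fin 2 ≃ Fin 4))]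
  have hz : (M.submatrix (finSumFinEquiv : Fin 2 ⊕ Fin 2 ≃ Fin 4)
      (finSumFinEquiv : Fin 2 ⊕ Fin 2 ≃ Fin 4)).toBlocks₂₁ = 0 := by
    ext i j
    fin_cases i <;> fin_cases j
    · exact h20
    · exact h21
    · exact h30
    · exact h31
  rw [hz, Matrix.det_fromBlocks_zero₂₁, Matrix.det_fin_two, Matrix.det_fin_two]
  rfl

theorem hyp4_JJ :
    ((!![0, 1; -1, 0] : Matrix (Fin 2) (Fin 2) F) ⊗ₖ (!![0, 1; -1, 0] : Matrix (Fin 2) (Fin 2) F)) *
      ((!![0, 1; -1, 0] : Matrix (Fin 2) (Fin 2) F) ⊗ₖ (!![0, 1; -1, 0] : Matrix (Fin 2) (Fin 2) F))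
      = 1 := by
  have hJ : (!![0, 1; -1, 0] : Matrix (Fin 2) (Fin 2) F) * !![0, 1; -1, 0] = (-1 : F) • 1 := by
    ext i j
    fin_cases i <;> fin_cases j <;> simp [Matrix.mul_apply, Fin.sum_univ_two]
  rw [← Matrix.mul_kronecker_mul, hJ, Matrix.smul_kronecker, Matrix.kronecker_smul, smul_smul,
    Matrix.one_kronecker_one]
  norm_num

theorem o12p_hyp_four [Fintype F] (h2 : (2 : F) ≠ 0) (f₂ : (Fin 4 → F) → (Fin 4 → F) → F)
    (hf₂ : IsSymmetricForm f₂) (hsq : IsSquare (gramMatrix f₂).det) :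
    ∃ M : Matrix (Fin 4) (Fin 2 × Fin 2) F, (∃ M' : Matrix (Fin 2 × Fin 2) (Fin 4) F, M * M' = 1 ∧ M' * M = 1) ∧
      Mᵀ * gramMatrix f₂ * M
        = (!![0, 1; -1, 0] : Matrix (Fin 2) (Fin 2) F) ⊗ₖ (!![0, 1; -1, 0] : Matrix (Fin 2) (Fin 2) F) := by
  have hb := hf₂.bilinear
  have hnl : ∀ x y, f₂ (-x) y = -f₂ x y := fun x y => by
    have := hb.smul_left (-1) x y
    rwa [neg_smul, one_smul, neg_mul, one_mul] at this
  have hnr : ∀ x y, f₂ x (-y) = -f₂ x y := fun x y => by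
    have := hb.smul_right (-1) x y
    rwa [neg_smul, one_smul, neg_mul, one_mul] at this
  -- the quadratic form
  have hpol : ∀ x y, QuadraticMap.polar (fun v => (2 : F)⁻¹ * f₂ v v) x y = f₂ x y := by
    intro x y
    show (2 : F)⁻¹ * f₂ (x + y) (x + y) - (2 : F)⁻¹ * f₂ x x - (2 : F)⁻¹ * f₂ y y = f₂ x y
    rw [hb.add_left, hb.add_right, hb.add_right, hf₂.symm y x]
    field_simp
    ring
  obtain ⟨Q, hQ⟩ : ∃ Q : QuadraticForm F (Fin 4 → F), ∀ v, Q v = (2 : F)⁻¹ * f₂ v v :=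
    ⟨QuadraticMap.ofPolar (fun v => (2 : F)⁻¹ * f₂ v v)
      (fun a x => by rw [hb.smul_left, hb.smul_right, smul_eq_mul]; ring)
      (fun x x' y => by rw [hpol, hpol, hpol, hb.add_left])
      (fun a x y => by rw [hpol, hpol, hb.smul_left, smul_eq_mul]), fun v => rfl⟩
  have hQfun : ⇑Q = fun v => (2 : F)⁻¹ * f₂ v v := funext hQ
  have hQp : ∀ x y, QuadraticMap.polar ⇑Q x y = f₂ x y := by
    intro x y
    rw [hQfun]
    exact hpol x y
  have hnd : (QuadraticMap.polarBilin Q).Nondegenerate := by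
    constructor
    · intro z hz
      by_contra h0
      obtain ⟨x, hx⟩ := (hf₂.nondegenerate z h0).2
      exact hx ((hQp z x).symm.trans (hz x))
    · intro z hz
      by_contra h0
      obtain ⟨x, hx⟩ := (hf₂.nondegenerate z h0).1
      exact hx ((hQp x z).symm.trans (hz x))
  have hV : Module.finrank F (Fin 4 → F) = 2 * 2 := by
    rw [Module.finrank_fintype_fun_eq_card, Fintype.card_fin]
  rcases Cfsg.Agent.S2616.result (m := 2) (by norm_num) hV Q hnd with
    ⟨b, -, hb2, hb3⟩ | ⟨b, ζ, hζ, -, h2', h3, h4, h5, h6, h7⟩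
  · -- hyperbolic
    have EE : ∀ i j, f₂ (b (Sum.inl i)) (b (Sum.inl j)) = 0 := fun i j => by
      rw [← hQp]; exact (hb3 i j).1
    have FF : ∀ i j, f₂ (b (Sum.inr i)) (b (Sum.inr j)) = 0 := fun i j => by
      rw [← hQp]; exact (hb3 i j).2
    have EF : ∀ i j, f₂ (b (Sum.inl i)) (b (Sum.inr j)) = if i = j then 1 else 0 := fun i j => by
      rw [← hQp]; exact hb2 i j
    have FE : ∀ i j, f₂ (b (Sum.inr i)) (b (Sum.inl j)) = if j = i then 1 else 0 := fun i j => by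
      rw [hf₂.symm]; exact EF j i
    obtain ⟨v, hv⟩ : ∃ v : Fin 2 × Fin 2 → Fin 4 → F, v =
        fun p => ![![b (Sum.inl 0), b (Sum.inl 1)], ![-(b (Sum.inr 1)), b (Sum.inr 0)]] p.1 p.2 :=
      ⟨_, rfl⟩
    have hG : (Matrix.of fun k p => v p k : Matrix (Fin 4) (Fin 2 × Fin 2) F)ᵀ * gramMatrix f₂ *
        (Matrix.of fun k p => v p k : Matrix (Fin 4) (Fin 2 × Fin 2) F) =
        (!![0, 1; -1, 0] : Matrix (Fin 2) (Fin 2) F) ⊗ₖ (!![0, 1; -1, 0] : Matrix (Fin 2) (Fin 2) F) := by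
      ext ⟨p1, p2⟩ ⟨q1, q2⟩
      rw [hyp4_gram f₂ hb, Matrix.kroneckerMap_apply, hv]
      fin_cases p1 <;> fin_cases p2 <;> fin_cases q1 <;> fin_cases q2 <;>
        simp [EE, FF, EF, FE, hnl, hnr]
    refine ⟨Matrix.of fun k p => v p k, ⟨(!![0, 1; -1, 0] : Matrix (Fin 2) (Fin 2) F) ⊗ₖ
      (!![0, 1; -1, 0] : Matrix (Fin 2) (Fin 2) F) *
        ((Matrix.of fun k p => v p k : Matrix (Fin 4) (Fin 2 × Fin 2) F)ᵀ * gramMatrix f₂), ?_, ?_⟩, hG⟩
    · rw [Matrix.mul_eq_one_comm_of_equiv (finProdFinEquiv : Fin 2 × Fin 2 ≃ Fin (2 * 2)).symm,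
        Matrix.mul_assoc, hG, hyp4_JJ]
    · rw [Matrix.mul_assoc, hG, hyp4_JJ]
  · -- elliptic: the discriminant would not be a square
    exfalso
    obtain ⟨r, hr⟩ := hsq
    obtain ⟨w, hw⟩ : ∃ w : Fin 4 → Fin 4 → F, w =
        ![b (Sum.inl (Sum.inl 0)), b (Sum.inl (Sum.inr 0)), b (Sum.inr 0), b (Sum.inr 1)] := ⟨_, rfl⟩
    have hG : ∀ p q, ((Matrix.of fun k p => w p k : Matrix (Fin 4) (Fin 4) F)ᵀ * gramMatrix f₂ *
        (Matrix.of fun k p => w p k : Matrix (Fin 4) (Fin 4) F)) p q = f₂ (w p) (w q) :=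
      hyp4_gram f₂ hb w
    have hdet : ((Matrix.of fun k p => w p k : Matrix (Fin 4) (Fin 4) F)ᵀ * gramMatrix f₂ *
        (Matrix.of fun k p => w p k : Matrix (Fin 4) (Fin 4) F)).det =
        ((Matrix.of fun k p => w p k : Matrix (Fin 4) (Fin 4) F).det * r) ^ 2 := by
      rw [Matrix.det_mul, Matrix.det_mul, Matrix.det_transpose, hr]
      ring
    have e00 : f₂ (w 0) (w 0) = 0 := by rw [hw, ← hQp]; exact (h3 0 0).1
    have e11 : f₂ (w 1) (w 1) = 0 := by rw [hw, ← hQp]; exact (h3 0 0).2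
    have e01 : f₂ (w 0) (w 1) = 1 := by
      rw [hw, ← hQp]
      have := h2' 0 0
      rwa [if_pos rfl] at this
    have e10 : f₂ (w 1) (w 0) = 1 := by rw [hf₂.symm]; exact e01
    have e20 : f₂ (w 2) (w 0) = 0 := by rw [hf₂.symm, hw, ← hQp]; exact (h4 0 0).1
    have e21 : f₂ (w 2) (w 1) = 0 := by rw [hf₂.symm, hw, ← hQp]; exact (h4 0 0).2
    have e30 : f₂ (w 3) (w 0) = 0 := by rw [hf₂.symm, hw, ← hQp]; exact (h4 0 1).1
    have e31 : f₂ (w 3) (w 1) = 0 := by rw [hf₂.symm, hw, ← hQp]; exact (h4 0 1).2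
    have e22 : f₂ (w 2) (w 2) = 2 := by
      have h := h5
      rw [hQ] at h
      rw [hw]
      have h' : f₂ (b (Sum.inr 0)) (b (Sum.inr 0)) = 2 := by
        field_simp at h
        exact h
      exact h'
    have e33 : f₂ (w 3) (w 3) = 2 * ζ := by
      have h := h7
      rw [hQ] at h
      rw [hw]
      have h' : f₂ (b (Sum.inr 1)) (b (Sum.inr 1)) = 2 * ζ := by
        field_simp at h
        linear_combination h
      exact h'
    have e23 : f₂ (w 2) (w 3) = 1 := by rw [hw, ← hQp]; exact h6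
    have e32 : f₂ (w 3) (w 2) = 1 := by rw [hf₂.symm]; exact e23
    rw [hyp4_det _ (by rw [hG, e20]) (by rw [hG, e21]) (by rw [hG, e30]) (by rw [hG, e31]),
      hG, hG, hG, hG, hG, hG, hG, hG, e00, e11, e01, e10, e22, e33, e23, e32] at hdet
    obtain ⟨s, hs⟩ : ∃ s : F, s = (Matrix.of fun k p => w p k : Matrix (Fin 4) (Fin 4) F).det * r :=
      ⟨_, rfl⟩
    rw [← hs] at hdet
    apply hζ ((s - 1) / 2)
    field_simp
    linear_combination (-1 : F) * hdet

end Cfsg.Agent.Helper91
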