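import Mathlib
import Cfsg.Prelude.Def_GeometricClasses
import Cfsg.Prelude.Def_LieClassical
import Cfsg.Agent.Helper69.E4Def
import Cfsg.Agent.Helper69.E5Def

set_option autoImplicit false

/-!
Piece GEN2 of CALL S6002 (helper69): generators `i, j, x, z` of an extraspecial group
`2^{1+4}_-` of matrices (`Q₈ ∘ D₈`).
-/

namespace Cfsg.Agent.Helper91
open Cfsg.Agent.Helper69
open scoped Matrix

section abstract

variable {Γ : Type*} [Group Γ] [Finite Γ]

/-- a subgroup properly containing `H` has at least twice its order -/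
theorem e5g_card_two_mul (H K : Subgroup Γ) (hle : H ≤ K) (g : Γ) (hg : g ∈ K) (hgn : g ∉ H) :
    2 * Nat.card H ≤ Nat.card K := by
  obtain ⟨m, hm⟩ := Subgroup.card_dvd_of_le hle
  have hK : 0 < Nat.card K := Nat.card_pos
  have hH : 0 < Nat.card H := Nat.card_pos
  rcases Nat.lt_or_ge m 2 with h | h
  · exfalso
    have hm1 : m = 1 := by
      rcases Nat.eq_zero_or_pos m with h0 | h0
      · rw [h0, mul_zero] at hm
        omega
      · omega
    rw [hm1, mul_one] at hm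
    have hHK : H = K := Subgroup.eq_of_le_of_card_ge hle (le_of_eq hm)
    exact hgn (hHK ▸ hg)
  · rw [hm]
    nlinarith

theorem e5g_ncard2 (a b : Γ) : ({a, b} : Set Γ).ncard ≤ 2 := by
  have h1 := Set.ncard_insert_le a ({b} : Set Γ)
  have h2 := Set.ncard_singleton b
  omega

theorem e5g_ncard4 (a b c d : Γ) : ({a, b, c, d} : Set Γ).ncard ≤ 4 := by
  have h1 := Set.ncard_insert_le a ({b, c, d} : Set Γ)
  have h2 := Set.ncard_insert_le b ({c, d} : Set Γ)
  have h3 := Set.ncard_insert_le c ({d} : Set Γ)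
  have h4 := Set.ncard_singleton d
  omega

variable {A : Type*} [Ring A] (φ : Γ →* A)

omit [Finite Γ] in
/-- anticommuting elements do not commute -/
theorem e5g_not_comm (h1 : (-1 : A) ≠ 1) (h2 : ∀ a : A, a + a = 0 → a = 0) (g h : Γ)
    (hgh : φ g * φ h = -(φ h * φ g)) : g * h ≠ h * g := by
  intro hc
  have e1 : φ g * φ h = φ h * φ g := by rw [← map_mul, hc, map_mul]
  rw [e1] at hgh
  have e2 : φ h * φ g + φ h * φ g = 0 := by
    calc φ h * φ g + φ h * φ g = -(φ h * φ g) + φ h * φ g := by rw [← hgh]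
      _ = 0 := neg_add_cancel _
  have e3 := h2 _ e2
  have e4 : (1 : A) = 0 := by
    calc (1 : A) = φ (h * g) * φ ((h * g)⁻¹) := by rw [← map_mul, mul_inv_cancel, map_one]
      _ = 0 := by rw [map_mul, e3, zero_mul]
  apply h1
  rw [← mul_one (-1 : A), e4, mul_zero]

/-- the centralizer of an element has index at most two in any subgroup -/
theorem e5g_half (hcomm : ∀ g h : Γ, φ g * φ h = φ h * φ g ∨ φ g * φ h = -(φ h * φ g))
    (hφ : Function.Injective φ) (H : Subgroup Γ) (g : Γ) :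
    Nat.card H ≤ 2 * Nat.card (H ⊓ Subgroup.centralizer {g} : Subgroup Γ) := by
  have hcard : ∀ K : Subgroup Γ, Nat.card K = (K : Set Γ).ncard := fun K => rfl
  rw [hcard, hcard]
  by_cases hall : ∀ h ∈ H, g * h = h * g
  · have hsub : (H : Set Γ) ⊆ ((H ⊓ Subgroup.centralizer {g} : Subgroup Γ) : Set Γ) := by
      intro h hh
      refine Subgroup.mem_inf.2 ⟨hh, ?_⟩
      rw [Subgroup.mem_centralizer_iff]
      intro y hy
      rw [Set.mem_singleton_iff] at hy
      rw [hy]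
      exact hall h hh
    have := Set.ncard_le_ncard hsub
    omega
  · push_neg at hall
    obtain ⟨h0, hh0, hne⟩ := hall
    have e1 : φ g * φ h0 = -(φ h0 * φ g) := by
      rcases hcomm g h0 with h | h
      · exact absurd (hφ (by rw [map_mul, map_mul, h])) hne
      · exact h
    have hI1 : φ h0⁻¹ * φ h0 = 1 := by rw [← map_mul, inv_mul_cancel, map_one]
    have hI2 : φ h0 * φ h0⁻¹ = 1 := by rw [← map_mul, mul_inv_cancel, map_one]
    have e3 : φ g * φ h0⁻¹ = -(φ h0⁻¹ * φ g) := by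
      calc φ g * φ h0⁻¹ = (φ h0⁻¹ * φ h0) * φ g * φ h0⁻¹ := by rw [hI1, one_mul]
        _ = -(φ h0⁻¹ * (-(φ h0 * φ g)) * φ h0⁻¹) := by noncomm_ring
        _ = -(φ h0⁻¹ * (φ g * φ h0) * φ h0⁻¹) := by rw [e1]
        _ = -(φ h0⁻¹ * φ g * (φ h0 * φ h0⁻¹)) := by noncomm_ring
        _ = -(φ h0⁻¹ * φ g) := by rw [hI2, mul_one]
    have hsub : (H : Set Γ) ⊆ ((H ⊓ Subgroup.centralizer {g} : Subgroup Γ) : Set Γ) ∪
        (fun k => h0 * k) '' ((H ⊓ Subgroup.centralizer {g} : Subgroup Γ) : Set Γ) := by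
      intro h hh
      by_cases hc : g * h = h * g
      · left
        refine Subgroup.mem_inf.2 ⟨hh, ?_⟩
        rw [Subgroup.mem_centralizer_iff]
        intro y hy
        rw [Set.mem_singleton_iff] at hy
        rw [hy]
        exact hc
      · right
        have e2 : φ g * φ h = -(φ h * φ g) := by
          rcases hcomm g h with h' | h'
          · exact absurd (hφ (by rw [map_mul, map_mul, h'])) hc
          · exact h'
        refine ⟨h0⁻¹ * h, Subgroup.mem_inf.2 ⟨H.mul_mem (H.inv_mem hh0) hh, ?_⟩,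
          mul_inv_cancel_left h0 h⟩
        rw [Subgroup.mem_centralizer_iff]
        intro y hy
        rw [Set.mem_singleton_iff] at hy
        rw [hy]
        apply hφ
        simp only [map_mul]
        calc φ g * (φ h0⁻¹ * φ h) = (φ g * φ h0⁻¹) * φ h := by rw [mul_assoc]
          _ = -(φ h0⁻¹ * (φ g * φ h)) := by rw [e3]; noncomm_ring
          _ = φ h0⁻¹ * φ h * φ g := by rw [e2]; noncomm_ring
    have h1 := Set.ncard_le_ncard hsub
    have h2 := Set.ncard_union_le ((H ⊓ Subgroup.centralizer {g} : Subgroup Γ) : Set Γ)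
      ((fun k => h0 * k) '' ((H ⊓ Subgroup.centralizer {g} : Subgroup Γ) : Set Γ))
    have h3 := Set.ncard_image_le (f := fun k => h0 * k)
      (s := ((H ⊓ Subgroup.centralizer {g} : Subgroup Γ) : Set Γ))
    omega

set_option maxHeartbeats 1000000 in
/-- the abstract form of GEN2 -/
theorem e5g_abstract (hφ : Function.Injective φ) (h1 : (-1 : A) ≠ 1)
    (h2 : ∀ a : A, a + a = 0 → a = 0) (hcard : Nat.card Γ = 32)
    (hsq : ∀ g : Γ, φ g ^ 2 = 1 ∨ φ g ^ 2 = -1)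
    (hcomm : ∀ g h : Γ, φ g * φ h = φ h * φ g ∨ φ g * φ h = -(φ h * φ g))
    (hcen : ∀ g : Γ, (∀ h : Γ, g * h = h * g) → φ g = 1 ∨ φ g = -1)
    (hm1 : ∃ g : Γ, φ g = -1)
    (hminus : ∀ B : Subgroup Γ, IsMulCommutative B → (∀ x ∈ B, x * x = 1) → Nat.card B < 8) :
    ∃ i j x z : Γ, φ i ^ 2 = -1 ∧ φ j ^ 2 = -1 ∧ φ x ^ 2 = 1 ∧ φ z ^ 2 = 1 ∧
      φ i * φ j = -(φ j * φ i) ∧ φ x * φ z = -(φ z * φ x) ∧ φ i * φ x = φ x * φ i ∧
      φ i * φ z = φ z * φ i ∧ φ j * φ x = φ x * φ j ∧ φ j * φ z = φ z * φ j := by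
  obtain ⟨m, hm⟩ := hm1
  have hm_ne : m ≠ 1 := by
    intro h
    rw [h, map_one] at hm
    exact h1 hm.symm
  have hmc : ∀ g : Γ, m * g = g * m := by
    intro g
    apply hφ
    rw [map_mul, map_mul, hm, neg_one_mul, mul_neg_one]
  have hcard_univ : (Set.univ : Set Γ).ncard = 32 := by rw [Set.ncard_univ, hcard]
  have heq1 : ∀ g : Γ, φ g = 1 → g = 1 := fun g h => hφ (by rw [h, map_one])
  have heqm : ∀ g : Γ, φ g = -1 → g = m := fun g h => hφ (by rw [h, hm])
  have hgc : ∀ g h : Γ, φ g * φ h = φ h * φ g → g * h = h * g :=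
    fun g h hh => hφ (by rw [map_mul, map_mul, hh])
  have hpart : ∀ g : Γ, φ g ≠ 1 → φ g ≠ -1 → ∃ h : Γ, φ g * φ h = -(φ h * φ g) := by
    intro g hg1 hg2
    by_contra hno
    push_neg at hno
    have hall : ∀ h : Γ, g * h = h * g := by
      intro h
      rcases hcomm g h with hh | hh
      · exact hgc g h hh
      · exact absurd hh (hno h)
    rcases hcen g hall with h | h
    · exact hg1 h
    · exact hg2 h
  have htop : Nat.card (⊤ : Subgroup Γ) = 32 := by rw [Subgroup.card_top, hcard]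
  -- Step 1: a non-central involution
  obtain ⟨x, hx2, hx1, hxm⟩ : ∃ x : Γ, φ x ^ 2 = 1 ∧ φ x ≠ 1 ∧ φ x ≠ -1 := by
    obtain ⟨g, -, hg⟩ := Set.exists_mem_notMem_of_ncard_lt_ncard (s := ({1, m} : Set Γ))
      (t := Set.univ) (by have := e5g_ncard2 (1 : Γ) m; omega)
    have hg1 : φ g ≠ 1 := fun h => hg (by rw [heq1 g h]; simp)
    have hgm : φ g ≠ -1 := fun h => hg (by rw [heqm g h]; simp)
    rcases hsq g with hgs | hgs
    · exact ⟨g, hgs, hg1, hgm⟩
    · have hC := e5g_half φ hcomm hφ ⊤ g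
      have hCn : ((⊤ ⊓ Subgroup.centralizer {g} : Subgroup Γ) : Set Γ).ncard =
          Nat.card (⊤ ⊓ Subgroup.centralizer {g} : Subgroup Γ) := rfl
      obtain ⟨h, hhC, hh⟩ := Set.exists_mem_notMem_of_ncard_lt_ncard
        (s := ({1, m, g, m * g} : Set Γ))
        (t := ((⊤ ⊓ Subgroup.centralizer {g} : Subgroup Γ) : Set Γ))
        (by have := e5g_ncard4 (1 : Γ) m g (m * g); omega)
      have hcg : φ g * φ h = φ h * φ g := by
        have h3 := (Subgroup.mem_inf.1 hhC).2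
        rw [Subgroup.mem_centralizer_iff] at h3
        have h4 := h3 g rfl
        rw [← map_mul, h4, map_mul]
      have hh1 : φ h ≠ 1 := fun e => hh (by rw [heq1 h e]; simp)
      have hhm : φ h ≠ -1 := fun e => hh (by rw [heqm h e]; simp)
      rcases hsq h with hhs | hhs
      · exact ⟨h, hhs, hh1, hhm⟩
      · have hgg : φ g * φ g = -1 := by rw [← pow_two]; exact hgs
        have hhh : φ h * φ h = -1 := by rw [← pow_two]; exact hhs
        refine ⟨g * h, ?_, ?_, ?_⟩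
        · rw [map_mul, pow_two]
          calc φ g * φ h * (φ g * φ h) = φ g * (φ h * φ g) * φ h := by noncomm_ring
            _ = (φ g * φ g) * (φ h * φ h) := by rw [← hcg]; noncomm_ring
            _ = 1 := by rw [hgg, hhh]; simp
        · intro e
          rw [map_mul] at e
          apply hh
          have e' : h = m * g := by
            apply hφ
            rw [map_mul, hm]
            calc φ h = -((φ g * φ g) * φ h) := by rw [hgg]; simp
              _ = -(φ g * (φ g * φ h)) := by rw [mul_assoc]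
              _ = -1 * φ g := by rw [e]; simp
          rw [e']
          simp
        · intro e
          rw [map_mul] at e
          apply hh
          have e' : h = g := by
            apply hφ
            calc φ h = -((φ g * φ g) * φ h) := by rw [hgg]; simp
              _ = -(φ g * (φ g * φ h)) := by rw [mul_assoc]
              _ = φ g := by rw [e]; simp
          rw [e']
          simp
  have hxx : φ x * φ x = 1 := by rw [← pow_two]; exact hx2
  -- Step 2: an involution anticommuting with `x`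
  obtain ⟨z, hz2, hxz⟩ : ∃ z : Γ, φ z ^ 2 = 1 ∧ φ x * φ z = -(φ z * φ x) := by
    obtain ⟨z', hz'⟩ := hpart x hx1 hxm
    rcases hsq z' with hs | hs
    · exact ⟨z', hs, hz'⟩
    · have hzz : φ z' * φ z' = -1 := by rw [← pow_two]; exact hs
      refine ⟨z' * x, ?_, ?_⟩
      · rw [map_mul, pow_two]
        calc φ z' * φ x * (φ z' * φ x) = φ z' * (φ x * φ z') * φ x := by noncomm_ring
          _ = -((φ z' * φ z') * (φ x * φ x)) := by rw [hz']; noncomm_ring
          _ = 1 := by rw [hzz, hxx]; simp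
      · rw [map_mul]
        calc φ x * (φ z' * φ x) = (φ x * φ z') * φ x := by rw [mul_assoc]
          _ = -(φ z' * φ x * φ x) := by rw [hz']; noncomm_ring
  have hzz : φ z * φ z = 1 := by rw [← pow_two]; exact hz2
  have hzx : φ z * φ x = -(φ x * φ z) := by rw [hxz, neg_neg]
  -- Step 3: `i` in the centralizer of `x` and `z`
  obtain ⟨i, hix, hiz, hi1, him⟩ : ∃ i : Γ, φ i * φ x = φ x * φ i ∧ φ i * φ z = φ z * φ i ∧
      φ i ≠ 1 ∧ φ i ≠ -1 := by
    have hC1 := e5g_half φ hcomm hφ ⊤ x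
    have hC2 := e5g_half φ hcomm hφ (⊤ ⊓ Subgroup.centralizer {x}) z
    have hQn : (((⊤ ⊓ Subgroup.centralizer {x}) ⊓ Subgroup.centralizer {z} : Subgroup Γ) :
        Set Γ).ncard =
        Nat.card ((⊤ ⊓ Subgroup.centralizer {x}) ⊓ Subgroup.centralizer {z} : Subgroup Γ) := rfl
    obtain ⟨i, hiQ, hi⟩ := Set.exists_mem_notMem_of_ncard_lt_ncard (s := ({1, m} : Set Γ))
      (t := (((⊤ ⊓ Subgroup.centralizer {x}) ⊓ Subgroup.centralizer {z} : Subgroup Γ) : Set Γ))
      (by have := e5g_ncard2 (1 : Γ) m; omega)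
    have hiQ' := Subgroup.mem_inf.1 hiQ
    have hiX := (Subgroup.mem_inf.1 hiQ'.1).2
    have hiZ := hiQ'.2
    rw [Subgroup.mem_centralizer_iff] at hiX hiZ
    have e1 := hiX x rfl
    have e2 := hiZ z rfl
    refine ⟨i, ?_, ?_, fun e => hi (by rw [heq1 i e]; simp), fun e => hi (by rw [heqm i e]; simp)⟩
    · rw [← map_mul, ← e1, map_mul]
    · rw [← map_mul, ← e2, map_mul]
  obtain ⟨j', hij'⟩ := hpart i hi1 him
  obtain ⟨j1, hij1, hj1x⟩ : ∃ j1 : Γ, φ i * φ j1 = -(φ j1 * φ i) ∧ φ j1 * φ x = φ x * φ j1 := by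
    rcases hcomm j' x with h | h
    · exact ⟨j', hij', h⟩
    · refine ⟨j' * z, ?_, ?_⟩
      · rw [map_mul]
        calc φ i * (φ j' * φ z) = (φ i * φ j') * φ z := by rw [mul_assoc]
          _ = -(φ j' * (φ i * φ z)) := by rw [hij']; noncomm_ring
          _ = -(φ j' * φ z * φ i) := by rw [hiz]; noncomm_ring
      · rw [map_mul]
        calc φ j' * φ z * φ x = φ j' * (φ z * φ x) := by rw [mul_assoc]
          _ = -((φ j' * φ x) * φ z) := by rw [hzx]; noncomm_ring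
          _ = φ x * (φ j' * φ z) := by rw [h]; noncomm_ring
  obtain ⟨j, hij, hjx, hjz⟩ : ∃ j : Γ, φ i * φ j = -(φ j * φ i) ∧ φ j * φ x = φ x * φ j ∧
      φ j * φ z = φ z * φ j := by
    rcases hcomm j1 z with h | h
    · exact ⟨j1, hij1, hj1x, h⟩
    · refine ⟨j1 * x, ?_, ?_, ?_⟩
      · rw [map_mul]
        calc φ i * (φ j1 * φ x) = (φ i * φ j1) * φ x := by rw [mul_assoc]
          _ = -(φ j1 * (φ i * φ x)) := by rw [hij1]; noncomm_ring
          _ = -(φ j1 * φ x * φ i) := by rw [hix]; noncomm_ring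
      · rw [map_mul]
        calc φ j1 * φ x * φ x = (φ x * φ j1) * φ x := by rw [hj1x]
          _ = φ x * (φ j1 * φ x) := by rw [mul_assoc]
      · rw [map_mul]
        calc φ j1 * φ x * φ z = φ j1 * (φ x * φ z) := by rw [mul_assoc]
          _ = -((φ j1 * φ z) * φ x) := by rw [hxz]; noncomm_ring
          _ = φ z * (φ j1 * φ x) := by rw [h]; noncomm_ring
  -- Step 4: no elementary abelian subgroup of order 8
  have key : ∀ u w : Γ, φ u ^ 2 = 1 → φ u * φ x = φ x * φ u → φ w * φ x = φ x * φ w →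
      φ u * φ w = -(φ w * φ u) → False := by
    intro u w hu2 hux hwx huw
    have huu : φ u * φ u = 1 := by rw [← pow_two]; exact hu2
    have gmm : m * m = 1 := hφ (by rw [map_mul, hm, map_one]; simp)
    have gxx : x * x = 1 := hφ (by rw [map_mul, hxx, map_one])
    have guu : u * u = 1 := hφ (by rw [map_mul, huu, map_one])
    have gux : u * x = x * u := hgc u x hux
    have gwx : w * x = x * w := hgc w x hwx
    have hcommS : ∀ a ∈ ({m, x, u} : Set Γ), ∀ b ∈ ({m, x, u} : Set Γ), a * b = b * a := by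
      intro a ha b hb
      simp only [Set.mem_insert_iff, Set.mem_singleton_iff] at ha hb
      rcases ha with ha | ha | ha <;> rcases hb with hb | hb | hb <;> rw [ha, hb] <;>
        first | exact hmc _ | exact (hmc _).symm | exact gux | exact gux.symm
    have hAc : IsMulCommutative (Subgroup.closure ({m, x, u} : Set Γ)) :=
      Subgroup.isMulCommutative_closure hcommS
    have hexp : ∀ a ∈ Subgroup.closure ({m, x, u} : Set Γ), a * a = 1 := by
      intro a ha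
      induction ha using Subgroup.closure_induction with
      | mem y hy =>
        simp only [Set.mem_insert_iff, Set.mem_singleton_iff] at hy
        rcases hy with hy | hy | hy
        · rw [hy]; exact gmm
        · rw [hy]; exact gxx
        · rw [hy]; exact guu
      | one => exact mul_one 1
      | mul a b ha hb iha ihb =>
        have hab : a * b = b * a := setLike_mul_comm ha hb
        calc a * b * (a * b) = a * (b * a) * b := by group
          _ = (a * a) * (b * b) := by rw [← hab]; group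
          _ = 1 := by rw [iha, ihb, mul_one]
      | inv a ha iha =>
        calc a⁻¹ * a⁻¹ = (a * a)⁻¹ := by group
          _ = 1 := by rw [iha, inv_one]
    have hlt := hminus _ hAc hexp
    have c1 : 2 * Nat.card (⊥ : Subgroup Γ) ≤ Nat.card (Subgroup.closure ({m} : Set Γ)) :=
      e5g_card_two_mul ⊥ _ bot_le m (Subgroup.subset_closure rfl)
        (by rw [Subgroup.mem_bot]; exact hm_ne)
    have c2 : 2 * Nat.card (Subgroup.closure ({m} : Set Γ)) ≤
        Nat.card (Subgroup.closure ({m, x} : Set Γ)) := by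
      refine e5g_card_two_mul _ _ (Subgroup.closure_mono (by simp)) x
        (Subgroup.subset_closure (by simp)) ?_
      intro hx
      have hle : Subgroup.closure ({m} : Set Γ) ≤ Subgroup.centralizer {z} := by
        rw [Subgroup.closure_le]
        intro y hy
        rw [Set.mem_singleton_iff] at hy
        rw [hy]
        show m ∈ Subgroup.centralizer {z}
        rw [Subgroup.mem_centralizer_iff]
        intro t ht
        rw [Set.mem_singleton_iff] at ht
        rw [ht]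
        exact (hmc z).symm
      have h3 := hle hx
      rw [Subgroup.mem_centralizer_iff] at h3
      exact e5g_not_comm φ h1 h2 z x hzx (h3 z rfl)
    have c3 : 2 * Nat.card (Subgroup.closure ({m, x} : Set Γ)) ≤
        Nat.card (Subgroup.closure ({m, x, u} : Set Γ)) := by
      refine e5g_card_two_mul _ _ (Subgroup.closure_mono ?_) u
        (Subgroup.subset_closure (by simp)) ?_
      · intro y hy
        simp only [Set.mem_insert_iff, Set.mem_singleton_iff] at hy ⊢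
        rcases hy with hy | hy
        · left; exact hy
        · right; left; exact hy
      · intro hu
        have hle : Subgroup.closure ({m, x} : Set Γ) ≤ Subgroup.centralizer {w} := by
          rw [Subgroup.closure_le]
          intro y hy
          simp only [Set.mem_insert_iff, Set.mem_singleton_iff] at hy
          show y ∈ Subgroup.centralizer {w}
          rw [Subgroup.mem_centralizer_iff]
          intro t ht
          rw [Set.mem_singleton_iff] at ht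
          rw [ht]
          rcases hy with hy | hy
          · rw [hy]; exact (hmc w).symm
          · rw [hy]; exact gwx
        have h3 := hle hu
        rw [Subgroup.mem_centralizer_iff] at h3
        have hwu : φ w * φ u = -(φ u * φ w) := by rw [huw, neg_neg]
        exact e5g_not_comm φ h1 h2 w u hwu (h3 w rfl)
    rw [Subgroup.card_bot] at c1
    omega
  have hi2 : φ i ^ 2 = -1 := by
    rcases hsq i with h | h
    · exact (key i j h hix hjx hij).elim
    · exact h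
  have hji : φ j * φ i = -(φ i * φ j) := by rw [hij, neg_neg]
  have hj2 : φ j ^ 2 = -1 := by
    rcases hsq j with h | h
    · exact (key j i h hjx hix hji).elim
    · exact h
  exact ⟨i, j, x, z, hi2, hj2, hx2, hz2, hij, hxz, hix, hiz, hjx, hjz⟩

end abstract

theorem e5_exists_gens {F : Type*} [Field F] (h2 : (2 : F) ≠ 0)
    (R : Subgroup (GL (Fin 2 ⊕ Fin 2) F)) (hcard : Nat.card R = 32)
    (hsq : ∀ g ∈ R, (g : Matrix (Fin 2 ⊕ Fin 2) (Fin 2 ⊕ Fin 2) F) ^ 2 = 1 ∨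
      (g : Matrix (Fin 2 ⊕ Fin 2) (Fin 2 ⊕ Fin 2) F) ^ 2 = -1)
    (hcomm : ∀ g ∈ R, ∀ h ∈ R,
      (g : Matrix (Fin 2 ⊕ Fin 2) (Fin 2 ⊕ Fin 2) F) * (h : Matrix (Fin 2 ⊕ Fin 2) (Fin 2 ⊕ Fin 2) F) =
        (h : Matrix (Fin 2 ⊕ Fin 2) (Fin 2 ⊕ Fin 2) F) * (g : Matrix (Fin 2 ⊕ Fin 2) (Fin 2 ⊕ Fin 2) F) ∨
      (g : Matrix (Fin 2 ⊕ Fin 2) (Fin 2 ⊕ Fin 2) F) * (h : Matrix (Fin 2 ⊕ Fin 2) (Fin 2 ⊕ Fin 2) F) =
        -((h : Matrix (Fin 2 ⊕ Fin 2) (Fin 2 ⊕ Fin 2) F) * (g : Matrix (Fin 2 ⊕ Fin 2) (Fin 2 ⊕ Fin 2) F)))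
    (hsc : ∀ g ∈ R, (∃ c : F, (g : Matrix (Fin 2 ⊕ Fin 2) (Fin 2 ⊕ Fin 2) F) = c • 1) →
      (g : Matrix (Fin 2 ⊕ Fin 2) (Fin 2 ⊕ Fin 2) F) = 1 ∨
        (g : Matrix (Fin 2 ⊕ Fin 2) (Fin 2 ⊕ Fin 2) F) = -1)
    (hm1 : ∃ g ∈ R, (g : Matrix (Fin 2 ⊕ Fin 2) (Fin 2 ⊕ Fin 2) F) = -1)
    (hnc : ∀ g ∈ R, (∀ h ∈ R, g * h = h * g) →
      ∃ c : F, (g : Matrix (Fin 2 ⊕ Fin 2) (Fin 2 ⊕ Fin 2) F) = c • 1)
    (hRm : Cfsg.Geo.IsOfMinusType 2 R) :
    ∃ i j x z : GL (Fin 2 ⊕ Fin 2) F, i ∈ R ∧ j ∈ R ∧ x ∈ R ∧ z ∈ R ∧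
      (i : Matrix (Fin 2 ⊕ Fin 2) (Fin 2 ⊕ Fin 2) F) ^ 2 = -1 ∧
      (j : Matrix (Fin 2 ⊕ Fin 2) (Fin 2 ⊕ Fin 2) F) ^ 2 = -1 ∧
      (x : Matrix (Fin 2 ⊕ Fin 2) (Fin 2 ⊕ Fin 2) F) ^ 2 = 1 ∧
      (z : Matrix (Fin 2 ⊕ Fin 2) (Fin 2 ⊕ Fin 2) F) ^ 2 = 1 ∧
      (i : Matrix (Fin 2 ⊕ Fin 2) (Fin 2 ⊕ Fin 2) F) * (j : Matrix (Fin 2 ⊕ Fin 2) (Fin 2 ⊕ Fin 2) F) =
        -((j : Matrix (Fin 2 ⊕ Fin 2) (Fin 2 ⊕ Fin 2) F) * (i : Matrix (Fin 2 ⊕ Fin 2) (Fin 2 ⊕ Fin 2) F)) ∧
      (x : Matrix (Fin 2 ⊕ Fin 2) (Fin 2 ⊕ Fin 2) F) * (z : Matrix (Fin 2 ⊕ Fin 2) (Fin 2 ⊕ Fin 2) F) =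
        -((z : Matrix (Fin 2 ⊕ Fin 2) (Fin 2 ⊕ Fin 2) F) * (x : Matrix (Fin 2 ⊕ Fin 2) (Fin 2 ⊕ Fin 2) F)) ∧
      (i : Matrix (Fin 2 ⊕ Fin 2) (Fin 2 ⊕ Fin 2) F) * (x : Matrix (Fin 2 ⊕ Fin 2) (Fin 2 ⊕ Fin 2) F) =
        (x : Matrix (Fin 2 ⊕ Fin 2) (Fin 2 ⊕ Fin 2) F) * (i : Matrix (Fin 2 ⊕ Fin 2) (Fin 2 ⊕ Fin 2) F) ∧
      (i : Matrix (Fin 2 ⊕ Fin 2) (Fin 2 ⊕ Fin 2) F) * (z : Matrix (Fin 2 ⊕ Fin 2) (Fin 2 ⊕ Fin 2) F) =
        (z : Matrix (Fin 2 ⊕ Fin 2) (Fin 2 ⊕ Fin 2) F) * (i : Matrix (Fin 2 ⊕ Fin 2) (Fin 2 ⊕ Fin 2) F) ∧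
      (j : Matrix (Fin 2 ⊕ Fin 2) (Fin 2 ⊕ Fin 2) F) * (x : Matrix (Fin 2 ⊕ Fin 2) (Fin 2 ⊕ Fin 2) F) =
        (x : Matrix (Fin 2 ⊕ Fin 2) (Fin 2 ⊕ Fin 2) F) * (j : Matrix (Fin 2 ⊕ Fin 2) (Fin 2 ⊕ Fin 2) F) ∧
      (j : Matrix (Fin 2 ⊕ Fin 2) (Fin 2 ⊕ Fin 2) F) * (z : Matrix (Fin 2 ⊕ Fin 2) (Fin 2 ⊕ Fin 2) F) =
        (z : Matrix (Fin 2 ⊕ Fin 2) (Fin 2 ⊕ Fin 2) F) * (j : Matrix (Fin 2 ⊕ Fin 2) (Fin 2 ⊕ Fin 2) F) := by
  haveI : Finite R := Nat.finite_of_card_ne_zero (by rw [hcard]; norm_num)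
  obtain ⟨φ, hφv⟩ : ∃ φ : ↥R →* Matrix (Fin 2 ⊕ Fin 2) (Fin 2 ⊕ Fin 2) F,
      ∀ g : ↥R, φ g = ((g : GL (Fin 2 ⊕ Fin 2) F) : Matrix (Fin 2 ⊕ Fin 2) (Fin 2 ⊕ Fin 2) F) :=
    ⟨(Units.coeHom _).comp R.subtype, fun g => rfl⟩
  have hφ : Function.Injective φ := by
    intro a b h
    rw [hφv, hφv] at h
    exact Subtype.ext (Units.ext h)
  have h1 : (-1 : Matrix (Fin 2 ⊕ Fin 2) (Fin 2 ⊕ Fin 2) F) ≠ 1 := by
    intro h
    have h3 := congrFun (congrFun h (Sum.inl 0)) (Sum.inl 0)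
    simp only [Matrix.neg_apply, Matrix.one_apply_eq] at h3
    apply h2
    linear_combination (-1 : F) * h3
  have h2' : ∀ a : Matrix (Fin 2 ⊕ Fin 2) (Fin 2 ⊕ Fin 2) F, a + a = 0 → a = 0 := by
    intro a h
    ext p q
    have h3 := congrFun (congrFun h p) q
    simp only [Matrix.add_apply, Matrix.zero_apply] at h3
    have h4 : (2 : F) * a p q = 0 := by rw [two_mul]; exact h3
    rcases mul_eq_zero.1 h4 with h5 | h5
    · exact absurd h5 h2
    · exact h5
  have hsq' : ∀ g : ↥R, φ g ^ 2 = 1 ∨ φ g ^ 2 = -1 := by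
    intro g
    rw [hφv]
    exact hsq g g.2
  have hcomm' : ∀ g h : ↥R, φ g * φ h = φ h * φ g ∨ φ g * φ h = -(φ h * φ g) := by
    intro g h
    rw [hφv, hφv]
    exact hcomm g g.2 h h.2
  have hcen' : ∀ g : ↥R, (∀ h : ↥R, g * h = h * g) → φ g = 1 ∨ φ g = -1 := by
    intro g hg
    rw [hφv]
    apply hsc g g.2
    apply hnc g g.2
    intro h hh
    exact congrArg Subtype.val (hg ⟨h, hh⟩)
  have hm1' : ∃ g : ↥R, φ g = -1 := by
    obtain ⟨g, hg, hg'⟩ := hm1
    exact ⟨⟨g, hg⟩, by rw [hφv]; exact hg'⟩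
  have hminus' : ∀ B : Subgroup ↥R, IsMulCommutative B → (∀ x ∈ B, x * x = 1) →
      Nat.card B < 8 := by
    intro B hB hB2
    have h3 := hRm B hB hB2
    norm_num at h3
    exact h3
  obtain ⟨i, j, x, z, hh⟩ := e5g_abstract φ hφ h1 h2' hcard hsq' hcomm' hcen' hm1' hminus'
  simp only [hφv] at hh
  exact ⟨i, j, x, z, i.2, j.2, x.2, z.2, hh⟩

end Cfsg.Agent.Helper91
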