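import Mathlib
import Cfsg.Prelude.Def_OddOrderLocal

/-!
# CALL S1437 piece NIL (helper91)
-/

set_option autoImplicit false

namespace Cfsg.Agent.Helper91

open Cfsg Subgroup

universe u

variable {G : Type u} [Group G] [Finite G]

/-- NIL (pure). `S = Q D` with `Q` a `q`-group, `D` nilpotent, `[Q, D] = 1` is nilpotent:
`(a, b) ↦ a * b` is a surjective homomorphism `↥Q × ↥D →* ↥S`; `Group.isNilpotent_prod`,
`IsPGroup.isNilpotent`, `isNilpotent_of_surjective`. -/
theorem bg15b_nilpotent_of_comm {S Q D : Subgroup G} {q : ℕ} (hq : q.Prime)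
    (hQq : IsPGroup q Q) (hD : Group.IsNilpotent ↥D) (hc : IsComplIn Q D S)
    (hQD : Q ≤ centralizer (D : Set G)) : Group.IsNilpotent ↥S := by
  obtain ⟨hQS, hDS, -, hprod⟩ := hc
  haveI : Fact q.Prime := ⟨hq⟩
  haveI hQn : Group.IsNilpotent ↥Q := hQq.isNilpotent
  haveI := hD
  let f : ↥Q × ↥D →* ↥S :=
    { toFun := fun x => ⟨(x.1 : G) * (x.2 : G), S.mul_mem (hQS x.1.2) (hDS x.2.2)⟩
      map_one' := by
        apply Subtype.ext
        simp
      map_mul' := by
        intro x y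
        apply Subtype.ext
        have h1 : (x.2 : G) * (y.1 : G) = (y.1 : G) * (x.2 : G) :=
          (Subgroup.mem_centralizer_iff.1 (hQD y.1.2)) x.2 x.2.2
        show ((x.1 * y.1 : ↥Q) : G) * ((x.2 * y.2 : ↥D) : G) =
          ((x.1 : G) * (x.2 : G)) * ((y.1 : G) * (y.2 : G))
        rw [Subgroup.coe_mul, Subgroup.coe_mul]
        calc (x.1 : G) * (y.1 : G) * ((x.2 : G) * (y.2 : G))
            = (x.1 : G) * ((y.1 : G) * (x.2 : G)) * (y.2 : G) := by group
          _ = (x.1 : G) * ((x.2 : G) * (y.1 : G)) * (y.2 : G) := by rw [h1]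
          _ = (x.1 : G) * (x.2 : G) * ((y.1 : G) * (y.2 : G)) := by group }
  have hf : Function.Surjective f := by
    intro s
    obtain ⟨a, ha, b, hb, hab⟩ := hprod s s.2
    exact ⟨(⟨a, ha⟩, ⟨b, hb⟩), Subtype.ext hab.symm⟩
  exact Group.nilpotent_of_surjective f hf

end Cfsg.Agent.Helper91
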