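import Mathlib
import Cfsg.Agent.Helper98.C2Defs

/-!
Piece A2 of CALL S5634 (helper98): a dense element of an overgroup of the monomial group yields a
non-monomial element with a zero entry.

Proof.  Let `h = g⁻¹`, `ρ` its row `i₀`; by density `ρ` has two non-zero entries `ρ_a`, `ρ_b`.  Put
`δ = ρ_b e_a - ρ_a e_b` and, for `j ≠ i₀`, `D_s = diag (1 + s δ / col_j g)`.  Column `j` of `g⁻¹ D_s g` is
`e_j + s η` with `η = h δ`, `η_{i₀} = 0`.  If this matrix is monomial for two distinct non-zero `s` then `η`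
is supported at `j`, so `δ = η_j col_j g`, which is impossible.
-/

set_option autoImplicit false

namespace Cfsg.Agent.Helper91.C2A2

open Matrix Cfsg.Agent.Helper98.C2
open scoped MatrixGroups

variable {K : Type*} [Field K]

/-- PIECE A2 -/
theorem agl_dense {ι : Type*} [Fintype ι] [DecidableEq ι] [Fintype K] (hq : 5 ≤ Fintype.card K)
    (hι : 3 ≤ Fintype.card ι) (X : Subgroup (GL ι K)) (hX : MonLE X)
    (g : GL ι K) (hg : g ∈ X) (hd : ∀ i j, g.1 i j ≠ 0) :
    ∃ g' ∈ X, ¬ IsMono g'.1 ∧ ∃ i l, g'.1 i l = 0 := by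
  classical
  obtain ⟨h, hh⟩ : ∃ h : Matrix ι ι K, h = (g⁻¹ : GL ι K).1 := ⟨_, rfl⟩
  have hhg : h * g.1 = 1 := by rw [hh, ← Units.val_mul, inv_mul_cancel, Units.val_one]
  have hgh : g.1 * h = 1 := by rw [hh, ← Units.val_mul, mul_inv_cancel, Units.val_one]
  have hhg' : ∀ i m, ∑ k, h i k * g.1 k m = if i = m then 1 else 0 := by
    intro i m
    have h1 := congrFun (congrFun hhg i) m
    rw [Matrix.mul_apply, Matrix.one_apply] at h1
    exact h1
  have hgh' : ∀ i m, ∑ k, g.1 i k * h k m = if i = m then 1 else 0 := by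
    intro i m
    have h1 := congrFun (congrFun hgh i) m
    rw [Matrix.mul_apply, Matrix.one_apply] at h1
    exact h1
  obtain ⟨i₀, j, hij⟩ : ∃ i₀ j : ι, i₀ ≠ j := Fintype.exists_pair_of_one_lt_card (by omega)
  obtain ⟨a, ha⟩ : ∃ a, h i₀ a ≠ 0 := by
    by_contra hno
    have hz : ∀ k, h i₀ k = 0 := fun k => by_contra fun hk => hno ⟨k, hk⟩
    have h1 := hhg' i₀ i₀
    simp [hz] at h1
  obtain ⟨b, hba, hb⟩ : ∃ b, b ≠ a ∧ h i₀ b ≠ 0 := by
    by_contra hno
    have hz : ∀ k, k ≠ a → h i₀ k = 0 := fun k hk => by_contra fun hk' => hno ⟨k, hk, hk'⟩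
    have h1 := hhg' i₀ j
    rw [if_neg hij, Finset.sum_eq_single a (fun k _ hk => by rw [hz k hk, zero_mul])
      (fun hna => absurd (Finset.mem_univ a) hna)] at h1
    exact (mul_ne_zero ha (hd a j)) h1
  obtain ⟨e, hea, heb⟩ : ∃ e, e ≠ a ∧ e ≠ b := by
    by_contra hno
    have hall : ∀ e : ι, e = a ∨ e = b := fun e => by
      by_contra h'
      exact hno ⟨e, fun h1 => h' (Or.inl h1), fun h1 => h' (Or.inr h1)⟩
    have hsub : (Finset.univ : Finset ι) ⊆ {a, b} := fun e _ => by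
      rcases hall e with h1 | h1 <;> simp [h1]
    have h1 := Finset.card_le_card hsub
    have h2 : ({a, b} : Finset ι).card ≤ 2 := Finset.card_le_two
    rw [Finset.card_univ] at h1
    omega
  obtain ⟨δ, hδ⟩ : ∃ δ : ι → K, δ = fun k => if k = a then h i₀ b else if k = b then - h i₀ a else 0 :=
    ⟨_, rfl⟩
  have hδa : δ a = h i₀ b := by simp [hδ]
  have hδb : δ b = - h i₀ a := by simp [hδ, hba]
  have hδo : ∀ k, k ≠ a → k ≠ b → δ k = 0 := fun k h1 h2 => by simp [hδ, h1, h2]
  obtain ⟨η, hη⟩ : ∃ η : ι → K, η = fun k => ∑ m, h k m * δ m := ⟨_, rfl⟩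
  have hη0 : η i₀ = 0 := by
    rw [hη]
    show ∑ m, h i₀ m * δ m = 0
    rw [Finset.sum_eq_add a b (Ne.symm hba) (fun c _ hc => by rw [hδo c hc.1 hc.2, mul_zero])
      (fun hna => absurd (Finset.mem_univ a) hna) (fun hnb => absurd (Finset.mem_univ b) hnb), hδa, hδb]
    ring
  have hentry : ∀ (s : K) (k : ι),
      (h * Matrix.diagonal (fun m => 1 + s * δ m / g.1 m j) * g.1) k j =
        (if k = j then 1 else 0) + s * η k := by
    intro s k
    rw [Matrix.mul_apply]
    simp only [Matrix.mul_diagonal]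
    rw [← hhg' k j, hη]
    show _ = ∑ m, h k m * g.1 m j + s * ∑ m, h k m * δ m
    rw [Finset.mul_sum, ← Finset.sum_add_distrib]
    apply Finset.sum_congr rfl
    intro m _
    have h1 := hd m j
    field_simp
  have hvalid : ∀ s : K, s ≠ - g.1 a j / h i₀ b → s ≠ g.1 b j / h i₀ a →
      ∀ m, 1 + s * δ m / g.1 m j ≠ 0 := by
    intro s h1 h2 m h0
    have hm := hd m j
    have h0' : g.1 m j + s * δ m = 0 := by
      have e : g.1 m j + s * δ m = (1 + s * δ m / g.1 m j) * g.1 m j := by field_simp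
      rw [e, h0, zero_mul]
    by_cases hma : m = a
    · rw [hma, hδa] at h0'
      apply h1
      rw [eq_div_iff hb]
      linear_combination h0'
    · by_cases hmb : m = b
      · rw [hmb, hδb] at h0'
        apply h2
        rw [eq_div_iff ha]
        linear_combination -h0'
      · rw [hδo m hma hmb, mul_zero, add_zero] at h0'
        exact hm h0'
  have hmk : ∀ s : K, s ≠ - g.1 a j / h i₀ b → s ≠ g.1 b j / h i₀ a →
      ∃ g' ∈ X, g'.1 = h * Matrix.diagonal (fun m => 1 + s * δ m / g.1 m j) * g.1 := by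
    intro s h1 h2
    have hdet : (Matrix.diagonal (fun m => 1 + s * δ m / g.1 m j)).det ≠ 0 := by
      rw [Matrix.det_diagonal]
      exact Finset.prod_ne_zero_iff.mpr (fun m _ => hvalid s h1 h2 m)
    refine ⟨g⁻¹ * Matrix.GeneralLinearGroup.mkOfDetNeZero _ hdet * g, ?_, ?_⟩
    · exact X.mul_mem (X.mul_mem (X.inv_mem hg)
        (hX _ ⟨1, fun i m hne => Matrix.diagonal_apply_ne _ hne⟩)) hg
    · rw [Units.val_mul, Units.val_mul, ← hh]
      rfl
  have hzero : ∀ s : K, (h * Matrix.diagonal (fun m => 1 + s * δ m / g.1 m j) * g.1) i₀ j = 0 := by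
    intro s
    rw [hentry, if_neg hij, hη0, mul_zero, add_zero]
  obtain ⟨s₁, s₂, hs12, hs1, hs2⟩ : ∃ s₁ s₂ : K, s₁ ≠ s₂ ∧
      s₁ ∉ ({0, - g.1 a j / h i₀ b, g.1 b j / h i₀ a} : Finset K) ∧
      s₂ ∉ ({0, - g.1 a j / h i₀ b, g.1 b j / h i₀ a} : Finset K) := by
    have hcard : 1 < (Finset.univ \ ({0, - g.1 a j / h i₀ b, g.1 b j / h i₀ a} : Finset K)).card := by
      have h1 := Finset.card_le_card_sdiff_add_card (s := (Finset.univ : Finset K))
        (t := ({0, - g.1 a j / h i₀ b, g.1 b j / h i₀ a} : Finset K))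
      have h2 : ({0, - g.1 a j / h i₀ b, g.1 b j / h i₀ a} : Finset K).card ≤ 3 := Finset.card_le_three
      rw [Finset.card_univ] at h1
      omega
    obtain ⟨s₁, hs₁, s₂, hs₂, hne⟩ := Finset.one_lt_card.mp hcard
    exact ⟨s₁, s₂, hne, (Finset.mem_sdiff.mp hs₁).2, (Finset.mem_sdiff.mp hs₂).2⟩
  have hs1' : s₁ ≠ 0 ∧ s₁ ≠ - g.1 a j / h i₀ b ∧ s₁ ≠ g.1 b j / h i₀ a := by
    simpa [not_or] using hs1
  have hs2' : s₂ ≠ 0 ∧ s₂ ≠ - g.1 a j / h i₀ b ∧ s₂ ≠ g.1 b j / h i₀ a := by
    simpa [not_or] using hs2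
  obtain ⟨g₁, hg₁X, hg₁⟩ := hmk s₁ hs1'.2.1 hs1'.2.2
  obtain ⟨g₂, hg₂X, hg₂⟩ := hmk s₂ hs2'.2.1 hs2'.2.2
  by_cases hm1 : IsMono g₁.1
  · by_cases hm2 : IsMono g₂.1
    · exfalso
      obtain ⟨σ₁, hσ₁⟩ := hm1
      obtain ⟨σ₂, hσ₂⟩ := hm2
      have e1 : ∀ k, k ≠ σ₁ j → (if k = j then (1 : K) else 0) + s₁ * η k = 0 := fun k hk => by
        rw [← hentry, ← hg₁]
        exact hσ₁ k j hk
      have e2 : ∀ k, k ≠ σ₂ j → (if k = j then (1 : K) else 0) + s₂ * η k = 0 := fun k hk => by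
        rw [← hentry, ← hg₂]
        exact hσ₂ k j hk
      have hsupp : ∀ k, k ≠ j → η k = 0 := by
        by_cases h1 : σ₁ j = j
        · intro k hk
          have h3 := e1 k (by rw [h1]; exact hk)
          rw [if_neg hk, zero_add] at h3
          exact (mul_eq_zero.mp h3).resolve_left hs1'.1
        · by_cases h2 : σ₂ j = j
          · intro k hk
            have h3 := e2 k (by rw [h2]; exact hk)
            rw [if_neg hk, zero_add] at h3
            exact (mul_eq_zero.mp h3).resolve_left hs2'.1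
          · exfalso
            have a1 := e1 j (fun h' => h1 h'.symm)
            have a2 := e2 j (fun h' => h2 h'.symm)
            rw [if_pos rfl] at a1 a2
            have h3 : (s₁ - s₂) * η j = 0 := by linear_combination a1 - a2
            rcases mul_eq_zero.mp h3 with h' | h'
            · exact hs12 (sub_eq_zero.mp h')
            · rw [h', mul_zero, add_zero] at a1
              exact one_ne_zero a1
      have hδη : ∀ k, δ k = g.1 k j * η j := by
        intro k
        have h1 : δ k = ∑ m, g.1 k m * η m := by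
          rw [hη]
          simp only [Finset.mul_sum]
          rw [Finset.sum_comm]
          simp only [← mul_assoc, ← Finset.sum_mul, hgh']
          simp
        rw [h1, Finset.sum_eq_single j (fun m _ hm => by rw [hsupp m hm, mul_zero])
          (fun h' => absurd (Finset.mem_univ j) h')]
      have h1 := hδη e
      rw [hδo e hea heb] at h1
      have hηj : η j = 0 := (mul_eq_zero.mp h1.symm).resolve_left (hd e j)
      have h2 := hδη a
      rw [hδa, hηj, mul_zero] at h2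
      exact hb h2
    · exact ⟨g₂, hg₂X, hm2, i₀, j, by rw [hg₂]; exact hzero s₂⟩
  · exact ⟨g₁, hg₁X, hm1, i₀, j, by rw [hg₁]; exact hzero s₁⟩

end Cfsg.Agent.Helper91.C2A2
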