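import Mathlib
import Cfsg.Agent.Helper98.C2Defs

/-!
Piece G of CALL S5634 (helper98): a subgroup of `GL` containing all elementary transvections and all diagonal
matrices of determinant one contains every matrix of determinant one.
-/

set_option autoImplicit false

namespace Cfsg.Agent.Helper91.C2G

open Matrix Cfsg.Agent.Helper98.C2
open scoped MatrixGroups

variable {K : Type*} [Field K]

/-- PIECE G (pure Mathlib) -/
theorem sl_of_transvections {ι : Type*} [Fintype ι] [DecidableEq ι] (M : Subgroup (GL ι K))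
    (hT : ∀ i j : ι, i ≠ j → ∀ c : K, ∃ k ∈ M, k.1 = Matrix.transvection i j c)
    (hD : ∀ g : GL ι K, (∃ d : ι → K, g.1 = Matrix.diagonal d) → g.1.det = 1 → g ∈ M) :
    ∀ g : GL ι K, g.1.det = 1 → g ∈ M := by
  intro g hg
  obtain ⟨L, L', D, hLD⟩ := Matrix.Pivot.exists_list_transvec_mul_diagonal_mul_list_transvec g.1
  -- every list of transvections is realised in `M`
  have hlist : ∀ L : List (Matrix.TransvectionStruct ι K),
      ∃ k ∈ M, k.1 = (L.map Matrix.TransvectionStruct.toMatrix).prod := by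
    intro L
    induction L with
    | nil => exact ⟨1, M.one_mem, by simp⟩
    | cons t L ih =>
      obtain ⟨k, hk, hk'⟩ := ih
      obtain ⟨k₀, hk₀, hk₀'⟩ := hT t.i t.j t.hij t.c
      refine ⟨k₀ * k, M.mul_mem hk₀ hk, ?_⟩
      rw [List.map_cons, List.prod_cons, Units.val_mul, hk₀', hk']
      rfl
  obtain ⟨k₁, hk₁, hk₁'⟩ := hlist L
  obtain ⟨k₂, hk₂, hk₂'⟩ := hlist L'
  have hdet : (Matrix.diagonal D).det = 1 := by
    have h := congrArg Matrix.det hLD
    rw [hg, Matrix.det_mul, Matrix.det_mul, Matrix.TransvectionStruct.det_toMatrix_prod,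
      Matrix.TransvectionStruct.det_toMatrix_prod, one_mul, mul_one] at h
    exact h.symm
  obtain ⟨gD, hgD⟩ : ∃ gD : GL ι K, gD.1 = Matrix.diagonal D :=
    ⟨Matrix.GeneralLinearGroup.mkOfDetNeZero (Matrix.diagonal D) (by rw [hdet]; exact one_ne_zero), rfl⟩
  have hgDM : gD ∈ M := hD gD ⟨D, hgD⟩ (by rw [hgD]; exact hdet)
  have hgeq : g = k₁ * gD * k₂ := by
    apply Units.ext
    rw [Units.val_mul, Units.val_mul, hk₁', hgD, hk₂']
    exact hLD
  rw [hgeq]
  exact M.mul_mem (M.mul_mem hk₁ hgDM) hk₂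

end Cfsg.Agent.Helper91.C2G
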