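import Mathlib
import Cfsg.Agent.Helper98.C2Defs

/-!
Piece I2c of CALL S5634 (helper98): the combinatorial pattern lemma.
-/

set_option autoImplicit false

namespace Cfsg.Agent.Helper91.C2I2c

open Matrix Cfsg.Agent.Helper98.C2
open scoped MatrixGroups

variable {K : Type*} [Field K]

/-- PIECE I2c (pure combinatorics) -/
theorem pat_comb {ι : Type*} [DecidableEq ι] (S : Finset ι) (hS : 4 ≤ S.card) (φ : ι → K)
    (hA : ∀ a ∈ S, ∀ b ∈ S, ∀ c ∈ S, ∀ d ∈ S, a ≠ b → a ≠ c → a ≠ d → b ≠ c → b ≠ d → c ≠ d →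
      φ a = φ b → φ c = φ d → φ a = φ c)
    (hB : ∀ a ∈ S, ∀ b ∈ S, ∀ c ∈ S, ∀ d ∈ S, a ≠ b → a ≠ c → a ≠ d → b ≠ c → b ≠ d → c ≠ d →
      φ a ≠ φ c → φ a ≠ φ d → φ c ≠ φ d → φ b ≠ φ c → φ b ≠ φ d → False) :
    ∃ (lam : K) (a : ι), ∀ x ∈ S, x ≠ a → φ x = lam := by
  classical
  by_cases hinj : ∀ a ∈ S, ∀ b ∈ S, φ a = φ b → a = b
  · exfalso
    obtain ⟨a, ha⟩ : ∃ a, a ∈ S := Finset.card_pos.mp (by omega)
    have h1 : (S.erase a).card = S.card - 1 := Finset.card_erase_of_mem ha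
    obtain ⟨b, hb⟩ : ∃ b, b ∈ S.erase a := Finset.card_pos.mp (by omega)
    have h2 : ((S.erase a).erase b).card = (S.erase a).card - 1 := Finset.card_erase_of_mem hb
    obtain ⟨c, hc⟩ : ∃ c, c ∈ (S.erase a).erase b := Finset.card_pos.mp (by omega)
    have h3 : (((S.erase a).erase b).erase c).card = ((S.erase a).erase b).card - 1 :=
      Finset.card_erase_of_mem hc
    obtain ⟨d, hd⟩ : ∃ d, d ∈ ((S.erase a).erase b).erase c := Finset.card_pos.mp (by omega)
    simp only [Finset.mem_erase] at hb hc hd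
    obtain ⟨hba, hbS⟩ := hb
    obtain ⟨hcb, hca, hcS⟩ := hc
    obtain ⟨hdc, hdb, hda, hdS⟩ := hd
    exact hB a ha b hbS c hcS d hdS (Ne.symm hba) (Ne.symm hca) (Ne.symm hda) (Ne.symm hcb) (Ne.symm hdb)
      (Ne.symm hdc) (fun h => hca (hinj a ha c hcS h).symm) (fun h => hda (hinj a ha d hdS h).symm)
      (fun h => hdc (hinj c hcS d hdS h).symm) (fun h => hcb (hinj b hbS c hcS h).symm)
      (fun h => hdb (hinj b hbS d hdS h).symm)
  · obtain ⟨a, ha, b, hb, hφ, hab⟩ : ∃ a ∈ S, ∃ b ∈ S, φ a = φ b ∧ a ≠ b := by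
      by_contra hno
      apply hinj
      intro a ha b hb h
      by_contra hne
      exact hno ⟨a, ha, b, hb, h, hne⟩
    have key : ∀ c ∈ S, ∀ d ∈ S, c ≠ d → φ c ≠ φ a → φ d ≠ φ a → False := by
      intro c hc d hd hcd hc' hd'
      have hac : a ≠ c := fun h => hc' (by rw [h])
      have had : a ≠ d := fun h => hd' (by rw [h])
      have hbc : b ≠ c := fun h => hc' (by rw [← h, hφ])
      have hbd : b ≠ d := fun h => hd' (by rw [← h, hφ])
      by_cases hcd' : φ c = φ d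
      · exact hc' (hA a ha b hb c hc d hd hab hac had hbc hbd hcd hφ hcd').symm
      · exact hB a ha b hb c hc d hd hab hac had hbc hbd hcd (fun h => hc' h.symm) (fun h => hd' h.symm)
          hcd' (fun h => hc' (by rw [← h, hφ])) (fun h => hd' (by rw [← h, hφ]))
    by_cases hex : ∃ e ∈ S, φ e ≠ φ a
    · obtain ⟨e, he, he'⟩ := hex
      refine ⟨φ a, e, fun x hx hxe => ?_⟩
      by_contra hx'
      exact key x hx e he hxe hx' he'
    · refine ⟨φ a, a, fun x hx _ => ?_⟩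
      by_contra hx'
      exact hex ⟨x, hx, hx'⟩

end Cfsg.Agent.Helper91.C2I2c
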