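import Cfsg.Agent.Helper91.Co2InvKSData

/-!
# Piece KS of CALL S2136 (helper92): the five statements on the extraspecial group `KS` of shape `2^{1+8}`
-/

set_option autoImplicit false
open scoped Pointwise

namespace Cfsg.Agent.Helper91.Co2InvKS

open Cfsg Cfsg.Agent.Helper92 Cfsg.Agent.Helper92.Co2Inv Cfsg.Agent.Helper92.Co3Out
open Cfsg.Agent.Helper92.Mat (setOf_mem_supports)
open Cfsg.Agent.Helper7 (inCode setOf wt tbl IsTbl pm codeM24 validCode allRange mem_setOf
  isTbl_permOf permOf_mem_M24)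
open Cfsg.Agent.Helper26 (supports_empty supports_symmDiff)

/-! ### Group calculus -/

theorem t0_eq : t0 = signAut (setOf ocM) (setOf_mem_supports ocM_ok) := rfl

theorem t0_mul_self : t0 * t0 = 1 := by
  rw [t0_eq]
  exact signAut_mul_self _ _

theorem t0_inv : t0⁻¹ = t0 := inv_eq_of_mul_eq_one_left t0_mul_self

theorem signAut_commute (c c' : Finset GolayPt)
    (hc : c ∈ supports (golayCode : Set (GolayPt → ZMod 2)))
    (hc' : c' ∈ supports (golayCode : Set (GolayPt → ZMod 2))) :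
    signAut c hc * signAut c' hc' = signAut c' hc' * signAut c hc := by
  rw [signAut_mul, signAut_mul]
  exact signAut_congr (symmDiff_comm c c') _ _

theorem t0_commute (c : Finset GolayPt) (hc : c ∈ supports (golayCode : Set (GolayPt → ZMod 2))) :
    t0 * signAut c hc = signAut c hc * t0 := by
  rw [t0_eq]
  exact signAut_commute _ _ _ _

/-- the product of two monomial elements -/
theorem ks_mul (c c' : Finset GolayPt) (hc : c ∈ supports (golayCode : Set (GolayPt → ZMod 2)))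
    (hc' : c' ∈ supports (golayCode : Set (GolayPt → ZMod 2)))
    (σ σ' : Equiv.Perm GolayPt) (hσ : σ ∈ M24) (hσ' : σ' ∈ M24) :
    (signAut c hc * permAut σ hσ) * (signAut c' hc' * permAut σ' hσ') =
      signAut c hc * signAut (σ • c') (smul_mem_supports hσ hc') * permAut (σ * σ') (mul_mem hσ hσ') := by
  rw [permAut_mul σ σ' hσ hσ']
  calc (signAut c hc * permAut σ hσ) * (signAut c' hc' * permAut σ' hσ')
      = signAut c hc * (permAut σ hσ * signAut c' hc') * permAut σ' hσ' := by group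
    _ = signAut c hc * signAut (σ • c') (smul_mem_supports hσ hc') * (permAut σ hσ * permAut σ' hσ') := by
        rw [permAut_mul_signAut]; group

/-- the sign change on the image is the sign change or its product with `t0` -/
theorem signAut_smul_eq_or {c : Finset GolayPt} (hc : c ∈ supports (golayCode : Set (GolayPt → ZMod 2)))
    (hd : Disjoint c OO) {σ : Equiv.Perm GolayPt} (hσ : σ ∈ M24) (hfix : ∀ i ∈ OO, σ i = i) :
    ∃ z : Co0, (z = 1 ∨ z = t0) ∧ signAut (σ • c) (smul_mem_supports hσ hc) = signAut c hc * z := by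
  rcases smul_eq_or hc hd hσ hfix with h | h
  · exact ⟨1, Or.inl rfl, by rw [mul_one]; exact signAut_congr h _ _⟩
  · refine ⟨t0, Or.inr rfl, ?_⟩
    rw [t0_eq, signAut_mul]
    exact signAut_congr h _ _

theorem comm_of_sq {G : Type*} [Group G] {a b : G} (ha : a * a = 1) (hb : b * b = 1)
    (hab : a * b * (a * b) = 1) : a * b = b * a := by
  have h1 : a * b = (a * b)⁻¹ := eq_inv_of_mul_eq_one_left hab
  have h2 : a⁻¹ = a := inv_eq_of_mul_eq_one_left ha
  have h3 : b⁻¹ = b := inv_eq_of_mul_eq_one_left hb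
  rw [h1, mul_inv_rev, h2, h3]

theorem comm_calc {G : Type*} [Group G] (a b z₁ z₂ Q : G) (hab : a * b = b * a)
    (h1a : z₁ * a = a * z₁) (h1b : z₁ * b = b * z₁) (h2a : z₂ * a = a * z₂) (h2b : z₂ * b = b * z₂) :
    (a * (b * z₁) * Q) * (b * (a * z₂) * Q)⁻¹ = z₁ * z₂⁻¹ := by
  have hwa : Commute (z₁ * z₂⁻¹) a :=
    Commute.mul_left (show Commute z₁ a from h1a) (Commute.inv_left (show Commute z₂ a from h2a))
  have hwb : Commute (z₁ * z₂⁻¹) b :=
    Commute.mul_left (show Commute z₁ b from h1b) (Commute.inv_left (show Commute z₂ b from h2b))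
  calc (a * (b * z₁) * Q) * (b * (a * z₂) * Q)⁻¹ = a * b * (z₁ * z₂⁻¹) * a⁻¹ * b⁻¹ := by group
    _ = (z₁ * z₂⁻¹) * (a * b) * a⁻¹ * b⁻¹ := by rw [(hwa.mul_right hwb).eq]
    _ = (z₁ * z₂⁻¹) * (b * a) * a⁻¹ * b⁻¹ := by rw [hab]
    _ = z₁ * z₂⁻¹ := by group

/-! ### The five statements -/

theorem KS_sq : ∀ x ∈ KS, x ^ 2 = 1 ∨ x ^ 2 = t0 := by
  rintro x ⟨c, hc, σ, hσ, hd, hfix, rfl⟩
  have hσσ : σ * σ = 1 := (Cfsg.Agent.Helper7.octad_fixing OO_mem).2 σ (mem_FS hσ hfix)
  obtain ⟨z, hz, hz'⟩ := signAut_smul_eq_or hc hd hσ hfix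
  have hx : (signAut c hc * permAut σ hσ) ^ 2 = z := by
    rw [pow_two, ks_mul, hz', permAut_congr hσσ _ (one_mem _), permAut_one, mul_one, ← mul_assoc,
      signAut_mul_self, one_mul]
  rw [hx]
  exact hz

theorem KS_comm : ∀ x ∈ KS, ∀ y ∈ KS, x * y * x⁻¹ * y⁻¹ = 1 ∨ x * y * x⁻¹ * y⁻¹ = t0 := by
  rintro x ⟨c, hc, σ, hσ, hd, hfix, rfl⟩ y ⟨c', hc', σ', hσ', hd', hfix', rfl⟩
  have hFS := (Cfsg.Agent.Helper7.octad_fixing OO_mem).2
  have hcomm : σ * σ' = σ' * σ :=
    comm_of_sq (hFS σ (mem_FS hσ hfix)) (hFS σ' (mem_FS hσ' hfix'))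
      (hFS (σ * σ') (mul_mem (mem_FS hσ hfix) (mem_FS hσ' hfix')))
  obtain ⟨z₁, hz₁, hz₁'⟩ := signAut_smul_eq_or hc' hd' hσ hfix
  obtain ⟨z₂, hz₂, hz₂'⟩ := signAut_smul_eq_or hc hd hσ' hfix'
  have hxy := ks_mul c c' hc hc' σ σ' hσ hσ'
  have hyx := ks_mul c' c hc' hc σ' σ hσ' hσ
  rw [hz₁'] at hxy
  rw [hz₂', permAut_congr hcomm.symm _ (mul_mem hσ hσ')] at hyx
  have hz1c : ∀ (d : Finset GolayPt) (hd : d ∈ supports (golayCode : Set (GolayPt → ZMod 2))),
      z₁ * signAut d hd = signAut d hd * z₁ := by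
    intro d hd
    rcases hz₁ with rfl | rfl
    · rw [one_mul, mul_one]
    · exact t0_commute d hd
  have hz2c : ∀ (d : Finset GolayPt) (hd : d ∈ supports (golayCode : Set (GolayPt → ZMod 2))),
      z₂ * signAut d hd = signAut d hd * z₂ := by
    intro d hd
    rcases hz₂ with rfl | rfl
    · rw [one_mul, mul_one]
    · exact t0_commute d hd
  have key : (signAut c hc * permAut σ hσ) * (signAut c' hc' * permAut σ' hσ') *
      (signAut c hc * permAut σ hσ)⁻¹ * (signAut c' hc' * permAut σ' hσ')⁻¹ = z₁ * z₂⁻¹ := by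
    calc (signAut c hc * permAut σ hσ) * (signAut c' hc' * permAut σ' hσ') *
          (signAut c hc * permAut σ hσ)⁻¹ * (signAut c' hc' * permAut σ' hσ')⁻¹
        = ((signAut c hc * permAut σ hσ) * (signAut c' hc' * permAut σ' hσ')) *
          ((signAut c' hc' * permAut σ' hσ') * (signAut c hc * permAut σ hσ))⁻¹ := by group
      _ = z₁ * z₂⁻¹ := by
        rw [hxy, hyx, ← mul_assoc (signAut c hc), ← mul_assoc (signAut c' hc')]
        rw [mul_assoc (signAut c hc), mul_assoc (signAut c' hc')]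
        exact comm_calc _ _ _ _ _ (signAut_commute _ _ _ _) (hz1c _ _) (hz1c _ _) (hz2c _ _) (hz2c _ _)
  rw [key]
  rcases hz₁ with rfl | rfl <;> rcases hz₂ with rfl | rfl
  · left; group
  · right; rw [one_mul, t0_inv]
  · right; rw [inv_one, mul_one]
  · left; rw [t0_inv, t0_mul_self]

theorem KS_center : ∀ c ∈ KS, (∀ y ∈ KS, c * y = y * c) → c = 1 ∨ c = t0 := by
  rintro x ⟨c, hc, σ, hσ, hd, hfix, rfl⟩ hcen
  -- first `σ = 1`
  have hσ1 : σ = 1 := by
    obtain ⟨t, ht, rfl⟩ := exists_code_of_fix hσ hfix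
    obtain ⟨hM, htbl, hfixt⟩ := permOf_spec ht
    apply Cfsg.Agent.Helper7.octad_fix_free OO_mem pt3_not_mem (mem_FS hσ hfix)
    rw [htbl.apply_pt (by norm_num)]
    have hsep := List.all_eq_true.mp fCodes_sep t ht
    rw [Bool.or_eq_true] at hsep
    rcases hsep with h | h
    · rw [Nat.eq_of_beq_eq_true h]
    · exfalso
      obtain ⟨m, hm, hb⟩ := List.any_eq_true.mp h
      rw [Bool.and_eq_true] at hb
      obtain ⟨hm_c, hm_d, -⟩ := sMasks_spec hm
      have hy : signAut (setOf m) hm_c * permAut 1 (one_mem _) ∈ KS :=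
        ⟨setOf m, hm_c, 1, one_mem _, hm_d, fun i _ => rfl, rfl⟩
      have hxy := hcen _ hy
      rw [ks_mul, ks_mul, signAut_mul, signAut_mul] at hxy
      obtain ⟨hcc, -⟩ := monomial_injective _ _ _ _ _ _ _ _ hxy
      rw [one_smul, symmDiff_comm (setOf m) c] at hcc
      have hfixm : Helper7.permOf t • setOf m = setOf m := symmDiff_right_injective c hcc
      have h3m : Helper7.pt 3 ∈ setOf m := by
        rw [mem_setOf, Helper7.idx_pt (by norm_num)]
        exact hb.1
      have h4 : Helper7.permOf t (Helper7.pt 3) ∈ setOf m := by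
        rw [← hfixm]
        exact Finset.smul_mem_smul_finset h3m
      have h5 := mem_setOf.mp h4
      rw [htbl (Helper7.pt 3), Helper7.idx_pt (by norm_num)] at h5
      rw [h5] at hb
      exact absurd hb.2 (by decide)
  subst hσ1
  -- then `c` is invariant
  have hinv : ∀ σ' ∈ M24, (∀ i ∈ OO, σ' i = i) → σ' • c = c := by
    intro σ' hσ' hfix'
    have hy : signAut ∅ supports_empty * permAut σ' hσ' ∈ KS :=
      ⟨∅, supports_empty, σ', hσ', Finset.disjoint_empty_left _, hfix', rfl⟩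
    have hxy := hcen _ hy
    rw [ks_mul, ks_mul, signAut_mul, signAut_mul] at hxy
    obtain ⟨hcc, -⟩ := monomial_injective _ _ _ _ _ _ _ _ hxy
    rw [one_smul, ← Finset.bot_eq_empty, bot_symmDiff, symmDiff_bot] at hcc
    exact hcc.symm
  rcases eq_empty_or_compl hd hinv with h | h
  · left
    rw [signAut_congr h hc supports_empty, signAut_empty, permAut_one, mul_one]
  · right
    rw [signAut_congr h hc (setOf_mem_supports ocM_ok), permAut_one, mul_one, t0_eq]

theorem card_S : Nat.card {c : Finset GolayPt //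
    c ∈ supports (golayCode : Set (GolayPt → ZMod 2)) ∧ Disjoint c OO} = 32 := by
  have hset : {c : Finset GolayPt | c ∈ supports (golayCode : Set (GolayPt → ZMod 2)) ∧ Disjoint c OO} =
      ((sMasks.toFinset.image setOf : Finset (Finset GolayPt)) : Set (Finset GolayPt)) := by
    ext c
    simp only [Set.mem_setOf_eq, Finset.coe_image, Set.mem_image, Finset.mem_coe, List.mem_toFinset]
    constructor
    · rintro ⟨hc, hd⟩
      obtain ⟨m, hm, rfl⟩ := exists_mask_of_disjoint hc hd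
      exact ⟨m, hm, rfl⟩
    · rintro ⟨m, hm, rfl⟩
      exact ⟨(sMasks_spec hm).1, (sMasks_spec hm).2.1⟩
  show Set.ncard {c : Finset GolayPt | c ∈ supports (golayCode : Set (GolayPt → ZMod 2)) ∧ Disjoint c OO} = 32
  rw [hset, Set.ncard_coe_finset, Finset.card_image_of_injOn, List.toFinset_card_of_nodup sMasks_nodup]
  · rfl
  · intro m hm m' hm' h
    rw [Finset.mem_coe, List.mem_toFinset] at hm hm'
    exact Cfsg.Agent.Helper7.setOf_inj (sMasks_spec hm).2.2 (sMasks_spec hm').2.2 h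

theorem KS_ncard : Set.ncard KS = 512 := by
  let f : {c : Finset GolayPt // c ∈ supports (golayCode : Set (GolayPt → ZMod 2)) ∧ Disjoint c OO} ×
      ↥(M24 ⊓ fixingSubgroup (Equiv.Perm GolayPt) (OO : Set GolayPt)) → Co0 :=
    fun ab => signAut ab.1.1 ab.1.2.1 * permAut ab.2.1 (Subgroup.mem_inf.mp ab.2.2).1
  have hf : Function.Injective f := by
    rintro ⟨⟨c, hc, hd⟩, ⟨σ, hσ⟩⟩ ⟨⟨c', hc', hd'⟩, ⟨σ', hσ'⟩⟩ h
    obtain ⟨h1, h2⟩ := monomial_injective c c' hc hc' σ σ' _ _ h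
    subst h1
    subst h2
    rfl
  have hrange : Set.range f = KS := by
    ext g
    constructor
    · rintro ⟨⟨⟨c, hc, hd⟩, ⟨σ, hσ⟩⟩, rfl⟩
      exact ⟨c, hc, σ, (Subgroup.mem_inf.mp hσ).1, hd, fix_of_mem_FS hσ, rfl⟩
    · rintro ⟨c, hc, σ, hσ, hd, hfix, rfl⟩
      exact ⟨⟨⟨c, hc, hd⟩, ⟨σ, mem_FS hσ hfix⟩⟩, rfl⟩
  rw [← hrange, Set.ncard_range_of_injective hf, Nat.card_prod, card_S,
    (Cfsg.Agent.Helper7.octad_fixing OO_mem).1]

theorem KS_nonab : ∃ x ∈ KS, ∃ y ∈ KS, x * y ≠ y * x := by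
  by_contra hno
  have hcomm : ∀ x ∈ KS, ∀ y ∈ KS, x * y = y * x := by
    intro x hx y hy
    by_contra h
    exact hno ⟨x, hx, y, hy, h⟩
  have hsub : KS ⊆ ({1, t0} : Set Co0) := by
    intro x hx
    rcases KS_center x hx (fun y hy => hcomm x hx y hy) with h | h
    · exact Or.inl h
    · exact Or.inr h
  have h1 : Set.ncard KS ≤ Set.ncard ({1, t0} : Set Co0) := Set.ncard_le_ncard hsub (Set.toFinite _)
  have h2 : Set.ncard ({1, t0} : Set Co0) ≤ 2 := by
    have h3 := Set.ncard_insert_le (1 : Co0) ({t0} : Set Co0)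
    rw [Set.ncard_singleton] at h3
    exact h3
  rw [KS_ncard] at h1
  omega

end Cfsg.Agent.Helper91.Co2InvKS
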