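import Cfsg.Agent.Helper92.Co2InvDefs

/-!
# Piece KS of CALL S2136 (helper92): the extraspecial group `2^{1+8}` inside the monomial group of the
Leech lattice

`KS` is the set of the monomial automorphisms `signAut c * permAut σ` with `c` a code word disjoint from the
octad `OO` and `σ ∈ M24` fixing `OO` pointwise.  We show that it has 512 elements, that its commutators and
squares lie in `{1, t0}`, that its centre is `{1, t0}` and that it is not commutative.
-/

set_option autoImplicit false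
open scoped Pointwise

namespace Cfsg.Agent.Helper91.Co2InvKS

open Cfsg Cfsg.Agent.Helper92 Cfsg.Agent.Helper92.Co2Inv Cfsg.Agent.Helper92.Co3Out
open Cfsg.Agent.Helper92.Mat (setOf_mem_supports)
open Cfsg.Agent.Helper7 (inCode setOf wt tbl IsTbl pm codeM24 validCode allRange mem_setOf
  isTbl_permOf permOf_mem_M24)
open Cfsg.Agent.Helper26 (supports_empty supports_symmDiff)

/-! ### The explicit data -/

/-- table codes of the 16 elements of `M24` fixing the octad pointwise -/
def fCodes : List ℕ := [0xbaeae9c1522d18db4464399e848820, 0xba6a49c64a6a1e51c2ce3999458820,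
  0xb92a99b0ad50e1243e8b39a3670820, 0xbbeb09b914b4923291b13996a60820, 0xbaaad98d692328e8da053990f90820,
  0xb8ea89aa11610af4c974399aeb0820, 0xbbaab9bda595a2aa310939a0320820, 0xba2a39b5ec8a650215d63994ba0820,
  0xbb2b1992881a9766b8b03993278820, 0xbd2b69958f82d517348339a4940820, 0xbcaa59d92b73d0480e2d39a8c50820,
  0xbc2af9ac76a14889254c399cd88820, 0xbc6ac9a6c3435d452e4f3988580820, 0xbdab49ca307b9ac5a928398a418820,
  0xb96b29d08e5c0697a18a39ad168820, 0xbb6aa9a1c44c6cb651f23987028820]

/-- masks of the 32 code words disjoint from the octad -/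
def sMasks : List ℕ := [0x0, 0x1ed08, 0x23718, 0x3da10, 0x46e30, 0x58338, 0x65928, 0x7b420, 0x10f130,
  0x111c38, 0x12c628, 0x132b20, 0x149f00, 0x157208, 0x16a818, 0x174510, 0x40ba28, 0x415720, 0x428d30,
  0x436038, 0x44d418, 0x453910, 0x46e300, 0x470e08, 0x504b18, 0x51a610, 0x527c00, 0x539108, 0x542528,
  0x55c820, 0x561230, 0x57ff38]

/-- Bool test: the table `t` fixes every index of the octad -/
def fixesO (t : ℕ) : Bool := (List.range 24).all (fun j => !(Nat.testBit oM j) || Nat.beq (tbl t j) j)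

theorem fCodes_ok : fCodes.all (fun t => codeM24 t && fixesO t) = true := by decide +kernel

theorem fCodes_trans :
    (List.range 24).all (fun j => Nat.testBit oM j || fCodes.any (fun t => Nat.beq (tbl t 3) j)) = true := by
  decide +kernel

theorem sMasks_complete :
    allRange (fun c => (fun m => !(Nat.beq (Nat.land m oM) 0) || sMasks.any (fun m' => Nat.beq m' m))
      (Cfsg.Agent.Helper7.enc c)) 12 0 = true := by
  decide +kernel

theorem sMasks_ok : sMasks.all (fun m => inCode m && Nat.beq (Nat.land m oM) 0 && Nat.ble (m + 1) (2 ^ 24)) = true := by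
  decide +kernel

theorem sMasks_nodup : sMasks.Nodup := by decide +kernel

theorem key_check :
    fCodes.all (fun t => sMasks.all (fun m => Nat.beq (pm t m) m || Nat.beq (pm t m) (Nat.xor m ocM))) = true := by
  decide +kernel

theorem fCodes_sep :
    fCodes.all (fun t => Nat.beq (tbl t 3) 3 ||
      sMasks.any (fun m => Nat.testBit m 3 && !(Nat.testBit m (tbl t 3)))) = true := by
  decide +kernel

theorem ocM_testBit : (List.range 24).all (fun j => Nat.testBit ocM j == !(Nat.testBit oM j)) = true := by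
  decide +kernel

theorem oM_testBit_three : Nat.testBit oM 3 = false := by decide +kernel

/-! ### Consequences of the checks -/

theorem pt3_not_mem : Helper7.pt 3 ∉ OO := by
  intro h
  have h' := mem_setOf.mp h
  rw [Helper7.idx_pt (by norm_num), oM_testBit_three] at h'
  exact Bool.false_ne_true h'

theorem fCodes_spec {t : ℕ} (ht : t ∈ fCodes) :
    codeM24 t = true ∧ ∀ j, j < 24 → Nat.testBit oM j = true → tbl t j = j := by
  have h := List.all_eq_true.mp fCodes_ok t ht
  rw [Bool.and_eq_true] at h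
  refine ⟨h.1, fun j hj hb => ?_⟩
  have h2 := List.all_eq_true.mp h.2 j (List.mem_range.mpr hj)
  rw [hb] at h2
  exact Nat.eq_of_beq_eq_true (by simpa using h2)

theorem permOf_spec {t : ℕ} (ht : t ∈ fCodes) :
    Helper7.permOf t ∈ M24 ∧ IsTbl (Helper7.permOf t) t ∧ ∀ i ∈ OO, Helper7.permOf t i = i := by
  obtain ⟨h1, h2⟩ := fCodes_spec ht
  have hv : validCode t = true := by
    rw [codeM24, Bool.and_eq_true] at h1
    exact h1.1
  have htbl := isTbl_permOf hv
  refine ⟨permOf_mem_M24 h1, htbl, fun i hi => ?_⟩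
  apply Cfsg.Agent.Helper7.idx_injective
  rw [htbl i]
  exact h2 _ (Helper7.idx_lt i) (mem_setOf.mp hi)

theorem mem_FS {σ : Equiv.Perm GolayPt} (hσ : σ ∈ M24) (hfix : ∀ i ∈ OO, σ i = i) :
    σ ∈ M24 ⊓ fixingSubgroup (Equiv.Perm GolayPt) (OO : Set GolayPt) := by
  refine Subgroup.mem_inf.mpr ⟨hσ, ?_⟩
  rw [mem_fixingSubgroup_iff]
  intro y hy
  exact hfix y (Finset.mem_coe.mp hy)

theorem fix_of_mem_FS {σ : Equiv.Perm GolayPt}
    (hσ : σ ∈ M24 ⊓ fixingSubgroup (Equiv.Perm GolayPt) (OO : Set GolayPt)) : ∀ i ∈ OO, σ i = i :=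
  fun i hi => (mem_fixingSubgroup_iff _).mp (Subgroup.mem_inf.mp hσ).2 i (Finset.mem_coe.mpr hi)

/-- every element of `M24` fixing the octad pointwise is in the table -/
theorem exists_code_of_fix {σ : Equiv.Perm GolayPt} (hσ : σ ∈ M24) (hfix : ∀ i ∈ OO, σ i = i) :
    ∃ t ∈ fCodes, σ = Helper7.permOf t := by
  have h3 : Helper7.pt 3 ∉ OO := pt3_not_mem
  have hq : σ (Helper7.pt 3) ∉ OO := by
    intro hq
    have h := hfix _ hq
    have h' : σ (Helper7.pt 3) = Helper7.pt 3 := σ.injective h
    rw [h'] at hq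
    exact h3 hq
  have hex : ∃ t ∈ fCodes, tbl t 3 = Helper7.idx (σ (Helper7.pt 3)) := by
    have h := List.all_eq_true.mp fCodes_trans (Helper7.idx (σ (Helper7.pt 3))) (List.mem_range.mpr (Helper7.idx_lt _))
    rw [Bool.or_eq_true] at h
    rcases h with h | h
    · exact absurd (mem_setOf.mpr h) hq
    · obtain ⟨t, ht, hb⟩ := List.any_eq_true.mp h
      exact ⟨t, ht, Nat.eq_of_beq_eq_true hb⟩
  obtain ⟨t, ht, htq⟩ := hex
  obtain ⟨hM, htbl, hfixt⟩ := permOf_spec ht
  refine ⟨t, ht, ?_⟩
  have hg : (Helper7.permOf t)⁻¹ * σ ∈ M24 ⊓ fixingSubgroup (Equiv.Perm GolayPt) (OO : Set GolayPt) := by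
    apply mem_FS (mul_mem (inv_mem hM) hσ)
    intro y hy
    rw [Equiv.Perm.mul_apply, hfix y hy, Equiv.Perm.inv_eq_iff_eq]
    exact (hfixt y hy).symm
  have hg3 : ((Helper7.permOf t)⁻¹ * σ) (Helper7.pt 3) = Helper7.pt 3 := by
    rw [Equiv.Perm.mul_apply, Equiv.Perm.inv_eq_iff_eq, htbl.apply_pt (by norm_num), htq, Helper7.pt_idx]
  have h1 := Cfsg.Agent.Helper7.octad_fix_free OO_mem h3 hg hg3
  exact (inv_mul_eq_one.mp h1).symm

theorem sMasks_spec {m : ℕ} (hm : m ∈ sMasks) :
    setOf m ∈ supports (golayCode : Set (GolayPt → ZMod 2)) ∧ Disjoint (setOf m) OO ∧ m < 2 ^ 24 := by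
  have h := List.all_eq_true.mp sMasks_ok m hm
  rw [Bool.and_eq_true, Bool.and_eq_true] at h
  obtain ⟨⟨h1, h2⟩, h3⟩ := h
  refine ⟨setOf_mem_supports h1, ?_, ?_⟩
  · rw [Finset.disjoint_iff_inter_eq_empty]
    have h2' : m &&& oM = 0 := Nat.eq_of_beq_eq_true h2
    show setOf m ∩ setOf oM = ∅
    rw [← Cfsg.Agent.Helper7.setOf_and, h2', Cfsg.Agent.Helper7.setOf_zero]
  · exact Nat.le_of_ble_eq_true h3

/-- every code word disjoint from the octad is in the list -/
theorem exists_mask_of_disjoint {c : Finset GolayPt}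
    (hc : c ∈ supports (golayCode : Set (GolayPt → ZMod 2))) (hd : Disjoint c OO) :
    ∃ m ∈ sMasks, c = setOf m := by
  obtain ⟨w, hw, rfl⟩ := hc
  obtain ⟨m, rfl, hp⟩ := Cfsg.Agent.Helper7.forall_code (fun m => !(Nat.beq (Nat.land m oM) 0) || sMasks.any (fun m' => Nat.beq m' m)) sMasks_complete hw
  rw [Cfsg.Agent.Helper7.support_wordOf] at hd ⊢
  have hand : Nat.land m oM = 0 := by
    have h1 : setOf (m &&& oM) = setOf 0 := by
      rw [Cfsg.Agent.Helper7.setOf_and, Cfsg.Agent.Helper7.setOf_zero]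
      exact Finset.disjoint_iff_inter_eq_empty.mp hd
    exact Cfsg.Agent.Helper7.setOf_inj (lt_of_le_of_lt Nat.and_le_right (by norm_num [oM])) (by norm_num) h1
  rw [Bool.or_eq_true] at hp
  rcases hp with hp | hp
  · rw [hand] at hp
    exact absurd hp (by decide)
  · obtain ⟨m', hm', hb⟩ := List.any_eq_true.mp hp
    have : m' = m := Nat.eq_of_beq_eq_true hb
    subst this
    exact ⟨m', hm', rfl⟩

theorem setOf_xor (m n : ℕ) : setOf (m ^^^ n) = symmDiff (setOf m) (setOf n) := by
  ext p
  rw [Finset.mem_symmDiff, mem_setOf, mem_setOf, mem_setOf, Nat.testBit_xor]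
  cases m.testBit (Helper7.idx p) <;> cases n.testBit (Helper7.idx p) <;> simp

theorem mem_setOf_ocM (q : GolayPt) : q ∈ setOf ocM ↔ q ∉ OO := by
  have h := List.all_eq_true.mp ocM_testBit (Helper7.idx q) (List.mem_range.mpr (Helper7.idx_lt q))
  have h' : Nat.testBit ocM (Helper7.idx q) = !(Nat.testBit oM (Helper7.idx q)) := by simpa using h
  show q ∈ setOf ocM ↔ q ∉ setOf oM
  rw [mem_setOf, mem_setOf, h']
  cases Nat.testBit oM (Helper7.idx q) <;> simp

/-- KEY FACT: an element fixing the octad pointwise maps a code word disjoint from the octad to itself or to its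
complement in the complement of the octad -/
theorem smul_eq_or {c : Finset GolayPt} (hc : c ∈ supports (golayCode : Set (GolayPt → ZMod 2)))
    (hd : Disjoint c OO) {σ : Equiv.Perm GolayPt} (hσ : σ ∈ M24) (hfix : ∀ i ∈ OO, σ i = i) :
    σ • c = c ∨ σ • c = symmDiff c (setOf ocM) := by
  obtain ⟨m, hm, rfl⟩ := exists_mask_of_disjoint hc hd
  obtain ⟨t, ht, rfl⟩ := exists_code_of_fix hσ hfix
  obtain ⟨-, htbl, -⟩ := permOf_spec ht
  rw [← Cfsg.Agent.Helper7.setOf_pm htbl m]
  have h := List.all_eq_true.mp (List.all_eq_true.mp key_check t ht) m hm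
  rw [Bool.or_eq_true] at h
  rcases h with h | h
  · left
    rw [Nat.eq_of_beq_eq_true h]
  · right
    rw [Nat.eq_of_beq_eq_true h]
    exact setOf_xor m ocM

/-- a code word disjoint from the octad and invariant under its pointwise stabiliser is empty or the complement -/
theorem eq_empty_or_compl {c : Finset GolayPt} (hd : Disjoint c OO)
    (hinv : ∀ σ ∈ M24, (∀ i ∈ OO, σ i = i) → σ • c = c) : c = ∅ ∨ c = setOf ocM := by
  by_cases hne : c = ∅
  · exact Or.inl hne
  · right
    obtain ⟨p, hp⟩ := Finset.nonempty_iff_ne_empty.mpr hne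
    have hpO : p ∉ OO := fun h => Finset.disjoint_left.mp hd hp h
    ext q
    rw [mem_setOf_ocM]
    constructor
    · intro hq h
      exact Finset.disjoint_left.mp hd hq h
    · intro hq
      obtain ⟨g, hg, hgp⟩ := Cfsg.Agent.Helper7.octad_fix_trans OO_mem hpO hq
      have h := hinv g (Subgroup.mem_inf.mp hg).1 (fix_of_mem_FS hg)
      rw [← h, ← hgp]
      exact Finset.smul_mem_smul_finset hp

end Cfsg.Agent.Helper91.Co2InvKS
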