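/-
Helper91: first cohomology of `Ω(Q)` on the natural module over the field with two elements,
generic part.  A crossed homomorphism on `Ω(Q)` is studied through its values on the products
`r_a r_b` of two reflections in non-singular vectors.
-/
import Cfsg.Agent.Helper44.OmegaTwo

set_option autoImplicit false

namespace Cfsg.Agent.Helper91.H1

open Cfsg Matrix Cfsg.Agent.Helper45 Cfsg.Agent.Helper44

set_option linter.unusedSectionVars false

variable {ι : Type} [Fintype ι] [DecidableEq ι] (Q : QuadraticForm (ZMod 2) (ι → ZMod 2))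

theorem z2_two : (2 : ZMod 2) = 0 := rfl

theorem z2_add_self (x : ι → ZMod 2) : x + x = 0 := by
  funext i
  exact CharTwo.add_self_eq_zero (x i)

theorem z2_eq_of_add_eq_zero {x y : ι → ZMod 2} (h : x + y = 0) : x = y := by
  calc x = x + (y + y) := by rw [z2_add_self, add_zero]
    _ = (x + y) + y := by rw [add_assoc]
    _ = y := by rw [h, zero_add]

theorem z2_sub_eq_add (x y : ι → ZMod 2) : x - y = x + y := by
  funext i
  exact CharTwo.sub_eq_add (x i) (y i)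

theorem ns_ne {a : ι → ZMod 2} (ha : Q a = 1) : Q a ≠ 0 := by
  rw [ha]; exact one_ne_zero

theorem polar_self_z2 (a : ι → ZMod 2) : QuadraticMap.polar ⇑Q a a = 0 := by
  rw [QuadraticMap.polar_self, two_smul]
  exact CharTwo.add_self_eq_zero _

/-- the reflection in a non-singular vector -/
noncomputable def rO (a : ι → ZMod 2) (ha : Q a = 1) : ↥(isometryGroup (ZMod 2) ⇑Q) :=
  reflO Q a (ns_ne Q ha)

theorem mv_rO (a : ι → ZMod 2) (ha : Q a = 1) (x : ι → ZMod 2) :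
    mv ⇑Q (rO Q a ha) x = x + QuadraticMap.polar ⇑Q x a • a := by
  unfold rO
  rw [mv_reflO, ha, inv_one, one_mul, z2_sub_eq_add, QuadraticMap.polar_comm]

theorem rO_mul_self (a : ι → ZMod 2) (ha : Q a = 1) : rO Q a ha * rO Q a ha = 1 :=
  reflO_mul_self Q a _

theorem rO_inv (a : ι → ZMod 2) (ha : Q a = 1) : (rO Q a ha)⁻¹ = rO Q a ha :=
  reflO_inv Q a _

theorem polar_mv_rO (a : ι → ZMod 2) (ha : Q a = 1) (z t : ι → ZMod 2) :
    QuadraticMap.polar ⇑Q (mv ⇑Q (rO Q a ha) z) t =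
      QuadraticMap.polar ⇑Q z t + QuadraticMap.polar ⇑Q z a * QuadraticMap.polar ⇑Q a t := by
  rw [mv_rO, QuadraticMap.polar_add_left, QuadraticMap.polar_smul_left, smul_eq_mul]

theorem polar_mv_pair (a b : ι → ZMod 2) (ha : Q a = 1) (hb : Q b = 1) (z t : ι → ZMod 2) :
    QuadraticMap.polar ⇑Q (mv ⇑Q (rO Q a ha * rO Q b hb) z) t =
      QuadraticMap.polar ⇑Q z t + QuadraticMap.polar ⇑Q z b * QuadraticMap.polar ⇑Q b t
        + (QuadraticMap.polar ⇑Q z a + QuadraticMap.polar ⇑Q z b * QuadraticMap.polar ⇑Q b a)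
          * QuadraticMap.polar ⇑Q a t := by
  rw [mv_mul, polar_mv_rO, polar_mv_rO, polar_mv_rO]

/-- the product of two reflections, as an element of `Ω` -/
noncomputable def pO (hQ : (QuadraticMap.polarBilin Q).Nondegenerate) (a b : ι → ZMod 2)
    (ha : Q a = 1) (hb : Q b = 1) : ↥(Omega (ZMod 2) ⇑Q) :=
  ⟨rO Q a ha * rO Q b hb, refl_pair_mem_omega Q hQ a b (ns_ne Q ha) (ns_ne Q hb)⟩

theorem pO_coe (hQ : (QuadraticMap.polarBilin Q).Nondegenerate) (a b : ι → ZMod 2)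
    (ha : Q a = 1) (hb : Q b = 1) :
    ((pO Q hQ a b ha hb : ↥(Omega (ZMod 2) ⇑Q)) : ↥(isometryGroup (ZMod 2) ⇑Q)) = rO Q a ha * rO Q b hb :=
  rfl

/-- crossed homomorphisms of `Ω` into the natural module -/
def IsCoc (f : ↥(Omega (ZMod 2) ⇑Q) → (ι → ZMod 2)) : Prop :=
  ∀ g h : ↥(Omega (ZMod 2) ⇑Q), f (g * h) = f g + mv ⇑Q (g : ↥(isometryGroup (ZMod 2) ⇑Q)) (f h)

variable {Q}

theorem coc_one {f : ↥(Omega (ZMod 2) ⇑Q) → (ι → ZMod 2)} (hf : IsCoc Q f) : f 1 = 0 := by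
  have h := hf 1 1
  rw [mul_one, Subgroup.coe_one, mv_one] at h
  calc f 1 = f 1 + f 1 := h
    _ = 0 := z2_add_self _

theorem coc_inv {f : ↥(Omega (ZMod 2) ⇑Q) → (ι → ZMod 2)} (hf : IsCoc Q f)
    (g : ↥(Omega (ZMod 2) ⇑Q)) :
    f g⁻¹ = mv ⇑Q ((g⁻¹ : ↥(Omega (ZMod 2) ⇑Q)) : ↥(isometryGroup (ZMod 2) ⇑Q)) (f g) := by
  have h := hf g⁻¹ g
  rw [inv_mul_cancel, coc_one hf] at h
  exact z2_eq_of_add_eq_zero h.symm

theorem mv_zero' (g : ↥(isometryGroup (ZMod 2) ⇑Q)) : mv ⇑Q g 0 = 0 := Matrix.mulVec_zero _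

/-- linking relation: `r_b r_c = (r_a r_b)⁻¹ (r_a r_c)` -/
theorem pO_link (hQ : (QuadraticMap.polarBilin Q).Nondegenerate) (a b c : ι → ZMod 2)
    (ha : Q a = 1) (hb : Q b = 1) (hc : Q c = 1) :
    pO Q hQ b c hb hc = (pO Q hQ a b ha hb)⁻¹ * pO Q hQ a c ha hc := by
  apply Subtype.ext
  rw [Subgroup.coe_mul, Subgroup.coe_inv, pO_coe, pO_coe, pO_coe, _root_.mul_inv_rev, rO_inv, rO_inv,
    mul_assoc, ← mul_assoc (rO Q a ha), rO_mul_self, one_mul]

theorem coc_link {f : ↥(Omega (ZMod 2) ⇑Q) → (ι → ZMod 2)} (hf : IsCoc Q f)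
    (hQ : (QuadraticMap.polarBilin Q).Nondegenerate) (a b c : ι → ZMod 2)
    (ha : Q a = 1) (hb : Q b = 1) (hc : Q c = 1) :
    f (pO Q hQ b c hb hc) =
      mv ⇑Q (rO Q b hb * rO Q a ha) (f (pO Q hQ a b ha hb) + f (pO Q hQ a c ha hc)) := by
  have hinv : (((pO Q hQ a b ha hb)⁻¹ : ↥(Omega (ZMod 2) ⇑Q)) : ↥(isometryGroup (ZMod 2) ⇑Q))
      = rO Q b hb * rO Q a ha := by
    rw [Subgroup.coe_inv, pO_coe, _root_.mul_inv_rev, rO_inv, rO_inv]
  rw [pO_link hQ a b c ha hb hc, hf, coc_inv hf, hinv, ← mv_add]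

theorem z2_eq_one {c : ZMod 2} (h : c ≠ 0) : c = 1 := by
  revert c; decide

/-! ### Relations between reflections -/

theorem rO_comm (a b : ι → ZMod 2) (ha : Q a = 1) (hb : Q b = 1)
    (hab : QuadraticMap.polar ⇑Q a b = 0) : rO Q a ha * rO Q b hb = rO Q b hb * rO Q a ha := by
  have hba : QuadraticMap.polar ⇑Q b a = 0 := by rw [QuadraticMap.polar_comm]; exact hab
  apply ext_mv
  intro x
  simp only [mv_mul, mv_rO, QuadraticMap.polar_add_left, QuadraticMap.polar_smul_left, hab, hba,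
    smul_eq_mul, mul_zero, add_zero]
  abel

theorem pO_sq (hQ : (QuadraticMap.polarBilin Q).Nondegenerate) (a b : ι → ZMod 2)
    (ha : Q a = 1) (hb : Q b = 1) (hab : QuadraticMap.polar ⇑Q a b = 0) :
    pO Q hQ a b ha hb * pO Q hQ a b ha hb = 1 := by
  apply Subtype.ext
  rw [Subgroup.coe_mul, pO_coe, Subgroup.coe_one]
  calc rO Q a ha * rO Q b hb * (rO Q a ha * rO Q b hb)
      = rO Q a ha * rO Q b hb * (rO Q b hb * rO Q a ha) := by rw [rO_comm a b ha hb hab]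
    _ = rO Q a ha * (rO Q b hb * rO Q b hb) * rO Q a ha := by simp only [mul_assoc]
    _ = 1 := by rw [rO_mul_self, mul_one, rO_mul_self]

theorem rO_braid (a b : ι → ZMod 2) (ha : Q a = 1) (hb : Q b = 1)
    (hab : QuadraticMap.polar ⇑Q a b = 1) :
    rO Q a ha * rO Q b hb * rO Q a ha = rO Q b hb * rO Q a ha * rO Q b hb := by
  have hba : QuadraticMap.polar ⇑Q b a = 1 := by rw [QuadraticMap.polar_comm]; exact hab
  have h1 : mv ⇑Q (rO Q a ha) b = b + a := by rw [mv_rO, hba, one_smul]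
  have h2 : mv ⇑Q (rO Q b hb) a = a + b := by rw [mv_rO, hab, one_smul]
  have hk1 : Q (mv ⇑Q (rO Q a ha) b) ≠ 0 := by rw [mv_quad ⇑Q]; exact ns_ne Q hb
  have hk2 : Q (mv ⇑Q (rO Q b hb) a) ≠ 0 := by rw [mv_quad ⇑Q]; exact ns_ne Q ha
  have e1 := conj_reflO Q (rO Q a ha) b (ns_ne Q hb) hk1
  have e2 := conj_reflO Q (rO Q b hb) a (ns_ne Q ha) hk2
  rw [rO_inv] at e1 e2
  calc rO Q a ha * rO Q b hb * rO Q a ha = reflO Q (mv ⇑Q (rO Q a ha) b) hk1 := e1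
    _ = reflO Q (mv ⇑Q (rO Q b hb) a) hk2 := reflO_congr Q _ _ hk1 hk2 (by rw [h1, h2, add_comm])
    _ = rO Q b hb * rO Q a ha * rO Q b hb := e2.symm

theorem pO_cube (hQ : (QuadraticMap.polarBilin Q).Nondegenerate) (a b : ι → ZMod 2)
    (ha : Q a = 1) (hb : Q b = 1) (hab : QuadraticMap.polar ⇑Q a b = 1) :
    pO Q hQ a b ha hb * (pO Q hQ a b ha hb * pO Q hQ a b ha hb) = 1 := by
  apply Subtype.ext
  rw [Subgroup.coe_mul, Subgroup.coe_mul, pO_coe, Subgroup.coe_one]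
  calc rO Q a ha * rO Q b hb * (rO Q a ha * rO Q b hb * (rO Q a ha * rO Q b hb))
      = (rO Q a ha * rO Q b hb * rO Q a ha) * (rO Q b hb * rO Q a ha * rO Q b hb) := by
        simp only [mul_assoc]
    _ = (rO Q a ha * rO Q b hb * rO Q a ha) * (rO Q a ha * rO Q b hb * rO Q a ha) := by
        rw [← rO_braid a b ha hb hab]
    _ = rO Q a ha * (rO Q b hb * (rO Q a ha * rO Q a ha) * rO Q b hb) * rO Q a ha := by
        simp only [mul_assoc]
    _ = 1 := by rw [rO_mul_self, mul_one, rO_mul_self, mul_one, rO_mul_self]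

/-! ### Scalar constraints on a crossed homomorphism -/

theorem coc_rel0 {f : ↥(Omega (ZMod 2) ⇑Q) → (ι → ZMod 2)} (hf : IsCoc Q f)
    (hQ : (QuadraticMap.polarBilin Q).Nondegenerate) (a b : ι → ZMod 2)
    (ha : Q a = 1) (hb : Q b = 1) (hab : QuadraticMap.polar ⇑Q a b = 0) (t : ι → ZMod 2) :
    QuadraticMap.polar ⇑Q (f (pO Q hQ a b ha hb)) b * QuadraticMap.polar ⇑Q b t
      + QuadraticMap.polar ⇑Q (f (pO Q hQ a b ha hb)) a * QuadraticMap.polar ⇑Q a t = 0 := by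
  have hba : QuadraticMap.polar ⇑Q b a = 0 := by rw [QuadraticMap.polar_comm]; exact hab
  have h := hf (pO Q hQ a b ha hb) (pO Q hQ a b ha hb)
  rw [pO_sq hQ a b ha hb hab, coc_one hf, pO_coe] at h
  have h2 := congrArg (fun z => QuadraticMap.polar ⇑Q z t) h
  simp only [QuadraticMap.polar_add_left, polar_mv_pair, hba, QuadraticMap.polar_zero_left,
    mul_zero, add_zero] at h2
  generalize QuadraticMap.polar ⇑Q (f (pO Q hQ a b ha hb)) t = yt at h2 ⊢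
  generalize QuadraticMap.polar ⇑Q (f (pO Q hQ a b ha hb)) b = yb at h2 ⊢
  generalize QuadraticMap.polar ⇑Q (f (pO Q hQ a b ha hb)) a = ya at h2 ⊢
  generalize QuadraticMap.polar ⇑Q b t = bt at h2 ⊢
  generalize QuadraticMap.polar ⇑Q a t = at' at h2 ⊢
  revert yt yb ya bt at'
  decide

theorem coc_rel1 {f : ↥(Omega (ZMod 2) ⇑Q) → (ι → ZMod 2)} (hf : IsCoc Q f)
    (hQ : (QuadraticMap.polarBilin Q).Nondegenerate) (a b : ι → ZMod 2)
    (ha : Q a = 1) (hb : Q b = 1) (hab : QuadraticMap.polar ⇑Q a b = 1) (t : ι → ZMod 2) :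
    QuadraticMap.polar ⇑Q (f (pO Q hQ a b ha hb)) t =
      QuadraticMap.polar ⇑Q (f (pO Q hQ a b ha hb)) a * QuadraticMap.polar ⇑Q b t
      + QuadraticMap.polar ⇑Q (f (pO Q hQ a b ha hb)) b * QuadraticMap.polar ⇑Q a t := by
  have hba : QuadraticMap.polar ⇑Q b a = 1 := by rw [QuadraticMap.polar_comm]; exact hab
  have h := hf (pO Q hQ a b ha hb) (pO Q hQ a b ha hb * pO Q hQ a b ha hb)
  rw [pO_cube hQ a b ha hb hab, coc_one hf, hf, pO_coe] at h
  have h2 := congrArg (fun z => QuadraticMap.polar ⇑Q z t) h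
  simp only [QuadraticMap.polar_add_left, polar_mv_pair, hba, hab, polar_self_z2,
    QuadraticMap.polar_zero_left, mul_zero, add_zero, mul_one] at h2
  generalize QuadraticMap.polar ⇑Q (f (pO Q hQ a b ha hb)) t = yt at h2 ⊢
  generalize QuadraticMap.polar ⇑Q (f (pO Q hQ a b ha hb)) b = yb at h2 ⊢
  generalize QuadraticMap.polar ⇑Q (f (pO Q hQ a b ha hb)) a = ya at h2 ⊢
  generalize QuadraticMap.polar ⇑Q b t = bt at h2 ⊢
  generalize QuadraticMap.polar ⇑Q a t = at' at h2 ⊢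
  revert yt yb ya bt at'
  decide

/-- the pairing of `f (r_b r_c)` with `s`, in terms of `x_b = f (r_a r_b)` and `x_c = f (r_a r_c)` -/
def Yv (Q : QuadraticForm (ZMod 2) (ι → ZMod 2)) (xb xc a b s : ι → ZMod 2) : ZMod 2 :=
  QuadraticMap.polar ⇑Q (xb + xc) s + QuadraticMap.polar ⇑Q (xb + xc) a * QuadraticMap.polar ⇑Q a s
    + (QuadraticMap.polar ⇑Q (xb + xc) b
        + QuadraticMap.polar ⇑Q (xb + xc) a * QuadraticMap.polar ⇑Q a b) * QuadraticMap.polar ⇑Q b s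

theorem polar_coc_link {f : ↥(Omega (ZMod 2) ⇑Q) → (ι → ZMod 2)} (hf : IsCoc Q f)
    (hQ : (QuadraticMap.polarBilin Q).Nondegenerate) (a b c : ι → ZMod 2)
    (ha : Q a = 1) (hb : Q b = 1) (hc : Q c = 1) (s : ι → ZMod 2) :
    QuadraticMap.polar ⇑Q (f (pO Q hQ b c hb hc)) s =
      Yv Q (f (pO Q hQ a b ha hb)) (f (pO Q hQ a c ha hc)) a b s := by
  rw [coc_link hf hQ a b c ha hb hc, polar_mv_pair]
  rfl

theorem coc_relP0 {f : ↥(Omega (ZMod 2) ⇑Q) → (ι → ZMod 2)} (hf : IsCoc Q f)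
    (hQ : (QuadraticMap.polarBilin Q).Nondegenerate) (a b c : ι → ZMod 2)
    (ha : Q a = 1) (hb : Q b = 1) (hc : Q c = 1) (hbc : QuadraticMap.polar ⇑Q b c = 0)
    (t : ι → ZMod 2) :
    Yv Q (f (pO Q hQ a b ha hb)) (f (pO Q hQ a c ha hc)) a b c * QuadraticMap.polar ⇑Q c t
      + Yv Q (f (pO Q hQ a b ha hb)) (f (pO Q hQ a c ha hc)) a b b * QuadraticMap.polar ⇑Q b t = 0 := by
  have h := coc_rel0 hf hQ b c hb hc hbc t
  rw [polar_coc_link hf hQ a b c ha hb hc, polar_coc_link hf hQ a b c ha hb hc] at h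
  exact h

theorem coc_relP1 {f : ↥(Omega (ZMod 2) ⇑Q) → (ι → ZMod 2)} (hf : IsCoc Q f)
    (hQ : (QuadraticMap.polarBilin Q).Nondegenerate) (a b c : ι → ZMod 2)
    (ha : Q a = 1) (hb : Q b = 1) (hc : Q c = 1) (hbc : QuadraticMap.polar ⇑Q b c = 1)
    (t : ι → ZMod 2) :
    Yv Q (f (pO Q hQ a b ha hb)) (f (pO Q hQ a c ha hc)) a b t =
      Yv Q (f (pO Q hQ a b ha hb)) (f (pO Q hQ a c ha hc)) a b b * QuadraticMap.polar ⇑Q c t
      + Yv Q (f (pO Q hQ a b ha hb)) (f (pO Q hQ a c ha hc)) a b c * QuadraticMap.polar ⇑Q b t := by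
  have h := coc_rel1 hf hQ b c hb hc hbc t
  rw [polar_coc_link hf hQ a b c ha hb hc, polar_coc_link hf hQ a b c ha hb hc,
    polar_coc_link hf hQ a b c ha hb hc] at h
  exact h

/-! ### Vanishing -/

theorem coc_vanish_of_pairs (hQ : (QuadraticMap.polarBilin Q).Nondegenerate)
    (hR : reflGroup Q = ⊤) {f : ↥(Omega (ZMod 2) ⇑Q) → (ι → ZMod 2)} (hf : IsCoc Q f)
    (a : ι → ZMod 2) (ha : Q a = 1)
    (h0 : ∀ w (hw : Q w = 1), f (pO Q hQ a w ha hw) = 0) :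
    ∀ g : ↥(Omega (ZMod 2) ⇑Q), f g = 0 := by
  intro g
  have hg : (g : ↥(isometryGroup (ZMod 2) ⇑Q)) ∈ pairGroup Q := omega_le_pairGroup Q hR g.2
  have key : ∀ x : ↥(isometryGroup (ZMod 2) ⇑Q), x ∈ pairGroup Q →
      ∃ hx : x ∈ Omega (ZMod 2) ⇑Q, f ⟨x, hx⟩ = 0 := by
    intro x hx
    refine Subgroup.closure_induction
      (p := fun x _ => ∃ hx : x ∈ Omega (ZMod 2) ⇑Q, f ⟨x, hx⟩ = 0) ?_ ?_ ?_ ?_ hx
    · rintro x ⟨b, c, hb, hc, rfl⟩
      have hb1 : Q b = 1 := z2_eq_one hb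
      have hc1 : Q c = 1 := z2_eq_one hc
      refine ⟨refl_pair_mem_omega Q hQ b c hb hc, ?_⟩
      have e : (⟨reflO Q b hb * reflO Q c hc, refl_pair_mem_omega Q hQ b c hb hc⟩ :
          ↥(Omega (ZMod 2) ⇑Q)) = pO Q hQ b c hb1 hc1 := rfl
      rw [e, coc_link hf hQ a b c ha hb1 hc1, h0 b hb1, h0 c hc1, add_zero, mv_zero']
    · exact ⟨one_mem _, coc_one hf⟩
    · rintro x y _ _ ⟨hx, hfx⟩ ⟨hy, hfy⟩
      refine ⟨mul_mem hx hy, ?_⟩
      have h := hf ⟨x, hx⟩ ⟨y, hy⟩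
      rw [hfx, hfy, mv_zero', add_zero] at h
      exact h
    · rintro x _ ⟨hx, hfx⟩
      refine ⟨inv_mem hx, ?_⟩
      have h := coc_inv hf ⟨x, hx⟩
      rw [hfx, mv_zero'] at h
      exact h
  obtain ⟨hx, h⟩ := key g.1 hg
  exact h

theorem coc_vanish_step (hQ : (QuadraticMap.polarBilin Q).Nondegenerate)
    {f : ↥(Omega (ZMod 2) ⇑Q) → (ι → ZMod 2)} (hf : IsCoc Q f)
    (a s w : ι → ZMod 2) (ha : Q a = 1) (hs : Q s = 1) (hw : Q w = 1)
    (hsw : QuadraticMap.polar ⇑Q s w = 1) (hw' : Q (w + s) = 1)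
    (h1 : f (pO Q hQ a s ha hs) = 0) (h2 : f (pO Q hQ a (w + s) ha hw') = 0) :
    f (pO Q hQ a w ha hw) = 0 := by
  have hws : QuadraticMap.polar ⇑Q w s = 1 := by rw [QuadraticMap.polar_comm]; exact hsw
  have hmv : mv ⇑Q (rO Q s hs) (w + s) = w := by
    rw [mv_rO, QuadraticMap.polar_add_left, hws, polar_self_z2, add_zero, one_smul, add_assoc,
      z2_add_self, add_zero]
  have hk : Q (mv ⇑Q (rO Q s hs) (w + s)) ≠ 0 := by rw [mv_quad ⇑Q]; exact ns_ne Q hw'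
  have e1 := conj_reflO Q (rO Q s hs) (w + s) (ns_ne Q hw') hk
  rw [rO_inv] at e1
  have e2 : rO Q w hw = rO Q s hs * rO Q (w + s) hw' * rO Q s hs := by
    rw [show rO Q s hs * rO Q (w + s) hw' * rO Q s hs = reflO Q (mv ⇑Q (rO Q s hs) (w + s)) hk
      from e1]
    exact reflO_congr Q _ _ (ns_ne Q hw) hk hmv.symm
  have e3 : pO Q hQ a w ha hw =
      pO Q hQ a s ha hs * ((pO Q hQ a (w + s) ha hw')⁻¹ * pO Q hQ a s ha hs) := by
    apply Subtype.ext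
    rw [Subgroup.coe_mul, Subgroup.coe_mul, Subgroup.coe_inv, pO_coe, pO_coe, pO_coe,
      _root_.mul_inv_rev, rO_inv, rO_inv, e2]
    calc rO Q a ha * (rO Q s hs * rO Q (w + s) hw' * rO Q s hs)
        = rO Q a ha * rO Q s hs * (rO Q (w + s) hw' * 1 * rO Q s hs) := by
          simp only [mul_assoc, mul_one]
      _ = rO Q a ha * rO Q s hs * (rO Q (w + s) hw' * (rO Q a ha * rO Q a ha) * rO Q s hs) := by
          rw [rO_mul_self]
      _ = rO Q a ha * rO Q s hs * (rO Q (w + s) hw' * rO Q a ha * (rO Q a ha * rO Q s hs)) := by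
          simp only [mul_assoc]
  rw [e3, hf, hf, coc_inv hf, h1, h2]
  simp only [mv_zero', add_zero]

theorem coc_vanish_all (hQ : (QuadraticMap.polarBilin Q).Nondegenerate)
    {f : ↥(Omega (ZMod 2) ⇑Q) → (ι → ZMod 2)} (hf : IsCoc Q f)
    (a : ι → ZMod 2) (ha : Q a = 1) (S : List (ι → ZMod 2)) (d : (ι → ZMod 2) → ℕ)
    (hS : ∀ s ∈ S, ∀ hs : Q s = 1, f (pO Q hQ a s ha hs) = 0)
    (hreach : ∀ w, Q w = 1 → w ∈ S ∨
      ∃ s ∈ S, Q s = 1 ∧ QuadraticMap.polar ⇑Q s w = 1 ∧ d (w + s) < d w) :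
    ∀ w (hw : Q w = 1), f (pO Q hQ a w ha hw) = 0 := by
  have key : ∀ n w, d w = n → ∀ hw : Q w = 1, f (pO Q hQ a w ha hw) = 0 := by
    intro n
    induction n using Nat.strong_induction_on with
    | _ n ih =>
      intro w hd hw
      rcases hreach w hw with hmem | ⟨s, hsS, hs, hsw, hlt⟩
      · exact hS w hmem hw
      · have hws : QuadraticMap.polar ⇑Q w s = 1 := by rw [QuadraticMap.polar_comm]; exact hsw
        have hw' : Q (w + s) = 1 := by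
          have h := hws
          unfold QuadraticMap.polar at h
          rw [hw, hs] at h
          generalize Q (w + s) = c at h ⊢
          revert c; decide
        exact coc_vanish_step hQ hf a s w ha hs hw hsw hw' (hS s hsS hs)
          (ih (d (w + s)) (hd ▸ hlt) (w + s) rfl hw')
  intro w hw
  exact key (d w) w rfl hw

/-- **Assembly.**  If a crossed homomorphism agrees with the principal one of `v` on the products
`r_a r_s` for `s` in a list `S` of non-singular vectors from which every non-singular vector can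
be reached by reflections in members of `S`, then it is principal. -/
theorem principal_of_simple (hQ : (QuadraticMap.polarBilin Q).Nondegenerate)
    (hR : reflGroup Q = ⊤) {f : ↥(Omega (ZMod 2) ⇑Q) → (ι → ZMod 2)} (hf : IsCoc Q f)
    (a : ι → ZMod 2) (ha : Q a = 1) (v : ι → ZMod 2)
    (S : List (ι → ZMod 2)) (d : (ι → ZMod 2) → ℕ)
    (hS : ∀ s ∈ S, ∀ hs : Q s = 1,
      f (pO Q hQ a s ha hs) = mv ⇑Q (rO Q a ha * rO Q s hs) v - v)
    (hreach : ∀ w, Q w = 1 → w ∈ S ∨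
      ∃ s ∈ S, Q s = 1 ∧ QuadraticMap.polar ⇑Q s w = 1 ∧ d (w + s) < d w) :
    ∀ g : ↥(Omega (ZMod 2) ⇑Q), f g = mv ⇑Q (g : ↥(isometryGroup (ZMod 2) ⇑Q)) v - v := by
  have hf' : IsCoc Q (fun g => f g + (mv ⇑Q (g : ↥(isometryGroup (ZMod 2) ⇑Q)) v + v)) := by
    intro g h
    show f (g * h) + (mv ⇑Q ((g * h : ↥(Omega (ZMod 2) ⇑Q)) : ↥(isometryGroup (ZMod 2) ⇑Q)) v + v)
      = f g + (mv ⇑Q (g : ↥(isometryGroup (ZMod 2) ⇑Q)) v + v)
        + mv ⇑Q (g : ↥(isometryGroup (ZMod 2) ⇑Q))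
          (f h + (mv ⇑Q (h : ↥(isometryGroup (ZMod 2) ⇑Q)) v + v))
    rw [hf, Subgroup.coe_mul, mv_mul, mv_add, mv_add]
    have e : f g + (mv ⇑Q (g : ↥(isometryGroup (ZMod 2) ⇑Q)) v + v)
        + (mv ⇑Q (g : ↥(isometryGroup (ZMod 2) ⇑Q)) (f h)
          + (mv ⇑Q (g : ↥(isometryGroup (ZMod 2) ⇑Q)) (mv ⇑Q (h : ↥(isometryGroup (ZMod 2) ⇑Q)) v)
            + mv ⇑Q (g : ↥(isometryGroup (ZMod 2) ⇑Q)) v))
        = f g + mv ⇑Q (g : ↥(isometryGroup (ZMod 2) ⇑Q)) (f h)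
          + (mv ⇑Q (g : ↥(isometryGroup (ZMod 2) ⇑Q)) (mv ⇑Q (h : ↥(isometryGroup (ZMod 2) ⇑Q)) v)
            + v)
          + (mv ⇑Q (g : ↥(isometryGroup (ZMod 2) ⇑Q)) v
            + mv ⇑Q (g : ↥(isometryGroup (ZMod 2) ⇑Q)) v) := by abel
    rw [e, z2_add_self, add_zero]
  have hS' : ∀ s ∈ S, ∀ hs : Q s = 1,
      (fun g => f g + (mv ⇑Q (g : ↥(isometryGroup (ZMod 2) ⇑Q)) v + v)) (pO Q hQ a s ha hs) = 0 := by
    intro s hsS hs
    show f (pO Q hQ a s ha hs) + (mv ⇑Q (rO Q a ha * rO Q s hs) v + v) = 0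
    rw [hS s hsS hs, z2_sub_eq_add, z2_add_self]
  have h0 := coc_vanish_all hQ hf' a ha S d hS' hreach
  intro g
  have h1 := coc_vanish_of_pairs hQ hR hf' a ha h0 g
  rw [z2_sub_eq_add]
  exact z2_eq_of_add_eq_zero h1

theorem coc_base {f : ↥(Omega (ZMod 2) ⇑Q) → (ι → ZMod 2)} (hf : IsCoc Q f)
    (hQ : (QuadraticMap.polarBilin Q).Nondegenerate) (a : ι → ZMod 2) (ha ha' : Q a = 1)
    (v : ι → ZMod 2) :
    f (pO Q hQ a a ha ha') = mv ⇑Q (rO Q a ha * rO Q a ha') v - v := by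
  have e : pO Q hQ a a ha ha' = 1 := by
    apply Subtype.ext
    rw [pO_coe, Subgroup.coe_one]
    exact rO_mul_self Q a ha
  have e2 : rO Q a ha * rO Q a ha' = 1 := rO_mul_self Q a ha
  rw [e, coc_one hf, e2, mv_one, sub_self]

end Cfsg.Agent.Helper91.H1
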