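/-
Helper91: the isometry group of the minus-type form in dimension four over the field with two
elements is generated by reflections (it is the symmetric group on the five singular vectors, and
the reflections are the transpositions).
-/
import Cfsg.Agent.Helper91.H1Gen
import Cfsg.Agent.S0824
import Cfsg.Agent.Helper45.DicksonRank

set_option autoImplicit false

namespace Cfsg.Agent.Helper91.H1

open Cfsg Matrix Cfsg.Agent.Helper45 Cfsg.Agent.Helper44

/-- the four-dimensional space -/
abbrev V4 : Type := (Fin 1 ⊕ Fin 1) ⊕ Fin 2 → ZMod 2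

/-- the minus-type form -/
noncomputable abbrev Q4 : QuadraticForm (ZMod 2) V4 := Cfsg.Agent.Helper43.minusQF 1 (ZMod 2) 1 1

theorem sing_polar_o4m' : ∀ s t : V4, (s ≠ 0 ∧ Q4 s = 0 ∧ t ≠ 0 ∧ Q4 t = 0 ∧ s ≠ t) →
    QuadraticMap.polar ⇑Q4 s t = 1 := by decide +kernel

theorem sing_polar_o4m (s t : V4) (hs : s ≠ 0) (hqs : Q4 s = 0) (ht : t ≠ 0) (hqt : Q4 t = 0)
    (hst : s ≠ t) : QuadraticMap.polar ⇑Q4 s t = 1 :=
  sing_polar_o4m' s t ⟨hs, hqs, ht, hqt, hst⟩

theorem reflGroup_o4m_eq_top : reflGroup Q4 = ⊤ := by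
  classical
  have hcard : Fintype.card (ZMod 2) = 2 := ZMod.card 2
  have hinj := Cfsg.Agent.S0824.toPerm_injective (F := ZMod 2) hcard
  have key : ∀ σ : Equiv.Perm (Cfsg.Agent.S0824.singAct (ZMod 2)), ∃ ρ ∈ reflGroup Q4,
      MulAction.toPermHom (Cfsg.isometryGroup (ZMod 2) (Cfsg.quadFormMinus 1 (ZMod 2) 1 1))
        (Cfsg.Agent.S0824.singAct (ZMod 2)) ρ = σ := by
    intro σ
    induction σ using Equiv.Perm.swap_induction_on with
    | one => exact ⟨1, one_mem _, map_one _⟩
    | swap_mul f x y hxy ih =>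
      obtain ⟨ρ, hρ, hρf⟩ := ih
      have hx := x.2
      have hy := y.2
      have hne : (x : V4) ≠ y := fun h => hxy (Subtype.ext h)
      have hpol : QuadraticMap.polar ⇑Q4 (x : V4) (y : V4) = 1 :=
        sing_polar_o4m _ _ hx.1 hx.2 hy.1 hy.2 hne
      have hq : Q4 ((x : V4) + y) = 1 := by
        have h := hpol
        unfold QuadraticMap.polar at h
        rw [show Q4 (x : V4) = 0 from hx.2, show Q4 (y : V4) = 0 from hy.2, sub_zero, sub_zero] at h
        exact h
      refine ⟨rO Q4 _ hq * ρ, mul_mem (reflO_mem Q4 _ _) hρ, ?_⟩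
      have e1 : MulAction.toPermHom (Cfsg.isometryGroup (ZMod 2) (Cfsg.quadFormMinus 1 (ZMod 2) 1 1))
          (Cfsg.Agent.S0824.singAct (ZMod 2)) (rO Q4 _ hq) = Equiv.swap x y := by
        apply Equiv.ext
        intro z
        apply Subtype.ext
        show mv ⇑Q4 (rO Q4 _ hq) (z : V4)
          = ((Equiv.swap x y z : Cfsg.Agent.S0824.singAct (ZMod 2)) : V4)
        rw [mv_rO, QuadraticMap.polar_add_right]
        by_cases hzx : z = x
        · subst hzx
          rw [Equiv.swap_apply_left, polar_self_z2, hpol, zero_add, one_smul, ← add_assoc,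
            z2_add_self, zero_add]
        · by_cases hzy : z = y
          · subst hzy
            rw [Equiv.swap_apply_right, polar_self_z2, add_zero, QuadraticMap.polar_comm, hpol,
              one_smul, add_comm (x : V4), ← add_assoc, z2_add_self, zero_add]
          · rw [Equiv.swap_apply_of_ne_of_ne hzx hzy]
            have h1 : QuadraticMap.polar ⇑Q4 (z : V4) (x : V4) = 1 :=
              sing_polar_o4m _ _ z.2.1 z.2.2 hx.1 hx.2 (fun h => hzx (Subtype.ext h))
            have h2 : QuadraticMap.polar ⇑Q4 (z : V4) (y : V4) = 1 :=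
              sing_polar_o4m _ _ z.2.1 z.2.2 hy.1 hy.2 (fun h => hzy (Subtype.ext h))
            rw [h1, h2, CharTwo.add_self_eq_zero, zero_smul, add_zero]
      exact (map_mul (MulAction.toPermHom
        (Cfsg.isometryGroup (ZMod 2) (Cfsg.quadFormMinus 1 (ZMod 2) 1 1))
        (Cfsg.Agent.S0824.singAct (ZMod 2))) _ _).trans (congrArg₂ (· * ·) e1 hρf)
  rw [eq_top_iff]
  intro g _
  obtain ⟨ρ, hρ, hρg⟩ := key (MulAction.toPermHom
    (Cfsg.isometryGroup (ZMod 2) (Cfsg.quadFormMinus 1 (ZMod 2) 1 1))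
    (Cfsg.Agent.S0824.singAct (ZMod 2)) g)
  have := hinj hρg
  rw [← this]
  exact hρ

end Cfsg.Agent.Helper91.H1
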