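/-
Helper91 (generated by scratch/h1/gen_h1.py): every crossed homomorphism of `Ω(Q)` into the natural
module is principal, for the form of type A4 over the field with two elements.
-/
import Cfsg.Agent.Helper91.H1Gen
import Cfsg.Agent.Helper45.DicksonRank
import Cfsg.Agent.Helper91.H1O4

set_option autoImplicit false
set_option linter.unusedSimpArgs false
set_option linter.unnecessarySeqFocus false

namespace Cfsg.Agent.Helper91.H1.A4

open Cfsg Matrix Cfsg.Agent.Helper45 Cfsg.Agent.Helper44 Cfsg.Agent.Helper91.H1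

abbrev V : Type := (Fin 1 ⊕ Fin 1) ⊕ Fin 2 → ZMod 2

noncomputable abbrev QF : QuadraticForm (ZMod 2) V := Cfsg.Agent.Helper43.minusQF 1 (ZMod 2) 1 1

theorem hQ : (QuadraticMap.polarBilin QF).Nondegenerate := Cfsg.Agent.Helper45.minusQF_nondeg' 1 1 1 (by decide)

theorem hR : reflGroup QF = ⊤ := Cfsg.Agent.Helper91.H1.reflGroup_o4m_eq_top

/-- simple system -/
def U : Fin 4 → V := ![Sum.elim (Sum.elim ![1] ![1]) ![0, 0], Sum.elim (Sum.elim ![1] ![0]) ![1, 0], Sum.elim (Sum.elim ![0] ![0]) ![0, 1], Sum.elim (Sum.elim ![0] ![0]) ![1, 0]]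

/-- dual basis -/
def W : Fin 4 → V := ![Sum.elim (Sum.elim ![1] ![0]) ![0, 0], Sum.elim (Sum.elim ![1] ![1]) ![0, 0], Sum.elim (Sum.elim ![0] ![0]) ![1, 0], Sum.elim (Sum.elim ![1] ![1]) ![0, 1]]

theorem qU : ∀ k : Fin 4, QF (U k) = 1 := by decide +kernel

theorem B_0_0 : QuadraticMap.polar ⇑QF (U 0) (U 0) = 0 := by decide +kernel
theorem B_0_1 : QuadraticMap.polar ⇑QF (U 0) (U 1) = 1 := by decide +kernel
theorem B_0_2 : QuadraticMap.polar ⇑QF (U 0) (U 2) = 0 := by decide +kernel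
theorem B_0_3 : QuadraticMap.polar ⇑QF (U 0) (U 3) = 0 := by decide +kernel
theorem B_1_0 : QuadraticMap.polar ⇑QF (U 1) (U 0) = 1 := by decide +kernel
theorem B_1_1 : QuadraticMap.polar ⇑QF (U 1) (U 1) = 0 := by decide +kernel
theorem B_1_2 : QuadraticMap.polar ⇑QF (U 1) (U 2) = 1 := by decide +kernel
theorem B_1_3 : QuadraticMap.polar ⇑QF (U 1) (U 3) = 0 := by decide +kernel
theorem B_2_0 : QuadraticMap.polar ⇑QF (U 2) (U 0) = 0 := by decide +kernel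
theorem B_2_1 : QuadraticMap.polar ⇑QF (U 2) (U 1) = 1 := by decide +kernel
theorem B_2_2 : QuadraticMap.polar ⇑QF (U 2) (U 2) = 0 := by decide +kernel
theorem B_2_3 : QuadraticMap.polar ⇑QF (U 2) (U 3) = 1 := by decide +kernel
theorem B_3_0 : QuadraticMap.polar ⇑QF (U 3) (U 0) = 0 := by decide +kernel
theorem B_3_1 : QuadraticMap.polar ⇑QF (U 3) (U 1) = 0 := by decide +kernel
theorem B_3_2 : QuadraticMap.polar ⇑QF (U 3) (U 2) = 1 := by decide +kernel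
theorem B_3_3 : QuadraticMap.polar ⇑QF (U 3) (U 3) = 0 := by decide +kernel

theorem W_0_0 : QuadraticMap.polar ⇑QF (W 0) (U 0) = 1 := by decide +kernel
theorem W_0_1 : QuadraticMap.polar ⇑QF (W 0) (U 1) = 0 := by decide +kernel
theorem W_0_2 : QuadraticMap.polar ⇑QF (W 0) (U 2) = 0 := by decide +kernel
theorem W_0_3 : QuadraticMap.polar ⇑QF (W 0) (U 3) = 0 := by decide +kernel
theorem W_1_0 : QuadraticMap.polar ⇑QF (W 1) (U 0) = 0 := by decide +kernel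
theorem W_1_1 : QuadraticMap.polar ⇑QF (W 1) (U 1) = 1 := by decide +kernel
theorem W_1_2 : QuadraticMap.polar ⇑QF (W 1) (U 2) = 0 := by decide +kernel
theorem W_1_3 : QuadraticMap.polar ⇑QF (W 1) (U 3) = 0 := by decide +kernel
theorem W_2_0 : QuadraticMap.polar ⇑QF (W 2) (U 0) = 0 := by decide +kernel
theorem W_2_1 : QuadraticMap.polar ⇑QF (W 2) (U 1) = 0 := by decide +kernel
theorem W_2_2 : QuadraticMap.polar ⇑QF (W 2) (U 2) = 1 := by decide +kernel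
theorem W_2_3 : QuadraticMap.polar ⇑QF (W 2) (U 3) = 0 := by decide +kernel
theorem W_3_0 : QuadraticMap.polar ⇑QF (W 3) (U 0) = 0 := by decide +kernel
theorem W_3_1 : QuadraticMap.polar ⇑QF (W 3) (U 1) = 0 := by decide +kernel
theorem W_3_2 : QuadraticMap.polar ⇑QF (W 3) (U 2) = 0 := by decide +kernel
theorem W_3_3 : QuadraticMap.polar ⇑QF (W 3) (U 3) = 1 := by decide +kernel

theorem sep : ∀ z : V, (QuadraticMap.polar ⇑QF z (U 0) = 0 ∧ QuadraticMap.polar ⇑QF z (U 1) = 0 ∧ QuadraticMap.polar ⇑QF z (U 2) = 0 ∧ QuadraticMap.polar ⇑QF z (U 3) = 0) → z = 0 := by decide +kernel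

theorem eq_of_polar {x y : V} (h : QuadraticMap.polar ⇑QF x (U 0) = QuadraticMap.polar ⇑QF y (U 0) ∧ QuadraticMap.polar ⇑QF x (U 1) = QuadraticMap.polar ⇑QF y (U 1) ∧ QuadraticMap.polar ⇑QF x (U 2) = QuadraticMap.polar ⇑QF y (U 2) ∧ QuadraticMap.polar ⇑QF x (U 3) = QuadraticMap.polar ⇑QF y (U 3)) : x = y := by
  apply z2_eq_of_add_eq_zero
  obtain ⟨h0, h1, h2, h3⟩ := h
  apply sep
  refine ⟨?_, ?_, ?_, ?_⟩
  · rw [QuadraticMap.polar_add_left, h0]; exact CharTwo.add_self_eq_zero _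
  · rw [QuadraticMap.polar_add_left, h1]; exact CharTwo.add_self_eq_zero _
  · rw [QuadraticMap.polar_add_left, h2]; exact CharTwo.add_self_eq_zero _
  · rw [QuadraticMap.polar_add_left, h3]; exact CharTwo.add_self_eq_zero _

def S : List V := [U 0, U 1, U 2, U 3]

def enc (w : V) : ℕ := 1 * (w (Sum.inl (Sum.inl 0))).val + 2 * (w (Sum.inl (Sum.inr 0))).val + 4 * (w (Sum.inr 0)).val + 8 * (w (Sum.inr 1)).val

def tbl : List ℕ := [0, 0, 0, 0, 0, 0, 1, 0, 0, 2, 3, 0, 1, 1, 2, 0]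

def dep (w : V) : ℕ := tbl.getD (enc w) 0

theorem reach : ∀ w : V, QF w = 1 → w ∈ S ∨
    ∃ s ∈ S, QF s = 1 ∧ QuadraticMap.polar ⇑QF s w = 1 ∧ dep (w + s) < dep w := by decide +kernel

/-- the pairings of the values of a crossed homomorphism on the generators -/
noncomputable def et (f : ↥(Omega (ZMod 2) ⇑QF) → V) (j k : Fin 4) : ZMod 2 :=
  QuadraticMap.polar ⇑QF (f (pO QF hQ (U 0) (U j) (qU 0) (qU j))) (U k)

theorem et_def (f : ↥(Omega (ZMod 2) ⇑QF) → V) (j k : Fin 4) :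
    QuadraticMap.polar ⇑QF (f (pO QF hQ (U 0) (U j) (qU 0) (qU j))) (U k) = et f j k := rfl

set_option maxHeartbeats 1600000 in
theorem h1 (f : ↥(Omega (ZMod 2) ⇑QF) → V) (hf : IsCoc QF f) :
    ∃ v : V, ∀ g : ↥(Omega (ZMod 2) ⇑QF), f g = mv ⇑QF (g : ↥(isometryGroup (ZMod 2) ⇑QF)) v - v := by
  have cR_1_2 := coc_rel1 hf hQ (U 0) (U 1) (qU 0) (qU 1) B_0_1 (U 2)
  simp only [Yv, QuadraticMap.polar_add_left, et_def, B_0_0, B_0_1, B_0_2, B_0_3, B_1_0, B_1_1, B_1_2, B_1_3, B_2_0, B_2_1, B_2_2, B_2_3, B_3_0, B_3_1, B_3_2, B_3_3, mul_zero, mul_one, zero_mul, one_mul, add_zero, zero_add] at cR_1_2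
  have cR_1_3 := coc_rel1 hf hQ (U 0) (U 1) (qU 0) (qU 1) B_0_1 (U 3)
  simp only [Yv, QuadraticMap.polar_add_left, et_def, B_0_0, B_0_1, B_0_2, B_0_3, B_1_0, B_1_1, B_1_2, B_1_3, B_2_0, B_2_1, B_2_2, B_2_3, B_3_0, B_3_1, B_3_2, B_3_3, mul_zero, mul_one, zero_mul, one_mul, add_zero, zero_add] at cR_1_3
  have cR_2_1 := coc_rel0 hf hQ (U 0) (U 2) (qU 0) (qU 2) B_0_2 (U 1)
  simp only [Yv, QuadraticMap.polar_add_left, et_def, B_0_0, B_0_1, B_0_2, B_0_3, B_1_0, B_1_1, B_1_2, B_1_3, B_2_0, B_2_1, B_2_2, B_2_3, B_3_0, B_3_1, B_3_2, B_3_3, mul_zero, mul_one, zero_mul, one_mul, add_zero, zero_add] at cR_2_1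
  have cR_2_3 := coc_rel0 hf hQ (U 0) (U 2) (qU 0) (qU 2) B_0_2 (U 3)
  simp only [Yv, QuadraticMap.polar_add_left, et_def, B_0_0, B_0_1, B_0_2, B_0_3, B_1_0, B_1_1, B_1_2, B_1_3, B_2_0, B_2_1, B_2_2, B_2_3, B_3_0, B_3_1, B_3_2, B_3_3, mul_zero, mul_one, zero_mul, one_mul, add_zero, zero_add] at cR_2_3
  have cR_3_1 := coc_rel0 hf hQ (U 0) (U 3) (qU 0) (qU 3) B_0_3 (U 1)
  simp only [Yv, QuadraticMap.polar_add_left, et_def, B_0_0, B_0_1, B_0_2, B_0_3, B_1_0, B_1_1, B_1_2, B_1_3, B_2_0, B_2_1, B_2_2, B_2_3, B_3_0, B_3_1, B_3_2, B_3_3, mul_zero, mul_one, zero_mul, one_mul, add_zero, zero_add] at cR_3_1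
  have cR_3_2 := coc_rel0 hf hQ (U 0) (U 3) (qU 0) (qU 3) B_0_3 (U 2)
  simp only [Yv, QuadraticMap.polar_add_left, et_def, B_0_0, B_0_1, B_0_2, B_0_3, B_1_0, B_1_1, B_1_2, B_1_3, B_2_0, B_2_1, B_2_2, B_2_3, B_3_0, B_3_1, B_3_2, B_3_3, mul_zero, mul_one, zero_mul, one_mul, add_zero, zero_add] at cR_3_2
  have cP_1_2_3 := coc_relP1 hf hQ (U 0) (U 1) (U 2) (qU 0) (qU 1) (qU 2) B_1_2 (U 3)
  simp only [Yv, QuadraticMap.polar_add_left, et_def, B_0_0, B_0_1, B_0_2, B_0_3, B_1_0, B_1_1, B_1_2, B_1_3, B_2_0, B_2_1, B_2_2, B_2_3, B_3_0, B_3_1, B_3_2, B_3_3, mul_zero, mul_one, zero_mul, one_mul, add_zero, zero_add] at cP_1_2_3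
  have cP_1_3_0 := coc_relP0 hf hQ (U 0) (U 1) (U 3) (qU 0) (qU 1) (qU 3) B_1_3 (U 0)
  simp only [Yv, QuadraticMap.polar_add_left, et_def, B_0_0, B_0_1, B_0_2, B_0_3, B_1_0, B_1_1, B_1_2, B_1_3, B_2_0, B_2_1, B_2_2, B_2_3, B_3_0, B_3_1, B_3_2, B_3_3, mul_zero, mul_one, zero_mul, one_mul, add_zero, zero_add] at cP_1_3_0
  obtain ⟨v, hv0, hv1, hv2, hv3⟩ : ∃ v : V, QuadraticMap.polar ⇑QF v (U 0) = et f 1 0 + et f 1 1 ∧ QuadraticMap.polar ⇑QF v (U 1) = et f 1 0 ∧ QuadraticMap.polar ⇑QF v (U 2) = et f 2 3 ∧ QuadraticMap.polar ⇑QF v (U 3) = et f 3 2 := by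
    refine ⟨(et f 1 0 + et f 1 1) • W 0 + (et f 1 0) • W 1 + (et f 2 3) • W 2 + (et f 3 2) • W 3, ?_, ?_, ?_, ?_⟩ <;>
    simp only [QuadraticMap.polar_add_left, QuadraticMap.polar_smul_left, W_0_0, W_0_1, W_0_2, W_0_3, W_1_0, W_1_1, W_1_2, W_1_3, W_2_0, W_2_1, W_2_2, W_2_3, W_3_0, W_3_1, W_3_2, W_3_3, smul_eq_mul, mul_zero, mul_one, add_zero, zero_add]
  have vec_1 : f (pO QF hQ (U 0) (U 1) (qU 0) (qU 1)) = mv ⇑QF (rO QF (U 0) (qU 0) * rO QF (U 1) (qU 1)) v - v := by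
    apply eq_of_polar
    refine ⟨?_, ?_, ?_, ?_⟩
    · rw [QuadraticMap.polar_sub_left, polar_mv_pair]
      simp only [et_def, hv0, hv1, hv2, hv3, B_0_0, B_0_1, B_0_2, B_0_3, B_1_0, B_1_1, B_1_2, B_1_3, B_2_0, B_2_1, B_2_2, B_2_3, B_3_0, B_3_1, B_3_2, B_3_3, mul_zero, mul_one, zero_mul, one_mul, add_zero, zero_add] <;>
      ring
    · rw [QuadraticMap.polar_sub_left, polar_mv_pair]
      simp only [et_def, hv0, hv1, hv2, hv3, B_0_0, B_0_1, B_0_2, B_0_3, B_1_0, B_1_1, B_1_2, B_1_3, B_2_0, B_2_1, B_2_2, B_2_3, B_3_0, B_3_1, B_3_2, B_3_3, mul_zero, mul_one, zero_mul, one_mul, add_zero, zero_add] <;>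
      linear_combination 0 - (et f 1 0) * z2_two
    · rw [QuadraticMap.polar_sub_left, polar_mv_pair]
      simp only [et_def, hv0, hv1, hv2, hv3, B_0_0, B_0_1, B_0_2, B_0_3, B_1_0, B_1_1, B_1_2, B_1_3, B_2_0, B_2_1, B_2_2, B_2_3, B_3_0, B_3_1, B_3_2, B_3_3, mul_zero, mul_one, zero_mul, one_mul, add_zero, zero_add] <;>
      linear_combination cR_1_2
    · rw [QuadraticMap.polar_sub_left, polar_mv_pair]
      simp only [et_def, hv0, hv1, hv2, hv3, B_0_0, B_0_1, B_0_2, B_0_3, B_1_0, B_1_1, B_1_2, B_1_3, B_2_0, B_2_1, B_2_2, B_2_3, B_3_0, B_3_1, B_3_2, B_3_3, mul_zero, mul_one, zero_mul, one_mul, add_zero, zero_add] <;>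
      linear_combination cR_1_3
  have vec_2 : f (pO QF hQ (U 0) (U 2) (qU 0) (qU 2)) = mv ⇑QF (rO QF (U 0) (qU 0) * rO QF (U 2) (qU 2)) v - v := by
    apply eq_of_polar
    refine ⟨?_, ?_, ?_, ?_⟩
    · rw [QuadraticMap.polar_sub_left, polar_mv_pair]
      simp only [et_def, hv0, hv1, hv2, hv3, B_0_0, B_0_1, B_0_2, B_0_3, B_1_0, B_1_1, B_1_2, B_1_3, B_2_0, B_2_1, B_2_2, B_2_3, B_3_0, B_3_1, B_3_2, B_3_3, mul_zero, mul_one, zero_mul, one_mul, add_zero, zero_add] <;>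
      linear_combination cR_2_1 + cR_2_3 - (et f 2 2) * z2_two
    · rw [QuadraticMap.polar_sub_left, polar_mv_pair]
      simp only [et_def, hv0, hv1, hv2, hv3, B_0_0, B_0_1, B_0_2, B_0_3, B_1_0, B_1_1, B_1_2, B_1_3, B_2_0, B_2_1, B_2_2, B_2_3, B_3_0, B_3_1, B_3_2, B_3_3, mul_zero, mul_one, zero_mul, one_mul, add_zero, zero_add] <;>
      linear_combination cR_1_3 + cR_2_1 + cR_2_3 + cP_1_2_3 - (et f 1 3 + (-1) * et f 2 1 + et f 2 2 + et f 2 3) * z2_two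
    · rw [QuadraticMap.polar_sub_left, polar_mv_pair]
      simp only [et_def, hv0, hv1, hv2, hv3, B_0_0, B_0_1, B_0_2, B_0_3, B_1_0, B_1_1, B_1_2, B_1_3, B_2_0, B_2_1, B_2_2, B_2_3, B_3_0, B_3_1, B_3_2, B_3_3, mul_zero, mul_one, zero_mul, one_mul, add_zero, zero_add] <;>
      linear_combination cR_2_3
    · rw [QuadraticMap.polar_sub_left, polar_mv_pair]
      simp only [et_def, hv0, hv1, hv2, hv3, B_0_0, B_0_1, B_0_2, B_0_3, B_1_0, B_1_1, B_1_2, B_1_3, B_2_0, B_2_1, B_2_2, B_2_3, B_3_0, B_3_1, B_3_2, B_3_3, mul_zero, mul_one, zero_mul, one_mul, add_zero, zero_add] <;>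
      ring
  have vec_3 : f (pO QF hQ (U 0) (U 3) (qU 0) (qU 3)) = mv ⇑QF (rO QF (U 0) (qU 0) * rO QF (U 3) (qU 3)) v - v := by
    apply eq_of_polar
    refine ⟨?_, ?_, ?_, ?_⟩
    · rw [QuadraticMap.polar_sub_left, polar_mv_pair]
      simp only [et_def, hv0, hv1, hv2, hv3, B_0_0, B_0_1, B_0_2, B_0_3, B_1_0, B_1_1, B_1_2, B_1_3, B_2_0, B_2_1, B_2_2, B_2_3, B_3_0, B_3_1, B_3_2, B_3_3, mul_zero, mul_one, zero_mul, one_mul, add_zero, zero_add] <;>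
      linear_combination cR_3_1
    · rw [QuadraticMap.polar_sub_left, polar_mv_pair]
      simp only [et_def, hv0, hv1, hv2, hv3, B_0_0, B_0_1, B_0_2, B_0_3, B_1_0, B_1_1, B_1_2, B_1_3, B_2_0, B_2_1, B_2_2, B_2_3, B_3_0, B_3_1, B_3_2, B_3_3, mul_zero, mul_one, zero_mul, one_mul, add_zero, zero_add] <;>
      linear_combination cR_3_1 + cP_1_3_0 - (et f 1 0 + et f 1 1 + et f 3 0) * z2_two
    · rw [QuadraticMap.polar_sub_left, polar_mv_pair]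
      simp only [et_def, hv0, hv1, hv2, hv3, B_0_0, B_0_1, B_0_2, B_0_3, B_1_0, B_1_1, B_1_2, B_1_3, B_2_0, B_2_1, B_2_2, B_2_3, B_3_0, B_3_1, B_3_2, B_3_3, mul_zero, mul_one, zero_mul, one_mul, add_zero, zero_add] <;>
      ring
    · rw [QuadraticMap.polar_sub_left, polar_mv_pair]
      simp only [et_def, hv0, hv1, hv2, hv3, B_0_0, B_0_1, B_0_2, B_0_3, B_1_0, B_1_1, B_1_2, B_1_3, B_2_0, B_2_1, B_2_2, B_2_3, B_3_0, B_3_1, B_3_2, B_3_3, mul_zero, mul_one, zero_mul, one_mul, add_zero, zero_add] <;>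
      linear_combination cR_3_2
  refine ⟨v, principal_of_simple hQ hR hf (U 0) (qU 0) v S dep ?_ reach⟩
  intro s hs hs1
  simp only [S, List.mem_cons, List.not_mem_nil, or_false] at hs
  rcases hs with rfl | rfl | rfl | rfl
  · exact coc_base hf hQ (U 0) (qU 0) hs1 v
  · exact vec_1
  · exact vec_2
  · exact vec_3

end Cfsg.Agent.Helper91.H1.A4
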