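/-
Helper91: the two-point stabilizer `M22` of `Cfsg.M24` has no subgroup of order 7920 and none of order 2112.
-/
import Cfsg.Agent.Helper91.Idx22

set_option autoImplicit false

namespace Cfsg.Agent.Helper91.Idx22

open Cfsg Cfsg.Agent.Helper91 Cfsg.Agent.Helper91.PSL23

/-- A subgroup of `M22` containing `sigma` has neither order 7920 nor order 2112. -/
theorem no_sub_of_sigma {K : Subgroup (Equiv.Perm GolayPt)} (hK : K ≤ M) (hs : sigma ∈ K) :
    Nat.card K ≠ 7920 ∧ Nat.card K ≠ 2112 := by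
  have hP : Subgroup.zpowers sigma ≤ K := (Subgroup.zpowers_le).2 hs
  have hPc : Nat.card (Subgroup.zpowers sigma) = 11 := by rw [Nat.card_zpowers, orderOf_sigma]
  have : Fact (Nat.Prime 11) := ⟨by norm_num⟩
  have hc55 := card_norm_sigma_le hK
  have hdvd : 11 ∣ Nat.card ↥(Subgroup.normalizer (Subgroup.zpowers sigma : Set (Equiv.Perm GolayPt)) ⊓ K) := by
    have h1 : Subgroup.zpowers sigma ≤
        Subgroup.normalizer (Subgroup.zpowers sigma : Set (Equiv.Perm GolayPt)) ⊓ K :=
      le_inf Subgroup.le_normalizer hP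
    have h2 := Subgroup.card_dvd_of_le h1
    rwa [hPc] at h2
  constructor
  · intro h7920
    obtain ⟨m, hm, hmod⟩ := sylow_index K (Subgroup.zpowers sigma) hP 11 hPc (by rw [h7920]; norm_num)
    rw [h7920] at hm
    obtain ⟨d, hd⟩ := hdvd
    have hc : Nat.card ↥(Subgroup.normalizer (Subgroup.zpowers sigma : Set (Equiv.Perm GolayPt)) ⊓ K)
        = 55 := by
      rw [hd] at hm hc55 ⊢
      have hd5 : d ≤ 5 := by omega
      unfold Nat.ModEq at hmod
      interval_cases d <;> omega
    have heq : Subgroup.normalizer (Subgroup.zpowers sigma : Set (Equiv.Perm GolayPt)) ⊓ K =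
        Subgroup.normalizer (Subgroup.zpowers sigma : Set (Equiv.Perm GolayPt)) ⊓ M :=
      Subgroup.eq_of_le_of_card_ge (inf_le_inf_left _ hK) (by rw [hc]; exact card_norm_sigma_le le_rfl)
    have hu : u ∈ K := by
      have h1 : u ∈ Subgroup.normalizer (Subgroup.zpowers sigma : Set (Equiv.Perm GolayPt)) ⊓ M :=
        ⟨mem_normalizer_of_conj u_sigma, u_mem_M⟩
      rw [← heq] at h1
      exact h1.2
    -- the prime 5
    have hQ : Subgroup.zpowers u ≤ K := (Subgroup.zpowers_le).2 hu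
    have hQc : Nat.card (Subgroup.zpowers u) = 5 := by rw [Nat.card_zpowers, orderOf_u]
    have : Fact (Nat.Prime 5) := ⟨by norm_num⟩
    have hc20 := card_norm_u_le hK
    have hdvd5 : 5 ∣ Nat.card ↥(Subgroup.normalizer (Subgroup.zpowers u : Set (Equiv.Perm GolayPt)) ⊓ K) := by
      have h1 : Subgroup.zpowers u ≤
          Subgroup.normalizer (Subgroup.zpowers u : Set (Equiv.Perm GolayPt)) ⊓ K :=
        le_inf Subgroup.le_normalizer hQ
      have h2 := Subgroup.card_dvd_of_le h1
      rwa [hQc] at h2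
    obtain ⟨m', hm', hmod'⟩ := sylow_index K (Subgroup.zpowers u) hQ 5 hQc (by rw [h7920]; norm_num)
    rw [h7920] at hm'
    obtain ⟨e, he⟩ := hdvd5
    have hc' : Nat.card ↥(Subgroup.normalizer (Subgroup.zpowers u : Set (Equiv.Perm GolayPt)) ⊓ K)
        = 20 := by
      rw [he] at hm' hc20 ⊢
      have he4 : e ≤ 4 := by omega
      unfold Nat.ModEq at hmod'
      interval_cases e <;> omega
    have heq' : Subgroup.normalizer (Subgroup.zpowers u : Set (Equiv.Perm GolayPt)) ⊓ K =
        Subgroup.normalizer (Subgroup.zpowers u : Set (Equiv.Perm GolayPt)) ⊓ M :=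
      Subgroup.eq_of_le_of_card_ge (inf_le_inf_left _ hK) (by rw [hc']; exact card_norm_u_le le_rfl)
    have hw : w ∈ K := by
      have h1 : w ∈ Subgroup.normalizer (Subgroup.zpowers u : Set (Equiv.Perm GolayPt)) ⊓ M :=
        ⟨mem_normalizer_of_conj w_u, w_mem_M⟩
      rw [← heq'] at h1
      exact h1.2
    have hy : sigma * w ∈ K := mul_mem hs hw
    have h7 := Subgroup.orderOf_dvd_natCard K hy
    rw [orderOf_y, h7920] at h7
    omega
  · intro h2112
    obtain ⟨m, hm, hmod⟩ := sylow_index K (Subgroup.zpowers sigma) hP 11 hPc (by rw [h2112]; norm_num)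
    rw [h2112] at hm
    obtain ⟨d, hd⟩ := hdvd
    rw [hd] at hm hc55
    have hd5 : d ≤ 5 := by omega
    unfold Nat.ModEq at hmod
    interval_cases d <;> omega

/-- No subgroup of `M22` has order 7920 or 2112. -/
theorem no_sub {K : Subgroup (Equiv.Perm GolayPt)} (hK : K ≤ M) :
    Nat.card K ≠ 7920 ∧ Nat.card K ≠ 2112 := by
  by_cases h11 : 11 ∣ Nat.card K
  · have : Fact (Nat.Prime 11) := ⟨by norm_num⟩
    obtain ⟨x, hx⟩ := exists_prime_orderOf_dvd_card' 11 h11
    have hxM : (x : Equiv.Perm GolayPt) ∈ M := hK x.2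
    have hcardM : Nat.card ↥M = 443520 := card_stabSub_M22
    obtain ⟨g, k, hgk⟩ := Cfsg.Agent.Helper7.exists_conj_pow (G := ↥M) (p := 11)
      (by rw [hcardM]; norm_num) (a := ⟨sigma, sigma_mem_M⟩) (x := ⟨x, hxM⟩)
      (by rw [Subgroup.orderOf_mk]; exact orderOf_sigma)
      (by rw [Subgroup.orderOf_mk, Subgroup.orderOf_coe]; exact hx)
    have hgk' : (x : Equiv.Perm GolayPt) = (g : Equiv.Perm GolayPt) * sigma ^ k * (g : Equiv.Perm GolayPt)⁻¹ :=
      congrArg Subtype.val hgk
    have hsk1 : sigma ^ k ≠ 1 := by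
      intro h1
      rw [h1, mul_one, mul_inv_cancel] at hgk'
      have hx1 : x = 1 := Subtype.ext hgk'
      rw [hx1, orderOf_one] at hx
      omega
    have hk11 : k % 11 ≠ 0 := by
      intro h0
      apply hsk1
      rw [pow_eq_pow_mod k sigma_pow_11, h0, pow_zero]
    have hcop : Nat.Coprime k 11 := by
      rw [Nat.coprime_comm, Nat.Prime.coprime_iff_not_dvd (by norm_num)]
      intro hdvd
      exact hk11 (Nat.mod_eq_zero_of_dvd hdvd)
    obtain ⟨j, -, hj⟩ := Nat.exists_mul_mod_eq_one_of_coprime hcop (by norm_num)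
    have hsj : (sigma ^ k) ^ j = sigma := by
      rw [← pow_mul, pow_eq_pow_mod (k * j) sigma_pow_11, hj, pow_one]
    let K' : Subgroup (Equiv.Perm GolayPt) := K.map (MulAut.conj (g : Equiv.Perm GolayPt)⁻¹).toMonoidHom
    have hK' : K' ≤ M := by
      rintro _ ⟨y, hy, rfl⟩
      show (g : Equiv.Perm GolayPt)⁻¹ * y * ((g : Equiv.Perm GolayPt)⁻¹)⁻¹ ∈ M
      exact mul_mem (mul_mem (inv_mem g.2) (hK hy)) (inv_mem (inv_mem g.2))
    have hcard : Nat.card K' = Nat.card K :=
      Subgroup.card_map_of_injective (MulEquiv.injective _)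
    have hsk : sigma ^ k ∈ K' := by
      refine ⟨x, x.2, ?_⟩
      show (g : Equiv.Perm GolayPt)⁻¹ * (x : Equiv.Perm GolayPt) * ((g : Equiv.Perm GolayPt)⁻¹)⁻¹ = sigma ^ k
      rw [hgk']
      group
    have hs : sigma ∈ K' := by
      rw [← hsj]
      exact pow_mem hsk j
    have := no_sub_of_sigma hK' hs
    rwa [hcard] at this
  · exact ⟨fun h => h11 (by rw [h]; norm_num), fun h => h11 (by rw [h]; norm_num)⟩

end Cfsg.Agent.Helper91.Idx22
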