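/-
Helper91: normalizers of cyclic subgroups inside the subgroups `stabSub F L` of `Cfsg.M24`, by a checked
enumeration along a stabilizer chain: a Boolean test on packed permutations, the set of fixed points is
invariant, and a bound for the order of the normalizer.
-/
import Cfsg.Agent.Helper91.Fast

set_option autoImplicit false

namespace Cfsg.Agent.Helper91.NormEnum

open Cfsg Cfsg.Agent.Helper91

/-- Boolean test: the packed permutation `P` conjugates the permutation with table `UT` to a permutation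
whose table is in the list `UK`. -/
def normB (UT : List Nat) (UK : List (List Nat)) (P : Nat) : Bool :=
  UK.any (fun K => (List.range 24).all (fun i => dg P (UT.getD i 0) == K.getD (dg P i) 0))

theorem normB_of_comm {u v g : Equiv.Perm GolayPt} {UT : List Nat} {UK : List (List Nat)} {P : Nat}
    (hu : ∀ p, u p = pt (UT.getD (idx p) 0)) (hUT : ∀ i < 24, UT.getD i 0 < 24)
    {K : List Nat} (hK : K ∈ UK) (hKlt : ∀ i < 24, K.getD i 0 < 24)
    (hv : ∀ p, v p = pt (K.getD (idx p) 0))
    (hcomm : g * u = v * g) (hrep : Rep P (⇑g)) : normB UT UK P = true := by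
  unfold normB
  rw [List.any_eq_true]
  refine ⟨K, hK, ?_⟩
  rw [List.all_eq_true]
  intro i hi
  have hi' : i < 24 := List.mem_range.1 hi
  rw [beq_iff_eq]
  have h1 : UT.getD i 0 = idx (u (pt i)) := by
    rw [hu, idx_pt hi', idx_pt (hUT i hi')]
  have h2 : g (u (pt i)) = v (g (pt i)) := by
    rw [← Equiv.Perm.mul_apply, hcomm, Equiv.Perm.mul_apply]
  rw [h1, hrep.apply, hrep i hi', h2, hv, idx_pt (hKlt _ (idx_lt _))]

/-- A set of permutations each represented by one of the packed tables of a list has at most as many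
elements as the list. -/
theorem card_le_of_rep (S : Subgroup (Equiv.Perm GolayPt)) (Lpk : List Nat)
    (h : ∀ g ∈ S, ∃ P ∈ Lpk, Rep P (⇑g)) : Nat.card S ≤ Lpk.length := by
  let φ : Equiv.Perm GolayPt → List Nat := fun g => (List.range 24).map (fun i => idx (g (pt i)))
  let T : Finset (List Nat) := (Lpk.map fun P => (List.range 24).map (dg P)).toFinset
  show Nat.card ↥(S : Set (Equiv.Perm GolayPt)) ≤ Lpk.length
  rw [_root_.Nat.card_coe_set_eq]
  have hT : T.card ≤ Lpk.length := (List.toFinset_card_le _).trans (by rw [List.length_map])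
  refine le_trans ?_ hT
  rw [← Set.ncard_coe_finset T]
  apply Set.ncard_le_ncard_of_injOn φ _ _ (Finset.finite_toSet T)
  · intro g hg
    obtain ⟨P, hP, hrep⟩ := h g hg
    rw [Finset.mem_coe, List.mem_toFinset, List.mem_map]
    refine ⟨P, hP, ?_⟩
    apply List.map_congr_left
    intro i hi
    exact hrep i (List.mem_range.1 hi)
  · intro g _ h' _ e
    refine Equiv.ext fun p => ?_
    have hp : idx p < 24 := idx_lt p
    have e1 : idx (g (pt (idx p))) = idx (h' (pt (idx p))) := by
      have := congrArg (fun l : List Nat => l.getD (idx p) 0) e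
      simpa [φ, List.getD_eq_getElem?_getD, hp] using this
    rw [pt_idx] at e1
    exact idx_injective e1

theorem mem_zpowers_nat' {g h : Equiv.Perm GolayPt} (hg : g ∈ Subgroup.zpowers h) :
    ∃ n : ℕ, h ^ n = g := by
  rw [← mem_powers_iff_mem_zpowers] at hg
  exact (Submonoid.mem_powers_iff _ _).1 hg

/-- An element normalizing `⟨u⟩` conjugates `u` to a power of `u`. -/
theorem exists_comm_of_norm {u g : Equiv.Perm GolayPt} {r : ℕ} (hr : u ^ r = 1)
    (hn : g ∈ Subgroup.normalizer (Subgroup.zpowers u : Set (Equiv.Perm GolayPt))) :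
    ∃ k, (0 < r → k < r) ∧ g * u = u ^ k * g := by
  have h1 : g * u * g⁻¹ ∈ Subgroup.zpowers u :=
    (Subgroup.mem_normalizer_iff.1 hn u).1 (Subgroup.mem_zpowers u)
  obtain ⟨n, hn'⟩ := mem_zpowers_nat' h1
  refine ⟨n % r, fun h0 => Nat.mod_lt _ h0, ?_⟩
  rw [← pow_eq_pow_mod n hr, hn']
  group

/-- The set of fixed points of `u` is invariant under the normalizer of `⟨u⟩`. -/
theorem inv_fix_of_norm {u g : Equiv.Perm GolayPt} {r : ℕ} (hr : u ^ r = 1) (hr0 : 0 < r) (hu1 : u ≠ 1)
    (hfix : ∀ k < r, 0 < k → ∀ q, (u ^ k) q = q → u q = q)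
    {Fm : Nat} (hFm : ∀ p, Fm.testBit (idx p) = decide (u p = p))
    (hn : g ∈ Subgroup.normalizer (Subgroup.zpowers u : Set (Equiv.Perm GolayPt))) : Inv g Fm := by
  obtain ⟨k, hk, hcomm⟩ := exists_comm_of_norm hr hn
  have hk0 : 0 < k := by
    rcases Nat.eq_zero_or_pos k with h0 | h0
    · exfalso
      subst h0
      rw [pow_zero, one_mul] at hcomm
      exact hu1 (mul_left_cancel (hcomm.trans (mul_one g).symm))
    · exact h0
  have hc : ∀ p, g (u p) = (u ^ k) (g p) := fun p => by
    rw [← Equiv.Perm.mul_apply, hcomm, Equiv.Perm.mul_apply]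
  intro p
  rw [hFm, hFm, decide_eq_decide]
  constructor
  · intro h
    have h2 : (u ^ k) (g p) = g p := Equiv.Perm.pow_apply_eq_self_of_apply_eq_self h k
    rw [← hc] at h2
    exact g.injective h2
  · intro h
    apply hfix k (hk hr0) hk0
    rw [← hc, h]

/-- The normalizer of `⟨u⟩` in `stabSub Fg Lg`: if all products of transversal tables of a checked chain
that pass the Boolean normalizer test are in the list `Lpk`, the normalizer has at most `Lpk.length`
elements. -/
theorem card_norm_le {u : Equiv.Perm GolayPt} {r : ℕ} (hr : u ^ r = 1) (hr0 : 0 < r)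
    {UT : List Nat} {UK : List (List Nat)} (hu : ∀ p, u p = pt (UT.getD (idx p) 0))
    (hUT : ∀ i < 24, UT.getD i 0 < 24)
    (hUK : ∀ k < r, ∃ K ∈ UK, (∀ i < 24, K.getD i 0 < 24) ∧ ∀ p, (u ^ k) p = pt (K.getD (idx p) 0))
    {Fg : Nat} {Lg : List Nat} {levels : List Level} {fin : List Step} {F : Nat} {L : List Nat}
    (hchk : checkChain Lg Fg F L levels fin = true)
    (hder : ∀ g ∈ stabSub Fg Lg, FixOn g F ∧ ∀ I ∈ L, Inv g I)
    {Lpk : List Nat}
    (hall : allProdP (fun P => !(normB UT UK P) || Lpk.contains P) (levels.map (fun lv => lv.tabs)) pkId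
      = true)
    (S : Subgroup (Equiv.Perm GolayPt))
    (hS : S ≤ Subgroup.normalizer (Subgroup.zpowers u : Set (Equiv.Perm GolayPt)) ⊓ stabSub Fg Lg) :
    Nat.card S ≤ Lpk.length := by
  apply card_le_of_rep
  intro g hg
  obtain ⟨hn, hst⟩ := hS hg
  have hcp := chain_sound Lg levels Fg F L fin hchk hder g hst
  obtain ⟨P, hf, hrep⟩ := forall_of_allProdP hall hcp
  obtain ⟨k, hk, hcomm⟩ := exists_comm_of_norm hr hn
  obtain ⟨K, hK, hKlt, hKv⟩ := hUK k (hk hr0)
  have hnb := normB_of_comm hu hUT hK hKlt hKv hcomm hrep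
  rw [hnb] at hf
  exact ⟨P, by simpa using hf, hrep⟩

end Cfsg.Agent.Helper91.NormEnum
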