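/-
Helper91: data for the subgroups of index 253 of `M23` (the stabilizer of the point `∞` in `Cfsg.M24`):
an element `s7` of order 7, an involution `z` centralizing it, and the normalizer of `⟨s7⟩` in `M23`
(of order 42), by enumeration of the stabilizer of a set of 9 points (of order 336).
-/
import Cfsg.Agent.Helper91.NormEnum
import Cfsg.Agent.Helper91.OctTrans
import Cfsg.Agent.Helper91.Objects

set_option autoImplicit false
set_option maxRecDepth 100000
set_option linter.unusedSimpArgs false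

namespace Cfsg.Agent.Helper91.Idx23

open Cfsg Cfsg.Agent.Helper91
open scoped Pointwise

/-- The stabilizer in `M23` of a set of 9 points. Levels of the stabilizer chain (base 1, 2, 0; orbit lengths 14, 12, 2). -/

def n7Levels : List Level := [
  ⟨[.sub 0, .compl 0, .sub 8388608, .compl 8388608, .compl 5722129, .and 8388607 11055086],
    2666478, 1,
    [[0, 1, 2, 3, 4, 5, 6, 7, 8, 9, 10, 11, 12, 13, 14, 15, 16, 17, 18, 19, 20, 21, 22, 23],
     [14, 2, 15, 10, 4, 11, 21, 1, 9, 6, 5, 3, 16, 19, 18, 7, 12, 17, 22, 13, 20, 8, 0, 23],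
     [17, 3, 15, 5, 4, 7, 11, 1, 13, 2, 19, 6, 12, 10, 18, 21, 0, 22, 14, 8, 20, 9, 16, 23],
     [12, 5, 19, 1, 20, 10, 7, 13, 6, 8, 11, 2, 18, 3, 0, 9, 22, 16, 17, 21, 4, 15, 14, 23],
     [17, 6, 1, 8, 4, 7, 21, 15, 19, 2, 13, 3, 16, 9, 18, 11, 0, 14, 22, 5, 20, 10, 12, 23],
     [22, 7, 1, 11, 4, 10, 9, 15, 21, 8, 3, 5, 16, 19, 0, 2, 12, 17, 14, 13, 20, 6, 18, 23],
     [16, 8, 13, 15, 20, 9, 7, 19, 3, 5, 21, 2, 18, 6, 0, 10, 14, 12, 17, 11, 4, 1, 22, 23],
     [22, 9, 15, 2, 4, 3, 13, 1, 10, 21, 8, 19, 12, 11, 16, 5, 18, 14, 17, 6, 20, 7, 0, 23],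
     [14, 10, 9, 3, 20, 11, 19, 5, 1, 6, 15, 13, 17, 7, 12, 8, 18, 0, 16, 2, 4, 21, 22, 23],
     [17, 11, 7, 9, 20, 13, 8, 2, 1, 19, 15, 10, 22, 3, 12, 6, 16, 18, 0, 21, 4, 5, 14, 23],
     [0, 13, 9, 15, 20, 8, 11, 5, 2, 10, 7, 6, 18, 3, 12, 19, 22, 16, 14, 21, 4, 1, 17, 23],
     [18, 15, 7, 5, 4, 3, 8, 2, 6, 21, 11, 10, 12, 13, 22, 1, 16, 17, 0, 19, 20, 9, 14, 23],
     [22, 19, 8, 2, 20, 21, 5, 10, 1, 3, 15, 9, 14, 11, 16, 13, 18, 12, 0, 6, 4, 7, 17, 23],
     [17, 21, 2, 9, 4, 1, 8, 7, 13, 15, 19, 10, 12, 6, 22, 3, 14, 18, 0, 11, 20, 5, 16, 23]]⟩,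
  ⟨[.sub 2, .compl 2, .and 2666478 16777213, .cw 13811730 [2666476], .compl 13811730, .and 5722129 13811730,
     .and 5722129 2965485, .and 2666476 13811730, .and 2666476 2965485, .fix 15],
    2633708, 2,
    [[0, 1, 2, 3, 4, 5, 6, 7, 8, 9, 10, 11, 12, 13, 14, 15, 16, 17, 18, 19, 20, 21, 22, 23],
     [16, 1, 3, 6, 4, 19, 2, 21, 9, 13, 5, 7, 0, 8, 17, 15, 12, 22, 18, 10, 20, 11, 14, 23],
     [16, 1, 5, 7, 4, 21, 8, 9, 19, 3, 13, 10, 12, 11, 22, 15, 18, 14, 0, 6, 20, 2, 17, 23],
     [12, 1, 6, 2, 4, 10, 3, 11, 13, 8, 19, 21, 16, 9, 22, 15, 0, 14, 18, 5, 20, 7, 17, 23],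
     [18, 1, 7, 8, 4, 6, 5, 2, 3, 11, 21, 9, 16, 19, 14, 15, 12, 17, 0, 13, 20, 10, 22, 23],
     [12, 1, 8, 5, 4, 13, 7, 10, 11, 19, 6, 2, 18, 3, 17, 15, 16, 22, 0, 21, 20, 9, 14, 23],
     [0, 1, 9, 19, 4, 8, 21, 5, 7, 10, 2, 3, 18, 6, 22, 15, 12, 14, 16, 11, 20, 13, 17, 23],
     [0, 1, 10, 11, 4, 7, 13, 8, 5, 2, 9, 19, 16, 21, 17, 15, 18, 22, 12, 3, 20, 6, 14, 23],
     [18, 1, 11, 13, 4, 3, 10, 6, 2, 21, 7, 8, 0, 5, 22, 15, 16, 14, 12, 9, 20, 19, 17, 23],
     [16, 1, 13, 10, 4, 9, 11, 19, 21, 5, 3, 6, 18, 2, 14, 15, 0, 17, 12, 7, 20, 8, 22, 23],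
     [12, 1, 19, 21, 4, 11, 9, 13, 10, 6, 8, 5, 0, 7, 14, 15, 18, 17, 16, 2, 20, 3, 22, 23],
     [18, 1, 21, 9, 4, 2, 19, 3, 6, 7, 11, 13, 12, 10, 17, 15, 0, 22, 16, 8, 20, 5, 14, 23]]⟩,
  ⟨[.sub 4, .compl 4, .and 2633708 16777211, .cw 8622214 [2633704], .compl 8622214, .and 5390352 8622214,
     .and 5390352 8155001, .fix 17, .and 331777 8622214, .and 331777 8155001, .and 2633704 8622214,
     .and 2633704 8155001, .fix 7],
    262145, 0,
    [[0, 1, 2, 3, 4, 5, 6, 7, 8, 9, 10, 11, 12, 13, 14, 15, 16, 17, 18, 19, 20, 21, 22, 23],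
     [18, 1, 2, 9, 20, 21, 10, 7, 11, 3, 6, 8, 12, 19, 22, 15, 16, 17, 0, 13, 4, 5, 14, 23]]⟩]

/-- The stabilizer in `M23` of a set of 9 points. Final rigidity certificate. -/

def n7Fin : List Step :=
  [.sub 1, .compl 1, .and 262145 16777214, .fix 18, .cw 14254209 [2633576], .compl 14254209,
   .and 5259280 14254209, .and 5259280 2523006, .and 69632 14254209, .and 69632 2523006, .fix 16, .fix 12,
   .and 2633576 14254209, .and 2633576 2523006, .fix 19, .cw 13262980 [2109288], .compl 13262980,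
   .and 5242880 13262980, .and 5242880 3514235, .fix 22, .fix 20, .and 16400 13262980, .and 16400 3514235,
   .fix 14, .fix 4, .and 2109288 13262980, .and 2109288 3514235, .fix 13, .cw 16262146 [2101096],
   .compl 16262146, .and 2101096 16262146, .and 2101096 515069, .cw 16056344 [2920], .compl 16056344,
   .and 2098176 16056344, .and 2098176 720871, .fix 21, .fix 10, .and 2920 16056344, .and 2920 720871, .fix 3,
   .cw 15864000 [], .compl 15864000, .and 2912 15864000, .and 2912 913215, .fix 6, .cw 15762208 [],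
   .compl 15762208, .and 2848 15762208, .and 2848 1015007, .fix 11, .cw 15335473 [], .compl 15335473,
   .and 800 15335473, .and 800 1441742, .fix 5, .cw 15274244 [], .compl 15274244, .and 768 15274244,
   .and 768 1502971, .fix 8, .fix 9]

theorem n7_chain_ok : checkChain [5722129] 8388608 8388608 [5722129] n7Levels n7Fin = true := by
  decide +kernel

/-- The stabilizer in `M23` of the set of 9 points has order 336. -/
theorem card_G9 : Nat.card (stabSub 8388608 [5722129]) = 336 := by
  rw [chain_card [5722129] n7Levels 8388608 8388608 [5722129] n7Fin n7_chain_ok (fun g hg => ⟨hg.2.1, hg.2.2⟩)]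
  decide +kernel

/-- Table of an element `s7` of order 7 of `M23`. -/
def s7T : List Nat := [16, 6, 21, 1, 4, 13, 8, 3, 9, 19, 5, 10, 0, 2, 12, 11, 17, 18, 22, 7, 20, 15, 14, 23]

/-- Table of an involution `z` of `M23` centralizing `s7`. -/
def zT : List Nat := [0, 15, 7, 21, 20, 9, 11, 2, 10, 5, 8, 6, 12, 19, 14, 1, 16, 17, 18, 13, 4, 3, 22, 23]

/-- Tables of the powers of `s7`. -/
def s7K : List (List Nat) :=
  [[0, 1, 2, 3, 4, 5, 6, 7, 8, 9, 10, 11, 12, 13, 14, 15, 16, 17, 18, 19, 20, 21, 22, 23],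
   [16, 6, 21, 1, 4, 13, 8, 3, 9, 19, 5, 10, 0, 2, 12, 11, 17, 18, 22, 7, 20, 15, 14, 23],
   [17, 8, 15, 6, 4, 2, 9, 1, 19, 7, 13, 5, 16, 21, 0, 10, 18, 22, 14, 3, 20, 11, 12, 23],
   [18, 9, 11, 8, 4, 21, 19, 6, 7, 3, 2, 13, 17, 15, 16, 5, 22, 14, 12, 1, 20, 10, 0, 23],
   [22, 19, 10, 9, 4, 15, 7, 8, 3, 1, 21, 2, 18, 11, 17, 13, 14, 12, 0, 6, 20, 5, 16, 23],
   [14, 7, 5, 19, 4, 11, 3, 9, 1, 6, 15, 21, 22, 10, 18, 2, 12, 0, 16, 8, 20, 13, 17, 23],
   [12, 3, 13, 7, 4, 10, 1, 19, 6, 8, 11, 15, 14, 5, 22, 21, 0, 16, 17, 9, 20, 2, 18, 23]]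

/-- The packed tables of the normalizer of `⟨s7⟩` in `M23`. -/
def n7L : List Nat :=
  [984818244535754528103549039458486304, 976704560408059524845386626941692000, 977496368913954953236705003677656480, 984067557695403189637163205127740896, 978083845738772213966019789137679968, 976928221510156755612225277633405600, 955753625888510620288412636818872396, 978854818675735712677623528400598124, 976278680949531276981011792066683052, 955610935967634200146742210139041004, 977029328175121374750127608914094380, 979037201905163675473226244665986732, 978226101749167310981737733079606350, 978002916015175808134487977077871854, 955489880056475562391510305174957326, 955672184058345547485989647117523278, 971289208823308098886015993526945198, 971390818941505785494643818868522606, 977556604518040524106100881808921648, 978997027092804191765359735857335376, 974189791525966779788752552177226960, 979219579001118382231624221372658928, 973601403576865885425971171468742000, 977739344274350585222562644723049968,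 984371494292576027531479270820153457, 979625509260119976761311869765006545, 971431215615925013749824740630150417, 971208822163671251958375640407049553, 978875139332758410923903894720007537, 984270280314283849727386252852141745, 973784175654682861560319534199788594, 955712820761521043958993154245728434, 984574457581493053647361975376709906, 955813678212251103019701703358557490, 983986109246586716582721111823195474, 973926231749541958894940533895106034, 973804658392719823861669942484372662, 971512586340802840346964321637088470, 974028002582696197776497668356527414, 971735534389929233286118536263402870, 976522399616598653942044352734994870, 976380224678740317304105510153529974]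

theorem s7T_valid : validTab s7T = true := by decide
theorem zT_valid : validTab zT = true := by decide

/-- An element of order 7 of `M23`. -/
noncomputable def s7 : Equiv.Perm GolayPt := permT s7T s7T_valid

/-- An involution of `M23` centralizing `s7`. -/
noncomputable def z : Equiv.Perm GolayPt := permT zT zT_valid

theorem s7_apply (p : GolayPt) : s7 p = pt (s7T.getD (idx p) 0) := rfl
theorem z_apply (p : GolayPt) : z p = pt (zT.getD (idx p) 0) := rfl

theorem s7_pow_seven : s7 ^ 7 = 1 := Equiv.ext (by decide)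

theorem s7_ne_one : s7 ≠ 1 := fun h => absurd (congrArg (fun f : Equiv.Perm GolayPt => f (pt 0)) h) (by decide)

theorem orderOf_s7 : orderOf s7 = 7 := by
  have : Fact (Nat.Prime 7) := ⟨by norm_num⟩
  exact orderOf_eq_prime s7_pow_seven s7_ne_one

theorem s7_pow_tab : ∀ k < 7, ∃ K ∈ s7K, (∀ i < 24, K.getD i 0 < 24) ∧
    ∀ p, (s7 ^ k) p = pt (K.getD (idx p) 0) := by
  intro k hk
  interval_cases k
  · exact ⟨s7K.getD 0 [], by decide, by decide, by decide⟩
  · exact ⟨s7K.getD 1 [], by decide, by decide, by decide⟩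
  · exact ⟨s7K.getD 2 [], by decide, by decide, by decide⟩
  · exact ⟨s7K.getD 3 [], by decide, by decide, by decide⟩
  · exact ⟨s7K.getD 4 [], by decide, by decide, by decide⟩
  · exact ⟨s7K.getD 5 [], by decide, by decide, by decide⟩
  · exact ⟨s7K.getD 6 [], by decide, by decide, by decide⟩

theorem s7_fix : ∀ k < 7, 0 < k → ∀ q, (s7 ^ k) q = q → s7 q = q := by decide

/-- The group `M23`, as the stabilizer of the point `∞`. -/
abbrev M : Subgroup (Equiv.Perm GolayPt) := stabSub 8388608 []

theorem fix_M {g : Equiv.Perm GolayPt} (hg : g ∈ M) : g none = none :=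
  hg.2.1 none (by decide)

theorem mem_M {g : Equiv.Perm GolayPt} (h24 : g ∈ M24) (h1 : g none = none) : g ∈ M := by
  refine ⟨h24, ?_, fun I hI => absurd hI List.not_mem_nil⟩
  have key : ∀ r : GolayPt, (8388608 : Nat).testBit (idx r) = true → r = none := by decide
  intro r hr
  rw [key r hr]
  exact h1

theorem s7_mem_M : s7 ∈ M := mem_M (permT_mem_M24 _ (by decide +kernel)) (by decide)

theorem z_mem_M : z ∈ M := mem_M (permT_mem_M24 _ (by decide +kernel)) (by decide)

theorem z_s7 : z * s7 = s7 ^ 1 * z := Equiv.ext (by decide)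

theorem z_four : z (pt 4) = pt 20 := by decide

/-- `⟨s7⟩` is transitive on its first 7-cycle. -/
theorem trans_C1 : ∀ q p : GolayPt, (4673537 : Nat).testBit (idx q) = true ∧
    (4673537 : Nat).testBit (idx p) = true → ∃ i < 7, (s7 ^ i) q = p := by
  decide

/-- `⟨s7, z⟩` is transitive on the union of the other two 7-cycles of `s7`. -/
theorem trans_C23 : ∀ q p : GolayPt, (2666478 : Nat).testBit (idx q) = true ∧
    (2666478 : Nat).testBit (idx p) = true → ∃ i < 7, ∃ j < 2, (s7 ^ i * z ^ j) q = p := by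
  decide

/-- The orbits of `⟨s7, z⟩`. -/
theorem pt_cases : ∀ p : GolayPt, p = none ∨ (1048592 : Nat).testBit (idx p) = true ∨
    (4673537 : Nat).testBit (idx p) = true ∨ (2666478 : Nat).testBit (idx p) = true := by
  decide

theorem mab_cases : ∀ p : GolayPt, (1048592 : Nat).testBit (idx p) = true → p = pt 4 ∨ p = pt 20 := by
  decide

theorem m9_iff : ∀ p : GolayPt, (5722129 : Nat).testBit (idx p) = true ↔
    ((1048592 : Nat).testBit (idx p) = true ∨ (4673537 : Nat).testBit (idx p) = true) := by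
  decide

theorem m16_iff : ∀ p : GolayPt, (3715070 : Nat).testBit (idx p) = true ↔
    ((1048592 : Nat).testBit (idx p) = true ∨ (2666478 : Nat).testBit (idx p) = true) := by
  decide

/-- The only octad through `∞` invariant under `s7`. -/
theorem oct_unique : ∀ m ∈ Helper26.octL, (m.testBit 23 = true ∧
    (List.range 24).all (fun i => m.testBit (s7T.getD i 0) == m.testBit i) = true) → m = 13062145 := by
  decide +kernel

theorem inv_pow {g : Equiv.Perm GolayPt} {m : Nat} (h : Inv (⇑g) m) (k : ℕ) : Inv (⇑(g ^ k)) m := by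
  induction k with
  | zero => rw [pow_zero]; exact Inv.one _
  | succ n ih => rw [pow_succ]; exact ih.mul h

theorem inv_mab_of_norm {g : Equiv.Perm GolayPt}
    (hn : g ∈ Subgroup.normalizer (Subgroup.zpowers s7 : Set (Equiv.Perm GolayPt))) (hg : g ∈ M) :
    Inv g 1048592 := by
  have h1 : Inv g 9437200 :=
    NormEnum.inv_fix_of_norm s7_pow_seven (by norm_num) s7_ne_one s7_fix (by decide) hn
  have h2 : Inv g (1 <<< 23) := Inv_single_of_fix (i := 23) (fix_M hg)
  exact h1.xor h2

theorem inv_mO1_of_norm {g : Equiv.Perm GolayPt}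
    (hn : g ∈ Subgroup.normalizer (Subgroup.zpowers s7 : Set (Equiv.Perm GolayPt))) (hg : g ∈ M) :
    Inv g 13062145 := by
  obtain ⟨k, -, hcomm⟩ := NormEnum.exists_comm_of_norm s7_pow_seven (inv_mem hn)
  have hcomm' : s7 * g = g * s7 ^ k := by
    have h := congrArg (fun t => g * t * g) hcomm
    simp only [mul_assoc, inv_mul_cancel, mul_one, mul_inv_cancel_left] at h
    exact h
  have hI : Inv (⇑s7) 13062145 := Inv_tabFun s7T_valid (by decide)
  have hIk : Inv (⇑(s7 ^ k)) 13062145 := inv_pow hI k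
  have hSk : s7 ^ k • setM 13062145 = setM 13062145 := (smul_setM_eq_iff _ _).2 hIk
  have hinv : s7 • (g • setM 13062145) = g • setM 13062145 := by
    rw [← mul_smul, hcomm', mul_smul, hSk]
  have hoct : g • setM 13062145 ∈ octads :=
    smul_mem_octads hg.1 ((setM_mem_octads_iff (by norm_num)).2 (by decide))
  have hmL : Helper26.enc (g • setM 13062145) ∈ Helper26.octL := (Helper26.mem_octL_iff _).2 hoct
  have hsm : setM (Helper26.enc (g • setM 13062145)) = g • setM 13062145 := setM_enc _
  generalize Helper26.enc (g • setM 13062145) = m at hmL hsm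
  have hInv : Inv (⇑s7) m := (smul_setM_eq_iff _ _).1 (by rw [hsm]; exact hinv)
  have h23 : m.testBit 23 = true := by
    have h : (none : GolayPt) ∈ setM m := by
      rw [hsm, Finset.mem_smul_finset]
      exact ⟨none, (mem_setM _ _).2 (by decide), fix_M hg⟩
    exact (mem_setM _ _).1 h
  have hall : (List.range 24).all (fun i => m.testBit (s7T.getD i 0) == m.testBit i) = true := by
    rw [List.all_eq_true]
    intro i hi
    have hi' : i < 24 := List.mem_range.1 hi
    have h := hInv (pt i)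
    have e : idx (s7 (pt i)) = s7T.getD i 0 := by
      rw [s7_apply, idx_pt (validTab_lt s7T_valid _), idx_pt hi']
    rw [e, idx_pt hi'] at h
    rw [beq_iff_eq]
    exact h
  have hm' := oct_unique m hmL ⟨h23, hall⟩
  rw [hm'] at hsm
  exact (smul_setM_eq_iff _ _).1 hsm.symm

theorem norm_s7_le : Subgroup.normalizer (Subgroup.zpowers s7 : Set (Equiv.Perm GolayPt)) ⊓ M ≤
    Subgroup.normalizer (Subgroup.zpowers s7 : Set (Equiv.Perm GolayPt)) ⊓ stabSub 8388608 [5722129] := by
  rintro g ⟨hn, hg⟩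
  refine ⟨hn, hg.1, hg.2.1, ?_⟩
  intro I hI
  rw [List.mem_singleton] at hI
  subst hI
  have h1 := inv_mab_of_norm hn hg
  have h2 := inv_mO1_of_norm hn hg
  have h3 : Inv g (1 <<< 23) := Inv_single_of_fix (i := 23) (fix_M hg)
  exact h1.or (h2.xor h3)

theorem n7_all : allProdP (fun P => !(NormEnum.normB s7T s7K P) || n7L.contains P)
    (n7Levels.map (fun lv => lv.tabs)) pkId = true := by
  decide +kernel

theorem card_norm_s7_le {K : Subgroup (Equiv.Perm GolayPt)} (hK : K ≤ M) :
    Nat.card ↥(Subgroup.normalizer (Subgroup.zpowers s7 : Set (Equiv.Perm GolayPt)) ⊓ K) ≤ 42 :=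
  NormEnum.card_norm_le s7_pow_seven (by norm_num) s7_apply (by decide) s7_pow_tab n7_chain_ok
    (fun g hg => ⟨hg.2.1, hg.2.2⟩) n7_all _ (le_trans (inf_le_inf_left _ hK) norm_s7_le)

end Cfsg.Agent.Helper91.Idx23
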