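/-
Helper91: the subgroups `23:11` and `L₂(23)` of `Cfsg.M24` generated by `t ↦ t + 1`, `t ↦ u t` (`u` a square)
and `t ↦ -1/t`.  Part a: the affine group `23:11` has order 253 and is the normalizer in the point stabilizer
of the group generated by the translation.
-/
import Cfsg.Agent.Helper91.Words
import Cfsg.Agent.Helper91.StabCard
import Cfsg.Agent.S0370
import Cfsg.Agent.S0371
import Cfsg.Agent.S0372

set_option autoImplicit false

namespace Cfsg.Agent.Helper91.PSL23

open Cfsg Cfsg.Agent.Helper91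

/-- The translation `t ↦ t + 1`. -/
def tau : Equiv.Perm GolayPt := Equiv.optionCongr (Equiv.addRight (1 : ZMod 23))

/-- The multiplication `t ↦ u t`. -/
def mulU (u : (ZMod 23)ˣ) : Equiv.Perm GolayPt := Equiv.optionCongr (Units.mulLeft u)

/-- The unit `2`. -/
def two : (ZMod 23)ˣ := ⟨2, 12, by decide, by decide⟩

/-- The unit `5`. -/
def five : (ZMod 23)ˣ := ⟨5, 14, by decide, by decide⟩

/-- The multiplication `t ↦ 2 t`, of order 11. -/
def sigma : Equiv.Perm GolayPt := mulU two

/-- The multiplications by the squares. -/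
def sqSet : Set (Equiv.Perm GolayPt) :=
  {g | ∃ u : (ZMod 23)ˣ, IsSquare u ∧ g = Equiv.optionCongr (Units.mulLeft u)}

/-- The group `23:11`. -/
def A : Subgroup (Equiv.Perm GolayPt) := Subgroup.closure ({tau} ∪ sqSet)

/-- The group `L₂(23)`. -/
def L : Subgroup (Equiv.Perm GolayPt) := Subgroup.closure ({tau, projInv} ∪ sqSet)

/-- The stabilizer of the point at infinity in `M24`. -/
def M23 : Subgroup (Equiv.Perm GolayPt) :=
  M24 ⊓ MulAction.stabilizer (Equiv.Perm GolayPt) (none : GolayPt)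

theorem tau_some (x : ZMod 23) : tau (some x) = some (x + 1) := rfl
theorem tau_none : tau none = none := rfl
theorem mulU_some (u : (ZMod 23)ˣ) (x : ZMod 23) : mulU u (some x) = some (u * x) := rfl
theorem mulU_none (u : (ZMod 23)ˣ) : mulU u none = none := rfl
theorem sigma_some (x : ZMod 23) : sigma (some x) = some (2 * x) := rfl
theorem sigma_none : sigma none = none := rfl

theorem tau_pow (n : ℕ) (x : ZMod 23) : (tau ^ n) (some x) = some (x + n) := by
  induction n generalizing x with
  | zero => simp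
  | succ n ih =>
    rw [pow_succ, Equiv.Perm.mul_apply, tau_some, ih]
    congr 1
    push_cast; ring

theorem tau_pow_none (n : ℕ) : (tau ^ n) none = none := by
  induction n with
  | zero => simp
  | succ n ih => rw [pow_succ, Equiv.Perm.mul_apply, tau_none, ih]

theorem sigma_pow (n : ℕ) (x : ZMod 23) : (sigma ^ n) (some x) = some (2 ^ n * x) := by
  induction n generalizing x with
  | zero => simp
  | succ n ih =>
    rw [pow_succ, Equiv.Perm.mul_apply, sigma_some, ih]
    congr 1
    ring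

theorem sigma_pow_none (n : ℕ) : (sigma ^ n) none = none := by
  induction n with
  | zero => simp
  | succ n ih => rw [pow_succ, Equiv.Perm.mul_apply, sigma_none, ih]

theorem tau_pow_23 : tau ^ 23 = 1 := by
  refine Equiv.ext fun p => ?_
  cases p with
  | none => rw [tau_pow_none]; rfl
  | some x =>
    rw [tau_pow]
    have : ((23 : ℕ) : ZMod 23) = 0 := by decide
    rw [this, add_zero]; rfl

theorem tau_ne_one : tau ≠ 1 := by
  intro h
  have h2 : tau (some 0) = some 0 := by rw [h]; rfl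
  rw [tau_some] at h2
  exact absurd h2 (by decide)

theorem orderOf_tau : orderOf tau = 23 := by
  have : Fact (Nat.Prime 23) := ⟨by norm_num⟩
  exact orderOf_eq_prime tau_pow_23 tau_ne_one

theorem sigma_pow_11 : sigma ^ 11 = 1 := by
  refine Equiv.ext fun p => ?_
  cases p with
  | none => rw [sigma_pow_none]; rfl
  | some x =>
    rw [sigma_pow]
    have : (2 : ZMod 23) ^ 11 = 1 := by decide
    rw [this, one_mul]; rfl

theorem sigma_ne_one : sigma ≠ 1 := by
  intro h
  have h2 : sigma (some 1) = some 1 := by rw [h]; rfl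
  rw [sigma_some] at h2
  exact absurd h2 (by decide)

theorem orderOf_sigma : orderOf sigma = 11 := by
  have : Fact (Nat.Prime 11) := ⟨by norm_num⟩
  exact orderOf_eq_prime sigma_pow_11 sigma_ne_one

/-! ## Normalizers of cyclic groups -/

theorem mem_zpowers_nat {g h : Equiv.Perm GolayPt} (hg : g ∈ Subgroup.zpowers h) : ∃ n : ℕ, h ^ n = g := by
  rw [← mem_powers_iff_mem_zpowers] at hg
  exact (Submonoid.mem_powers_iff _ _).1 hg

theorem mem_normalizer_of_conj {ρ g : Equiv.Perm GolayPt} {k : ℕ} (h : g * ρ = ρ ^ k * g) :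
    g ∈ Subgroup.normalizer (Subgroup.zpowers ρ : Set (Equiv.Perm GolayPt)) := by
  apply Subgroup.mem_normalizer_fintype
  intro n hn
  obtain ⟨i, rfl⟩ := mem_zpowers_nat hn
  have h' : g * ρ * g⁻¹ = ρ ^ k := by rw [h, mul_inv_cancel_right]
  rw [← conj_pow, h', ← pow_mul]
  exact Subgroup.pow_mem _ (Subgroup.mem_zpowers ρ) _

/-- An element normalizing `⟨ρ⟩` and fixing `p` and `ρ p` commutes with `ρ`, if `ρ` acts freely on the
orbit of `p`. -/
theorem commute_of_normalizer {ρ x : Equiv.Perm GolayPt}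
    (hx : x ∈ Subgroup.normalizer (Subgroup.zpowers ρ : Set (Equiv.Perm GolayPt))) (p : GolayPt)
    (hp : x p = p) (hp' : x (ρ p) = ρ p) (hfree : ∀ n : ℕ, (ρ ^ n) p = ρ p → ρ ^ n = ρ) :
    x * ρ = ρ * x := by
  have h1 : x * ρ * x⁻¹ ∈ Subgroup.zpowers ρ :=
    (Subgroup.mem_normalizer_iff.1 hx ρ).1 (Subgroup.mem_zpowers ρ)
  obtain ⟨n, hn⟩ := mem_zpowers_nat h1
  have hxi : x⁻¹ p = p := by
    rw [Equiv.Perm.inv_eq_iff_eq, hp]
  have h2 : (ρ ^ n) p = ρ p := by
    rw [hn, Equiv.Perm.mul_apply, Equiv.Perm.mul_apply, hxi, hp']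
  rw [hfree n h2] at hn
  calc x * ρ = (x * ρ * x⁻¹) * x := by group
    _ = ρ * x := by rw [← hn]

theorem fix_pow_of_commute {ρ x : Equiv.Perm GolayPt} (h : x * ρ = ρ * x) (q : GolayPt) (hq : x q = q)
    (n : ℕ) : x ((ρ ^ n) q) = (ρ ^ n) q := by
  induction n with
  | zero => simpa using hq
  | succ n ih =>
    rw [pow_succ', Equiv.Perm.mul_apply, ← Equiv.Perm.mul_apply x ρ, h, Equiv.Perm.mul_apply, ih]

theorem tau_free (n : ℕ) (h : (tau ^ n) (some 0) = tau (some 0)) : tau ^ n = tau := by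
  rw [tau_pow, tau_some] at h
  have h' : ((n : ℕ) : ZMod 23) = 1 := by
    have := Option.some.inj h
    rwa [zero_add, zero_add] at this
  refine Equiv.ext fun p => ?_
  cases p with
  | none => rw [tau_pow_none]; rfl
  | some x => rw [tau_pow, tau_some, h']

theorem sigma_free (n : ℕ) (h : (sigma ^ n) (some 1) = sigma (some 1)) : sigma ^ n = sigma := by
  rw [sigma_pow, sigma_some] at h
  have h' : (2 : ZMod 23) ^ n = 2 := by
    have := Option.some.inj h
    rwa [mul_one, mul_one] at this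
  refine Equiv.ext fun p => ?_
  cases p with
  | none => rw [sigma_pow_none]; rfl
  | some x => rw [sigma_pow, sigma_some, h']

/-! ## The affine group -/

/-- The normalizer of the translation group in the stabilizer of infinity. -/
def AGL : Subgroup (Equiv.Perm GolayPt) :=
  Subgroup.normalizer (Subgroup.zpowers tau : Set (Equiv.Perm GolayPt)) ⊓
    MulAction.stabilizer (Equiv.Perm GolayPt) (none : GolayPt)

theorem eq_one_of_AGL {x : Equiv.Perm GolayPt} (hx : x ∈ AGL) (h0 : x (some 0) = some 0)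
    (h1 : x (some 1) = some 1) : x = 1 := by
  have hc : x * tau = tau * x :=
    commute_of_normalizer hx.1 (some 0) h0 (by rw [tau_some, zero_add]; exact h1) tau_free
  refine Equiv.ext fun p => ?_
  cases p with
  | none => exact hx.2
  | some y =>
    have := fix_pow_of_commute hc (some 0) h0 y.val
    rw [tau_pow, zero_add, ZMod.natCast_zmod_val] at this
    exact this

theorem card_AGL_le : Nat.card AGL ≤ 576 := by
  let f : AGL → GolayPt × GolayPt := fun g => (g.1 (some 0), g.1 (some 1))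
  have hf : Function.Injective f := by
    intro g h e
    have e0 : g.1 (some 0) = h.1 (some 0) := congrArg Prod.fst e
    have e1 : g.1 (some 1) = h.1 (some 1) := congrArg Prod.snd e
    have hx : h.1⁻¹ * g.1 ∈ AGL := mul_mem (inv_mem h.2) g.2
    have := eq_one_of_AGL hx (by rw [Equiv.Perm.mul_apply, e0]; simp)
      (by rw [Equiv.Perm.mul_apply, e1]; simp)
    apply Subtype.ext
    exact (inv_mul_eq_one.1 this).symm
  have h24 : Nat.card GolayPt = 24 := by rw [Nat.card_eq_fintype_card]; rfl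
  have := Nat.card_le_card_of_injective f hf
  rwa [Nat.card_prod, h24] at this

/-- Negation `t ↦ -t`. -/
def neg : Equiv.Perm GolayPt := Equiv.optionCongr (Equiv.neg (ZMod 23))

theorem neg_some (x : ZMod 23) : neg (some x) = some (-x) := rfl
theorem neg_none : neg none = none := rfl

theorem neg_mem_AGL : neg ∈ AGL := by
  refine ⟨mem_normalizer_of_conj (k := 22) ?_, neg_none⟩
  refine Equiv.ext fun p => ?_
  cases p with
  | none => rw [Equiv.Perm.mul_apply, Equiv.Perm.mul_apply, tau_none, neg_none, tau_pow_none]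
  | some x =>
    rw [Equiv.Perm.mul_apply, Equiv.Perm.mul_apply, tau_some, neg_some, neg_some, tau_pow]
    have : ((22 : ℕ) : ZMod 23) = -1 := by decide
    rw [this]
    congr 1; ring

theorem neg_not_mem : neg ∉ M24 := by
  intro h
  have h1 : toWord 340831 ∈ golayCode := (toWord_mem_iff26 (by norm_num)).2 (by decide)
  have h2 := comp_mem_of_mem_M24 h h1
  have h3 : toWord 340831 ∘ ⇑neg = toWord 8047777 := by
    funext p
    revert p
    decide
  rw [h3, toWord_mem_iff26 (by norm_num)] at h2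
  revert h2
  decide

theorem tau_mem_M24 : tau ∈ M24 := Cfsg.Agent.S0370.result

theorem mulU_mem_M24 {u : (ZMod 23)ˣ} (hu : IsSquare u) : mulU u ∈ M24 := Cfsg.Agent.S0371.result u hu

theorem projInv_mem_M24 : projInv ∈ M24 := Cfsg.Agent.S0372.result

theorem tau_mem_AGL : tau ∈ AGL :=
  ⟨Subgroup.le_normalizer (Subgroup.mem_zpowers tau), tau_none⟩

theorem mulU_mem_AGL (u : (ZMod 23)ˣ) : mulU u ∈ AGL := by
  refine ⟨mem_normalizer_of_conj (k := (u : ZMod 23).val) ?_, mulU_none u⟩
  refine Equiv.ext fun p => ?_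
  cases p with
  | none => rw [Equiv.Perm.mul_apply, Equiv.Perm.mul_apply, tau_none, mulU_none, tau_pow_none]
  | some x =>
    rw [Equiv.Perm.mul_apply, Equiv.Perm.mul_apply, tau_some, mulU_some, mulU_some, tau_pow,
      ZMod.natCast_zmod_val]
    congr 1; ring

theorem A_le : A ≤ AGL ⊓ M24 := by
  rw [A, Subgroup.closure_le]
  rintro g (hg | ⟨u, hu, rfl⟩)
  · rw [Set.mem_singleton_iff] at hg
    subst hg
    exact ⟨tau_mem_AGL, tau_mem_M24⟩
  · exact ⟨mulU_mem_AGL u, mulU_mem_M24 hu⟩

theorem tau_mem_A : tau ∈ A := Subgroup.subset_closure (Or.inl rfl)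

theorem sigma_mem_A : sigma ∈ A := by
  apply Subgroup.subset_closure
  refine Or.inr ⟨two, ⟨five, ?_⟩, rfl⟩
  apply Units.ext
  decide

theorem dvd_card_A : 253 ∣ Nat.card A := by
  have h1 : 23 ∣ Nat.card A := orderOf_tau ▸ Subgroup.orderOf_dvd_natCard A tau_mem_A
  have h2 : 11 ∣ Nat.card A := orderOf_sigma ▸ Subgroup.orderOf_dvd_natCard A sigma_mem_A
  exact Nat.Coprime.mul_dvd_of_dvd_of_dvd (by norm_num) h1 h2

theorem card_N1_le : Nat.card ↥(AGL ⊓ M24) ≤ 288 := by
  have hle : AGL ⊓ M24 ≤ AGL := inf_le_left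
  obtain ⟨t, ht⟩ := Subgroup.card_dvd_of_le hle
  have hpos : 0 < Nat.card AGL := Nat.card_pos
  have ht1 : t ≠ 1 := by
    rintro rfl
    have : AGL ⊓ M24 = AGL := Subgroup.eq_of_le_of_card_ge hle (by rw [ht, mul_one])
    have hmem : neg ∈ AGL ⊓ M24 := by rw [this]; exact neg_mem_AGL
    exact neg_not_mem hmem.2
  have ht0 : t ≠ 0 := by
    rintro rfl
    rw [mul_zero] at ht; omega
  have := card_AGL_le
  have h2 : 2 ≤ t := by omega
  nlinarith [Nat.mul_le_mul_left (Nat.card ↥(AGL ⊓ M24)) h2]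

theorem card_A : Nat.card A = 253 := by
  obtain ⟨j, hj⟩ := dvd_card_A
  obtain ⟨t, ht⟩ := Subgroup.card_dvd_of_le A_le
  have h1 := card_N1_le
  have hpos : 0 < Nat.card A := Nat.card_pos
  rw [ht, hj] at h1
  have hj0 : j ≠ 0 := by rintro rfl; omega
  have hposN : 0 < Nat.card ↥(AGL ⊓ M24) := Nat.card_pos
  have ht0 : t ≠ 0 := by
    rintro rfl
    rw [mul_zero] at ht; omega
  have hj1 : j = 1 := by
    by_contra hne
    have : 2 ≤ j := by omega
    have : 1 ≤ t := by omega
    nlinarith
  rw [hj, hj1]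

theorem A_eq : A = AGL ⊓ M24 := by
  apply Subgroup.eq_of_le_of_card_ge A_le
  obtain ⟨t, ht⟩ := Subgroup.card_dvd_of_le A_le
  have h1 := card_N1_le
  rw [ht, card_A] at h1 ⊢
  have : t ≤ 1 := by omega
  nlinarith

theorem A_le_M23 : A ≤ M23 := fun _ hg => ⟨(A_le hg).2, (A_le hg).1.2⟩

end Cfsg.Agent.Helper91.PSL23

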