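/-
Helper91: `23:11` and `L₂(23)` in `Cfsg.M24`.  Part b: the normalizer of the group of order 11 generated by
`t ↦ 2 t` in the stabilizer of `∞` and `0` has at most 55 elements and no involutions (checked enumeration).
-/
import Cfsg.Agent.Helper91.PSL23a

set_option autoImplicit false

namespace Cfsg.Agent.Helper91.PSL23

open Cfsg Cfsg.Agent.Helper91

/-- The normalizer of `⟨sigma⟩` in the stabilizer of `∞` and `0` in `M24`. -/
def N2 : Subgroup (Equiv.Perm GolayPt) :=
  Subgroup.normalizer (Subgroup.zpowers sigma : Set (Equiv.Perm GolayPt)) ⊓ M24 ⊓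
    MulAction.stabilizer (Equiv.Perm GolayPt) (none : GolayPt) ⊓
    MulAction.stabilizer (Equiv.Perm GolayPt) (some 0 : GolayPt)

/-- `2 ^ e * a` modulo 23 on indices (`23` is the point at infinity). -/
def mulm (e a : Nat) : Nat := if a < 23 then (2 ^ e * a) % 23 else 23

/-- Type and discrete logarithm of an index: `(1, i)` for `2 ^ i`, `(2, i)` for `2 ^ i * 5`, `(0, 0)` for `0`,
`(3, 0)` for infinity. -/
def dl : Nat → Nat × Nat
  | 0 => (0, 0)
  | 1 => (1, 0) | 2 => (1, 1) | 4 => (1, 2) | 8 => (1, 3) | 16 => (1, 4) | 9 => (1, 5)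
  | 18 => (1, 6) | 13 => (1, 7) | 3 => (1, 8) | 6 => (1, 9) | 12 => (1, 10)
  | 5 => (2, 0) | 10 => (2, 1) | 20 => (2, 2) | 17 => (2, 3) | 11 => (2, 4) | 22 => (2, 5)
  | 21 => (2, 6) | 19 => (2, 7) | 15 => (2, 8) | 7 => (2, 9) | 14 => (2, 10)
  | _ => (3, 0)

/-- The candidate normalizing map: `σ ↦ σ ^ k`, `1 ↦ a`, `5 ↦ b`. -/
def candF (k a b j : Nat) : Nat :=
  match dl j with
  | (0, _) => 0
  | (1, i) => mulm (k * i) a
  | (2, i) => mulm (k * i) b
  | _ => 23

/-- The candidate table. -/
def candT (k a b : Nat) : List Nat := (List.range 24).map (candF k a b)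

theorem mulm_lt (e a : Nat) : mulm e a < 24 := by
  unfold mulm
  split
  · have := Nat.mod_lt (2 ^ e * a) (show 0 < 23 by norm_num)
    omega
  · norm_num

theorem candF_lt (k a b j : Nat) : candF k a b j < 24 := by
  unfold candF
  split
  · norm_num
  · exact mulm_lt _ _
  · exact mulm_lt _ _
  · norm_num

theorem candT_length (k a b : Nat) : (candT k a b).length = 24 := by
  simp [candT]

theorem candT_getD (k a b : Nat) {i : Nat} (hi : i < 24) : (candT k a b).getD i 0 = candF k a b i := by
  have h : i < (candT k a b).length := by rw [candT_length]; exact hi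
  rw [List.getD_eq_getElem _ _ h]
  simp [candT]

theorem sigma_pow_pt (e a : Nat) : (sigma ^ e) (pt a) = pt (mulm e a) := by
  unfold mulm
  by_cases h : a < 23
  · rw [if_pos h]
    have h2 : (2 ^ e * a) % 23 < 23 := Nat.mod_lt _ (by norm_num)
    rw [pt, pt, if_pos h, if_pos h2, sigma_pow, ZMod.natCast_mod]
    push_cast
    rfl
  · rw [if_neg h, pt, if_neg h, sigma_pow_none]
    rfl

theorem dl_spec : ∀ x : ZMod 23, x ≠ 0 →
    ∃ i, i < 11 ∧ ((x = 2 ^ i ∧ dl x.val = (1, i)) ∨ (x = 2 ^ i * 5 ∧ dl x.val = (2, i))) := by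
  decide

/-- A table of a permutation is valid. -/
theorem validTab_of_perm (g : Equiv.Perm GolayPt) {T : List Nat} (hlen : T.length = 24)
    (hlt : ∀ i < 24, T.getD i 0 < 24) (hT : ∀ p, g p = pt (T.getD (idx p) 0)) : validTab T = true := by
  simp only [validTab, Bool.and_eq_true, beq_iff_eq, List.all_eq_true, decide_eq_true_eq, List.mem_range,
    List.contains_iff_mem]
  refine ⟨⟨hlen, ?_⟩, ?_⟩
  · intro j hj
    obtain ⟨i, hi, rfl⟩ := List.mem_iff_getElem.1 hj
    have := hlt i (hlen ▸ hi)
    rwa [List.getD_eq_getElem _ _ hi] at this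
  · intro i hi
    have h1 := hT (g⁻¹ (pt i))
    have h0 : g (g⁻¹ (pt i)) = pt i := by simp
    rw [h0] at h1
    have h2 := congrArg idx h1
    rw [idx_pt hi, idx_pt (hlt _ (idx_lt _))] at h2
    rw [h2]
    have hlt' : idx (g⁻¹ (pt i)) < T.length := hlen ▸ idx_lt _
    rw [List.getD_eq_getElem _ _ hlt']
    exact List.getElem_mem hlt'

theorem basis_isCode : ∀ m ∈ golayBasis, Helper26.isCode m = true ∧ m < 2 ^ 24 := by decide

/-- The check of a table: it preserves the code and is a permutation. -/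
def chk (T : List Nat) : Bool :=
  golayBasis.all (fun m => Helper26.isCode (pullMask T m)) && validTab T

theorem chk_of_perm {g : Equiv.Perm GolayPt} (hg : g ∈ M24) {T : List Nat} (hlen : T.length = 24)
    (hlt : ∀ i < 24, T.getD i 0 < 24) (hT : ∀ p, g p = pt (T.getD (idx p) 0)) : chk T = true := by
  have hv : validTab T = true := validTab_of_perm g hlen hlt hT
  rw [chk, Bool.and_eq_true]
  refine ⟨List.all_eq_true.2 fun m hm => ?_, hv⟩
  obtain ⟨hc, hm24⟩ := basis_isCode m hm
  rw [← toWord_mem_iff26 (pullMask_lt hv m), toWord_pullMask hv]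
  have : tabFun T = ⇑g := funext fun p => (hT p).symm
  rw [this]
  exact comp_mem_of_mem_M24 hg ((toWord_mem_iff26 hm24).2 hc)

/-- The 55 parameter triples of the normalizer. -/
def goodList : List (Nat × Nat × Nat) :=
  [(1, 1, 5), (1, 2, 10), (1, 3, 15), (1, 4, 20), (1, 6, 7), (1, 8, 17), (1, 9, 22), (1, 12, 14), (1, 13, 19),
   (1, 16, 11), (1, 18, 21), (3, 1, 5), (3, 2, 10), (3, 3, 15), (3, 4, 20), (3, 6, 7), (3, 8, 17), (3, 9, 22),
   (3, 12, 14), (3, 13, 19), (3, 16, 11), (3, 18, 21), (4, 1, 5), (4, 2, 10), (4, 3, 15), (4, 4, 20), (4, 6, 7),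
   (4, 8, 17), (4, 9, 22), (4, 12, 14), (4, 13, 19), (4, 16, 11), (4, 18, 21), (5, 1, 5), (5, 2, 10), (5, 3, 15),
   (5, 4, 20), (5, 6, 7), (5, 8, 17), (5, 9, 22), (5, 12, 14), (5, 13, 19), (5, 16, 11), (5, 18, 21), (9, 1, 5),
   (9, 2, 10), (9, 3, 15), (9, 4, 20), (9, 6, 7), (9, 8, 17), (9, 9, 22), (9, 12, 14), (9, 13, 19), (9, 16, 11),
   (9, 18, 21)]

/-- The check of all candidates with a given exponent `k`. -/
def chkK (k : Nat) : Bool :=
  (List.range 24).all fun a => (List.range 24).all fun b =>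
    !(chk (candT k a b)) || goodList.contains (k, a, b)

theorem N2_check_0 : chkK 0 = true := by decide +kernel
theorem N2_check_1 : chkK 1 = true := by decide +kernel
theorem N2_check_2 : chkK 2 = true := by decide +kernel
theorem N2_check_3 : chkK 3 = true := by decide +kernel
theorem N2_check_4 : chkK 4 = true := by decide +kernel
theorem N2_check_5 : chkK 5 = true := by decide +kernel
theorem N2_check_6 : chkK 6 = true := by decide +kernel
theorem N2_check_7 : chkK 7 = true := by decide +kernel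
theorem N2_check_8 : chkK 8 = true := by decide +kernel
theorem N2_check_9 : chkK 9 = true := by decide +kernel
theorem N2_check_10 : chkK 10 = true := by decide +kernel

theorem N2_check : ∀ k < 11, chkK k = true := by
  intro k hk
  interval_cases k
  exacts [N2_check_0, N2_check_1, N2_check_2, N2_check_3, N2_check_4, N2_check_5, N2_check_6, N2_check_7,
    N2_check_8, N2_check_9, N2_check_10]

/-- Every element of the normalizer is given by one of the 55 candidate tables. -/
theorem N2_enum {g : Equiv.Perm GolayPt} (hg : g ∈ N2) :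
    ∃ t ∈ goodList, ∀ p, g p = pt (candF t.1 t.2.1 t.2.2 (idx p)) := by
  obtain ⟨⟨⟨hn, h24⟩, hinf⟩, h0⟩ := hg
  have hinf' : g none = none := hinf
  have h0' : g (some 0) = some 0 := h0
  have h1 : g * sigma * g⁻¹ ∈ Subgroup.zpowers sigma :=
    (Subgroup.mem_normalizer_iff.1 hn sigma).1 (Subgroup.mem_zpowers sigma)
  obtain ⟨n, hn'⟩ := mem_zpowers_nat h1
  have hk : sigma ^ (n % 11) = g * sigma * g⁻¹ := by
    rw [← hn', ← orderOf_sigma, pow_mod_orderOf]
  have hk11 : n % 11 < 11 := Nat.mod_lt _ (by norm_num)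
  generalize n % 11 = k at hk hk11
  have hcomm : g * sigma = sigma ^ k * g := by rw [hk]; group
  have hpow : ∀ (i : ℕ) (q : GolayPt), g ((sigma ^ i) q) = (sigma ^ (k * i)) (g q) := by
    intro i q
    induction i with
    | zero => simp
    | succ i ih =>
      rw [pow_succ', Equiv.Perm.mul_apply, ← Equiv.Perm.mul_apply g sigma, hcomm, Equiv.Perm.mul_apply, ih,
        ← Equiv.Perm.mul_apply, ← pow_add]
      congr 2
      ring
  have ha : g (some 1) = pt (idx (g (some 1))) := (pt_idx _).symm
  have hb : g (some 5) = pt (idx (g (some 5))) := (pt_idx _).symm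
  have ha24 : idx (g (some 1)) < 24 := idx_lt _
  have hb24 : idx (g (some 5)) < 24 := idx_lt _
  generalize idx (g (some 1)) = a at ha ha24
  generalize idx (g (some 5)) = b at hb hb24
  have key : ∀ p, g p = pt (candF k a b (idx p)) := by
    intro p
    cases p with
    | none => rw [hinf']; rfl
    | some x =>
      by_cases hx : x = 0
      · subst hx; rw [h0']; rfl
      · obtain ⟨i, -, ⟨rfl, hdl⟩ | ⟨rfl, hdl⟩⟩ := dl_spec x hx
        · have e1 : (some ((2 : ZMod 23) ^ i) : GolayPt) = (sigma ^ i) (some 1) := by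
            rw [sigma_pow, mul_one]
          rw [e1, hpow, ha, sigma_pow_pt, ← e1]
          show _ = pt (candF k a b ((2 : ZMod 23) ^ i).val)
          unfold candF
          rw [hdl]
          rfl
        · have e1 : (some ((2 : ZMod 23) ^ i * 5) : GolayPt) = (sigma ^ i) (some 5) := by
            rw [sigma_pow]
          rw [e1, hpow, hb, sigma_pow_pt, ← e1]
          show _ = pt (candF k a b ((2 : ZMod 23) ^ i * 5).val)
          unfold candF
          rw [hdl]
          rfl
  have hT : ∀ p, g p = pt ((candT k a b).getD (idx p) 0) := fun p => by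
    rw [candT_getD k a b (idx_lt p)]; exact key p
  have hchk := chk_of_perm h24 (candT_length k a b)
    (fun i hi => by rw [candT_getD k a b hi]; exact candF_lt _ _ _ _) hT
  have h1 := N2_check k hk11
  rw [chkK, List.all_eq_true] at h1
  have h2 := h1 a (List.mem_range.2 ha24)
  rw [List.all_eq_true] at h2
  have h3 := h2 b (List.mem_range.2 hb24)
  rw [hchk] at h3
  have h4 : (k, a, b) ∈ goodList := by simpa using h3
  exact ⟨(k, a, b), h4, key⟩

theorem N2_no_invol {x : Equiv.Perm GolayPt} (hx : x ∈ N2) (h2 : x * x = 1) : x = 1 := by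
  obtain ⟨t, ht, key⟩ := N2_enum hx
  have e1 : x (x (some 1)) = some 1 := by rw [← Equiv.Perm.mul_apply, h2]; rfl
  have e2 : x (x (some 2)) = some 2 := by rw [← Equiv.Perm.mul_apply, h2]; rfl
  have k1 : x (some 1) = pt (candF t.1 t.2.1 t.2.2 1) := key (some 1)
  have k2 : x (some 2) = pt (candF t.1 t.2.1 t.2.2 2) := key (some 2)
  rw [k1, key, idx_pt (candF_lt _ _ _ _)] at e1
  rw [k2, key, idx_pt (candF_lt _ _ _ _)] at e2
  have c1 : candF t.1 t.2.1 t.2.2 (candF t.1 t.2.1 t.2.2 1) = 1 := by
    have := congrArg idx e1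
    rwa [idx_pt (candF_lt _ _ _ _)] at this
  have c2 : candF t.1 t.2.1 t.2.2 (candF t.1 t.2.1 t.2.2 2) = 2 := by
    have := congrArg idx e2
    rwa [idx_pt (candF_lt _ _ _ _)] at this
  have hall : ∀ t ∈ goodList, candF t.1 t.2.1 t.2.2 (candF t.1 t.2.1 t.2.2 1) = 1 →
      candF t.1 t.2.1 t.2.2 (candF t.1 t.2.1 t.2.2 2) = 2 → t = (1, 1, 5) := by decide
  have := hall t ht c1 c2
  subst this
  refine Equiv.ext fun p => ?_
  rw [key p]
  have hid : ∀ j < 24, candF 1 1 5 j = j := by decide
  show pt (candF 1 1 5 (idx p)) = p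
  rw [hid _ (idx_lt p), pt_idx]

theorem eq_one_of_N2 {x : Equiv.Perm GolayPt} (hx : x ∈ N2) (h1 : x (some 1) = some 1)
    (h2 : x (some 2) = some 2) (h5 : x (some 5) = some 5) : x = 1 := by
  have hc : x * sigma = sigma * x :=
    commute_of_normalizer hx.1.1.1 (some 1) h1 (by rw [sigma_some, mul_one]; exact h2) sigma_free
  refine Equiv.ext fun p => ?_
  cases p with
  | none => exact hx.1.2
  | some y =>
    by_cases hy : y = 0
    · subst hy; exact hx.2
    · obtain ⟨i, -, ⟨rfl, -⟩ | ⟨rfl, -⟩⟩ := dl_spec y hy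
      · have := fix_pow_of_commute hc (some 1) h1 i
        rwa [sigma_pow, mul_one] at this
      · have := fix_pow_of_commute hc (some 5) h5 i
        rwa [sigma_pow] at this

theorem card_N2_le : Nat.card N2 ≤ 55 := by
  let φ : Equiv.Perm GolayPt → GolayPt × GolayPt × GolayPt := fun g => (g (some 1), g (some 2), g (some 5))
  let S : Finset (GolayPt × GolayPt × GolayPt) :=
    (goodList.map fun t => (pt (candF t.1 t.2.1 t.2.2 1), pt (candF t.1 t.2.1 t.2.2 2),
      pt (candF t.1 t.2.1 t.2.2 5))).toFinset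
  show Nat.card ↥(N2 : Set (Equiv.Perm GolayPt)) ≤ 55
  rw [_root_.Nat.card_coe_set_eq]
  have hS : S.card ≤ 55 := (List.toFinset_card_le _).trans (by rw [List.length_map]; decide)
  refine le_trans ?_ hS
  rw [← Set.ncard_coe_finset S]
  apply Set.ncard_le_ncard_of_injOn φ _ _ (Finset.finite_toSet S)
  · intro g hg
    obtain ⟨t, ht, key⟩ := N2_enum hg
    rw [Finset.mem_coe, List.mem_toFinset, List.mem_map]
    exact ⟨t, ht, by
      show _ = (g (some 1), g (some 2), g (some 5))
      rw [key (some 1), key (some 2), key (some 5)]; rfl⟩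
  · intro g hg h hh e
    have e1 : g (some 1) = h (some 1) := congrArg Prod.fst e
    have e2 : g (some 2) = h (some 2) := congrArg (fun z => z.2.1) e
    have e5 : g (some 5) = h (some 5) := congrArg (fun z => z.2.2) e
    have hx : h⁻¹ * g ∈ N2 := mul_mem (inv_mem hh) hg
    have := eq_one_of_N2 hx (by rw [Equiv.Perm.mul_apply, e1]; simp)
      (by rw [Equiv.Perm.mul_apply, e2]; simp) (by rw [Equiv.Perm.mul_apply, e5]; simp)
    exact (inv_mul_eq_one.1 this).symm

end Cfsg.Agent.Helper91.PSL23
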