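/-
Helper91: `23:11` and `L₂(23)` in `Cfsg.M24`.  Part c: `23:11` is maximal in the point stabilizer (Sylow counting
for the primes 23 and 11).
-/
import Cfsg.Agent.Helper91.PSL23b
import Cfsg.Agent.Helper91.M24Chain

set_option autoImplicit false

namespace Cfsg.Agent.Helper91.PSL23

open Cfsg Cfsg.Agent.Helper91

/-- Sylow counting: if `P ≤ K` has prime order `p` and `p ^ 2` does not divide `|K|`, then
`|K| = |N_K(P)| * m` with `m ≡ 1` modulo `p`. -/
theorem sylow_index {G : Type*} [Group G] [Finite G] (K P : Subgroup G) (hPK : P ≤ K) (p : ℕ)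
    [hp : Fact p.Prime] (hP : Nat.card P = p) (hK : ¬ p ^ 2 ∣ Nat.card K) :
    ∃ m, Nat.card K = Nat.card ↥(Subgroup.normalizer (P : Set G) ⊓ K) * m ∧ m ≡ 1 [MOD p] := by
  have hP' : Nat.card (P.subgroupOf K) = p := by
    rw [Nat.card_congr (Subgroup.subgroupOfEquivOfLe hPK).toEquiv, hP]
  have hdvd : p ∣ Nat.card K := by
    have := Subgroup.card_subgroup_dvd_card (P.subgroupOf K)
    rwa [hP'] at this
  have hfac : (Nat.card K).factorization p = 1 := by
    have h1 : 1 ≤ (Nat.card K).factorization p :=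
      (hp.out.pow_dvd_iff_le_factorization Nat.card_pos.ne').1 (by simpa using hdvd)
    have h2 : ¬ 2 ≤ (Nat.card K).factorization p := fun h =>
      hK ((hp.out.pow_dvd_iff_le_factorization Nat.card_pos.ne').2 h)
    omega
  let S : Sylow p K := Sylow.ofCard (P.subgroupOf K) (by rw [hP', hfac, pow_one])
  have h1 := card_sylow_modEq_one p K
  have h2 := S.card_eq_index_normalizer
  have h3 : Subgroup.normalizer (S : Set K) =
      (Subgroup.normalizer (P : Set G)).subgroupOf K :=
    (Subgroup.subgroupOf_normalizer_eq hPK).symm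
  refine ⟨Nat.card (Sylow p K), ?_, h1⟩
  rw [h2, h3]
  have h4 := Subgroup.card_mul_index ((Subgroup.normalizer (P : Set G)).subgroupOf K)
  rw [← h4]
  congr 1
  have e : (Subgroup.normalizer (P : Set G)).subgroupOf K =
      (Subgroup.normalizer (P : Set G) ⊓ K).subgroupOf K := (Subgroup.inf_subgroupOf_right _ _).symm
  rw [e]
  exact Nat.card_congr (Subgroup.subgroupOfEquivOfLe inf_le_right).toEquiv

/-! ## Transitivity and orders -/

theorem exists_tau_pow (x : ZMod 23) : (tau ^ x.val) (some 0) = some x := by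
  rw [tau_pow, zero_add, ZMod.natCast_zmod_val]

theorem M24_trans (y : GolayPt) : ∃ h ∈ M24, h • (none : GolayPt) = y := by
  cases y with
  | none => exact ⟨1, one_mem _, rfl⟩
  | some x =>
    refine ⟨tau ^ x.val * projInv, mul_mem (pow_mem tau_mem_M24 _) projInv_mem_M24, ?_⟩
    show (tau ^ x.val) (projInv none) = some x
    exact exists_tau_pow x

theorem card_M23 : Nat.card M23 = 10200960 := by
  have h := card_inf_stabilizer_mul M24 (none : GolayPt) Set.univ
    (fun y => ⟨fun _ => M24_trans y, fun _ => Set.mem_univ y⟩)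
  rw [Set.ncard_univ, card_M24] at h
  have h24 : Nat.card GolayPt = 24 := by rw [Nat.card_eq_fintype_card]; rfl
  rw [h24] at h
  show Nat.card ↥(M24 ⊓ MulAction.stabilizer (Equiv.Perm GolayPt) (none : GolayPt)) = 10200960
  omega

theorem ncard_finite_pts : {y : GolayPt | y ≠ none}.ncard = 23 := by
  have : {y : GolayPt | y ≠ none} = ↑(Finset.univ.filter fun y : GolayPt => y ≠ none) := by
    ext y; simp
  rw [this, Set.ncard_coe_finset]
  decide

/-- For a group between `23:11` and the point stabilizer, the stabilizer of `0` has index 23. -/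
theorem card_stab_zero {K : Subgroup (Equiv.Perm GolayPt)} (hAK : A ≤ K) (hK : K ≤ M23) :
    Nat.card ↥(K ⊓ MulAction.stabilizer (Equiv.Perm GolayPt) (some 0 : GolayPt)) * 23 = Nat.card K := by
  have h := card_inf_stabilizer_mul K (some 0 : GolayPt) {y : GolayPt | y ≠ none} (by
    intro y
    constructor
    · intro hy
      cases y with
      | none => exact absurd rfl hy
      | some x => exact ⟨tau ^ x.val, hAK (pow_mem tau_mem_A _), exists_tau_pow x⟩
    · rintro ⟨h, hh, rfl⟩
      intro e
      have h1 : h none = none := (hK hh).2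
      have h2 : h (some 0) = none := e
      exact absurd (h.injective (h2.trans h1.symm)) (by simp))
  rwa [ncard_finite_pts] at h

theorem arith_aux : (List.range 1754).all (fun t => (List.range 6).all fun j =>
    !(40320 % (23 * t + 1) == 0 && j % 2 == 1 && (23 * t + 1) % j == 0 && ((23 * t + 1) / j) % 11 == 1)
      || (t == 0 || 23 * t + 1 == 40320)) = true := by
  decide +kernel

theorem arith_key (t : Nat) (ht : t < 1754) (j : Nat) (hj : j < 6) (h1 : 40320 % (23 * t + 1) = 0)
    (h2 : j % 2 = 1) (h3 : (23 * t + 1) % j = 0) (h4 : ((23 * t + 1) / j) % 11 = 1) :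
    t = 0 ∨ 23 * t + 1 = 40320 := by
  have h := arith_aux
  rw [List.all_eq_true] at h
  have h' := h t (List.mem_range.2 ht)
  rw [List.all_eq_true] at h'
  have h'' := h' j (List.mem_range.2 hj)
  simp only [h1, h2, h3, h4, beq_self_eq_true, Bool.and_self, Bool.not_true, Bool.false_or, Bool.or_eq_true,
    beq_iff_eq] at h''
  exact h''

/-- `23:11` is maximal in the point stabilizer. -/
theorem A_maximal {K : Subgroup (Equiv.Perm GolayPt)} (hAK : A ≤ K) (hK : K ≤ M23) : K = A ∨ K = M23 := by
  have hK24 : K ≤ M24 := fun _ h => (hK h).1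
  have hdvd24 : Nat.card K ∣ 244823040 := card_M24 ▸ Subgroup.card_dvd_of_le hK24
  have hdvd23 : Nat.card K ∣ 10200960 := card_M23 ▸ Subgroup.card_dvd_of_le hK
  -- the prime 23
  have : Fact (Nat.Prime 23) := ⟨by norm_num⟩
  have hP : Subgroup.zpowers tau ≤ K := by
    rw [Subgroup.zpowers_le]; exact hAK tau_mem_A
  obtain ⟨m, hm, hm23⟩ := sylow_index K (Subgroup.zpowers tau) hP 23
    (by rw [Nat.card_zpowers, orderOf_tau])
    (fun h => absurd (h.trans hdvd24) (by norm_num))
  have hN : Subgroup.normalizer (Subgroup.zpowers tau : Set (Equiv.Perm GolayPt)) ⊓ K = A := by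
    apply le_antisymm
    · intro x hx
      rw [A_eq]
      exact ⟨⟨hx.1, (hK hx.2).2⟩, hK24 hx.2⟩
    · intro x hx
      exact ⟨(A_le hx).1.1, hAK hx⟩
  rw [hN, card_A] at hm
  -- the prime 11
  have h0 := card_stab_zero hAK hK
  set K0 := K ⊓ MulAction.stabilizer (Equiv.Perm GolayPt) (some 0 : GolayPt) with hK0
  have hK0le : K0 ≤ K := inf_le_left
  have hsig : sigma ∈ K0 := ⟨hAK sigma_mem_A, by
    show sigma (some 0) = some 0
    rw [sigma_some, mul_zero]⟩
  have hP0 : Subgroup.zpowers sigma ≤ K0 := by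
    rw [Subgroup.zpowers_le]; exact hsig
  have : Fact (Nat.Prime 11) := ⟨by norm_num⟩
  obtain ⟨m', hm', hm11⟩ := sylow_index K0 (Subgroup.zpowers sigma) hP0 11
    (by rw [Nat.card_zpowers, orderOf_sigma])
    (fun h => absurd ((h.trans (Subgroup.card_dvd_of_le hK0le)).trans hdvd24) (by norm_num))
  set N0 := Subgroup.normalizer (Subgroup.zpowers sigma : Set (Equiv.Perm GolayPt)) ⊓ K0 with hN0
  have hN0le : N0 ≤ N2 := by
    intro x hx
    exact ⟨⟨⟨hx.1, hK24 hx.2.1⟩, (hK hx.2.1).2⟩, hx.2.2⟩
  have hc55 : Nat.card N0 ≤ 55 := (Subgroup.card_le_of_le hN0le).trans card_N2_le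
  have hc11 : 11 ∣ Nat.card N0 := by
    have hle : Subgroup.zpowers sigma ≤ N0 := le_inf Subgroup.le_normalizer hP0
    have := Subgroup.card_dvd_of_le hle
    rwa [Nat.card_zpowers, orderOf_sigma] at this
  have hodd : ¬ 2 ∣ Nat.card N0 := by
    intro h2
    have : Fact (Nat.Prime 2) := ⟨by norm_num⟩
    obtain ⟨x, hx⟩ := exists_prime_orderOf_dvd_card' 2 h2
    have hx2 : x.1 * x.1 = 1 := by
      have := pow_orderOf_eq_one x
      rw [hx, pow_two] at this
      exact congrArg Subtype.val this
    have hx1 := N2_no_invol (hN0le x.2) hx2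
    have : x = 1 := Subtype.ext hx1
    rw [this, orderOf_one] at hx
    norm_num at hx
  -- arithmetic
  obtain ⟨j, hj⟩ := hc11
  have hmpos : 0 < Nat.card K := Nat.card_pos
  have hjodd : j % 2 = 1 := by
    by_contra h
    exact hodd (by rw [hj]; exact Dvd.dvd.mul_left (Nat.dvd_of_mod_eq_zero (by omega)) 11)
  have hj6 : j < 6 := by omega
  have hm1 : m % 23 = 1 := hm23
  have hm1' : m' % 11 = 1 := hm11
  have hmm : m = j * m' := by
    have e1 : Nat.card K0 * 23 = 253 * m := by rw [h0, hm]
    have e2 : Nat.card K0 = 11 * j * m' := by rw [hm', hj]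
    rw [e2] at e1
    nlinarith
  have hmdvd : m ∣ 40320 := by
    rw [hm] at hdvd23
    exact Nat.dvd_of_mul_dvd_mul_left (by norm_num : 0 < 253) (by simpa using hdvd23)
  have hmle : m ≤ 40320 := Nat.le_of_dvd (by norm_num) hmdvd
  have hmpos' : 0 < m := by
    rcases Nat.eq_zero_or_pos m with h | h
    · rw [h] at hm; omega
    · exact h
  obtain ⟨t, ht⟩ : ∃ t, m = 23 * t + 1 := ⟨m / 23, by omega⟩
  have hjpos : 0 < j := by omega
  have key := arith_key t (by omega) j hj6 (by rw [← ht]; exact Nat.mod_eq_zero_of_dvd hmdvd) hjodd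
    (by rw [← ht, hmm]; exact Nat.mul_mod_right j m')
    (by rw [← ht, hmm, Nat.mul_div_cancel_left _ hjpos]; exact hm1')
  rcases key with h | h
  · left
    refine (Subgroup.eq_of_le_of_card_ge hAK ?_).symm
    rw [hm, card_A, ht, h]
  · right
    refine Subgroup.eq_of_le_of_card_ge hK ?_
    rw [hm, card_M23, ht, h]

end Cfsg.Agent.Helper91.PSL23
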