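/-
Helper91: a subgroup of order 40320 of `M23` (the stabilizer of `∞` in `Cfsg.M24`) containing the element
`s7` of order 7 is the stabilizer of a pair of points or the stabilizer of an octad through `∞`.
-/
import Cfsg.Agent.Helper91.Idx23a
import Cfsg.Agent.Helper91.Idx23d
import Cfsg.Agent.Helper91.Idx23e
import Cfsg.Agent.Helper91.PSL23c

set_option autoImplicit false

namespace Cfsg.Agent.Helper91.Idx23

open Cfsg Cfsg.Agent.Helper91 Cfsg.Agent.Helper91.PSL23
open scoped Pointwise

/-- If all the elements of a subgroup map the set of mask `m` into itself, they leave it invariant. -/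
theorem inv_of_forall_mem {K : Subgroup (Equiv.Perm GolayPt)} {m : Nat}
    (h : ∀ k ∈ K, ∀ p : GolayPt, m.testBit (idx p) = true → m.testBit (idx (k p)) = true) :
    ∀ k ∈ K, Inv (⇑k) m := by
  intro k hk p
  apply Bool.eq_iff_iff.2
  constructor
  · intro hkp
    have h1 := h k⁻¹ (inv_mem hk) (k p) hkp
    have e : k⁻¹ (k p) = p := Equiv.Perm.inv_eq_iff_eq.2 rfl
    rwa [e] at h1
  · exact h k hk p

/-- A subgroup of order 40320 of `M23` containing `s7` contains the involution `z`. -/
theorem z_mem_of {K : Subgroup (Equiv.Perm GolayPt)} (hK : K ≤ M) (hc : Nat.card K = 40320)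
    (hs : s7 ∈ K) : z ∈ K := by
  have hP : Subgroup.zpowers s7 ≤ K := (Subgroup.zpowers_le).2 hs
  have hPc : Nat.card (Subgroup.zpowers s7) = 7 := by rw [Nat.card_zpowers, orderOf_s7]
  have : Fact (Nat.Prime 7) := ⟨by norm_num⟩
  have hc42 := card_norm_s7_le hK
  have hdvd : 7 ∣ Nat.card ↥(Subgroup.normalizer (Subgroup.zpowers s7 : Set (Equiv.Perm GolayPt)) ⊓ K) := by
    have h1 : Subgroup.zpowers s7 ≤
        Subgroup.normalizer (Subgroup.zpowers s7 : Set (Equiv.Perm GolayPt)) ⊓ K :=
      le_inf Subgroup.le_normalizer hP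
    have h2 := Subgroup.card_dvd_of_le h1
    rwa [hPc] at h2
  obtain ⟨m, hm, hmod⟩ := sylow_index K (Subgroup.zpowers s7) hP 7 hPc (by rw [hc]; norm_num)
  rw [hc] at hm
  obtain ⟨d, hd⟩ := hdvd
  have hc' : Nat.card ↥(Subgroup.normalizer (Subgroup.zpowers s7 : Set (Equiv.Perm GolayPt)) ⊓ K)
      = 42 := by
    rw [hd] at hm hc42 ⊢
    have hd6 : d ≤ 6 := by omega
    unfold Nat.ModEq at hmod
    interval_cases d <;> omega
  have heq : Subgroup.normalizer (Subgroup.zpowers s7 : Set (Equiv.Perm GolayPt)) ⊓ K =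
      Subgroup.normalizer (Subgroup.zpowers s7 : Set (Equiv.Perm GolayPt)) ⊓ M :=
    Subgroup.eq_of_le_of_card_ge (inf_le_inf_left _ hK) (by rw [hc']; exact card_norm_s7_le le_rfl)
  have h1 : z ∈ Subgroup.normalizer (Subgroup.zpowers s7 : Set (Equiv.Perm GolayPt)) ⊓ M :=
    ⟨mem_normalizer_of_conj z_s7, z_mem_M⟩
  rw [← heq] at h1
  exact h1.2

/-- A subgroup of order 40320 of `M23` containing `s7` is the stabilizer of the pair `{4, 20}` or of the
octad through `∞` invariant under `s7`. -/
theorem core {K : Subgroup (Equiv.Perm GolayPt)} (hK : K ≤ M) (hc : Nat.card K = 40320)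
    (hs : s7 ∈ K) : K = stabSub 8388608 [1048592] ∨ K = stabSub 8388608 [13062145] := by
  have hz : z ∈ K := z_mem_of hK hc hs
  -- the orbit of the point 4
  have hO4 : ∀ p : GolayPt, (1048592 : Nat).testBit (idx p) = true → ∃ k ∈ K, k (pt 4) = p := by
    intro p hp
    rcases mab_cases p hp with rfl | rfl
    · exact ⟨1, one_mem K, rfl⟩
    · exact ⟨z, hz, z_four⟩
  have hOst : ∀ p : GolayPt, (∃ k ∈ K, k (pt 4) = p) → ∀ k ∈ K, ∃ k' ∈ K, k' (pt 4) = k p := by
    rintro p ⟨k0, hk0, rfl⟩ k hk
    exact ⟨k * k0, mul_mem hk hk0, rfl⟩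
  have hOn : ∀ k ∈ K, k (pt 4) ≠ none := by
    intro k hk h
    have h1 : k none = none := fix_M (hK hk)
    have h2 : pt 4 = none := k.injective (h.trans h1.symm)
    exact absurd h2 (by decide)
  have hOC1 : (∃ k ∈ K, (4673537 : Nat).testBit (idx (k (pt 4))) = true) →
      ∀ p : GolayPt, (4673537 : Nat).testBit (idx p) = true → ∃ k ∈ K, k (pt 4) = p := by
    rintro ⟨k0, hk0, hq⟩ p hp
    obtain ⟨i, -, hi⟩ := trans_C1 (k0 (pt 4)) p ⟨hq, hp⟩
    exact ⟨s7 ^ i * k0, mul_mem (pow_mem hs i) hk0, hi⟩
  have hOC23 : (∃ k ∈ K, (2666478 : Nat).testBit (idx (k (pt 4))) = true) →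
      ∀ p : GolayPt, (2666478 : Nat).testBit (idx p) = true → ∃ k ∈ K, k (pt 4) = p := by
    rintro ⟨k0, hk0, hq⟩ p hp
    obtain ⟨i, -, j, -, hij⟩ := trans_C23 (k0 (pt 4)) p ⟨hq, hp⟩
    exact ⟨s7 ^ i * z ^ j * k0, mul_mem (mul_mem (pow_mem hs i) (pow_mem hz j)) hk0, hij⟩
  have hle : ∀ m : Nat, (∀ k ∈ K, Inv (⇑k) m) → K ≤ stabSub 8388608 [m] := by
    intro m hm k hk
    refine ⟨(hK hk).1, (hK hk).2.1, ?_⟩
    intro I hI
    rw [List.mem_singleton] at hI
    subst hI
    exact hm k hk
  by_cases ha : ∃ k ∈ K, (4673537 : Nat).testBit (idx (k (pt 4))) = true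
  · by_cases hb : ∃ k ∈ K, (2666478 : Nat).testBit (idx (k (pt 4))) = true
    · -- the orbit has 23 points
      exfalso
      have hall : ∀ p : GolayPt, p ≠ none → ∃ k ∈ K, k (pt 4) = p := by
        intro p hp
        rcases pt_cases p with h | h | h | h
        · exact absurd h hp
        · exact hO4 p h
        · exact hOC1 ha p h
        · exact hOC23 hb p h
      have hcard := card_inf_stabilizer_mul K (pt 4)
        (((Finset.univ : Finset GolayPt).erase none : Finset GolayPt) : Set GolayPt)
        (fun y => by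
          rw [Finset.mem_coe, Finset.mem_erase]
          constructor
          · rintro ⟨hy, -⟩
            exact hall y hy
          · rintro ⟨k, hk, rfl⟩
            exact ⟨hOn k hk, Finset.mem_univ _⟩)
      rw [Set.ncard_coe_finset, hc] at hcard
      have h23 : ((Finset.univ : Finset GolayPt).erase none).card = 23 := by decide
      rw [h23] at hcard
      omega
    · -- the orbit has 9 points
      exfalso
      have hinv : ∀ k ∈ K, ∀ p : GolayPt, (5722129 : Nat).testBit (idx p) = true →
          (5722129 : Nat).testBit (idx (k p)) = true := by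
        intro k hk p hp
        have hpO : ∃ k0 ∈ K, k0 (pt 4) = p := by
          rcases (m9_iff p).1 hp with h | h
          · exact hO4 p h
          · exact hOC1 ha p h
        obtain ⟨k', hk', hk'p⟩ := hOst p hpO k hk
        rw [m9_iff]
        rcases pt_cases (k p) with h | h | h | h
        · exact absurd (hk'p.trans h) (hOn k' hk')
        · exact Or.inl h
        · exact Or.inr h
        · exact absurd ⟨k', hk', by rw [hk'p]; exact h⟩ hb
      have h1 := Subgroup.card_le_of_le (hle _ (inv_of_forall_mem hinv))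
      rw [hc, card_G9] at h1
      omega
  · by_cases hb : ∃ k ∈ K, (2666478 : Nat).testBit (idx (k (pt 4))) = true
    · -- the orbit has 16 points: the complement of the octad
      right
      have hinv : ∀ k ∈ K, ∀ p : GolayPt, (3715070 : Nat).testBit (idx p) = true →
          (3715070 : Nat).testBit (idx (k p)) = true := by
        intro k hk p hp
        have hpO : ∃ k0 ∈ K, k0 (pt 4) = p := by
          rcases (m16_iff p).1 hp with h | h
          · exact hO4 p h
          · exact hOC23 hb p h
        obtain ⟨k', hk', hk'p⟩ := hOst p hpO k hk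
        rw [m16_iff]
        rcases pt_cases (k p) with h | h | h | h
        · exact absurd (hk'p.trans h) (hOn k' hk')
        · exact Or.inl h
        · exact absurd ⟨k', hk', by rw [hk'p]; exact h⟩ ha
        · exact Or.inr h
      have hinv' : ∀ k ∈ K, Inv (⇑k) 13062145 := fun k hk =>
        (Inv_ALL (⇑k)).xor (inv_of_forall_mem hinv k hk)
      exact Subgroup.eq_of_le_of_card_ge (hle _ hinv') (by rw [card_hept, hc])
    · -- the orbit is the pair
      left
      have hinv : ∀ k ∈ K, ∀ p : GolayPt, (1048592 : Nat).testBit (idx p) = true →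
          (1048592 : Nat).testBit (idx (k p)) = true := by
        intro k hk p hp
        obtain ⟨k', hk', hk'p⟩ := hOst p (hO4 p hp) k hk
        rcases pt_cases (k p) with h | h | h | h
        · exact absurd (hk'p.trans h) (hOn k' hk')
        · exact h
        · exact absurd ⟨k', hk', by rw [hk'p]; exact h⟩ ha
        · exact absurd ⟨k', hk', by rw [hk'p]; exact h⟩ hb
      exact Subgroup.eq_of_le_of_card_ge (hle _ (inv_of_forall_mem hinv)) (by rw [card_duad, hc])

end Cfsg.Agent.Helper91.Idx23
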