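/-
Helper91: a Sylow 2-subgroup of the Mathieu group M23: it is a group of order 2^7 generated by
conjugates of its central involution (and products), and it is self-normalizing.
-/
import Cfsg.Agent.Helper91.SylM23Data
import Cfsg.Agent.Helper91.PSL23c

set_option autoImplicit false
set_option maxRecDepth 100000

namespace Cfsg.Agent.Helper91.SylM23

open Cfsg Cfsg.Agent.Helper91 Cfsg.Agent.Helper91.Syl

theorem closed_ok : closedOK C E cay = true := by decide +kernel

theorem words_ok : wordsOK C E W = true := by decide +kernel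

theorem inc_ok : incB (E.map tcode) = true := by decide +kernel

theorem group_ok : groupOK C E cay W = true := by
  rw [groupOK, closed_ok, words_ok, inc_ok]; rfl

theorem cent_ok : centOK C E = true := by decide +kernel

theorem inH_ok : C.all (tabOK 8388608 []) = true := by decide +kernel

theorem fus_ok : fusOK 8388608 [] C steps = true := by decide +kernel

theorem le_H : genGroup C ≤ stabSub 8388608 [] := genGroup_le_stabSub inH_ok

theorem length_E : E.length = 2 ^ 7 := by decide +kernel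

/-- The pointwise stabilizer of the mask 12720156. Levels of the stabilizer chain (base 0; orbit lengths 16). -/

def fin0Levels : List Level := [
  ⟨[.sub 0, .compl 0, .sub 12720156, .compl 12720156],
    4057059, 0,
    [[0, 1, 2, 3, 4, 5, 6, 7, 8, 9, 10, 11, 12, 13, 14, 15, 16, 17, 18, 19, 20, 21, 22, 23],
     [1, 0, 2, 3, 4, 14, 9, 10, 18, 6, 7, 11, 12, 16, 5, 21, 13, 17, 8, 20, 19, 15, 22, 23],
     [5, 14, 2, 3, 4, 0, 10, 9, 16, 7, 6, 11, 12, 18, 1, 20, 8, 17, 13, 21, 15, 19, 22, 23],
     [6, 9, 2, 3, 4, 10, 0, 14, 15, 1, 5, 11, 12, 19, 7, 8, 20, 17, 21, 13, 16, 18, 22, 23],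
     [7, 10, 2, 3, 4, 9, 14, 0, 19, 5, 1, 11, 12, 15, 6, 13, 21, 17, 20, 8, 18, 16, 22, 23],
     [8, 18, 2, 3, 4, 16, 15, 19, 0, 21, 20, 11, 12, 14, 13, 6, 5, 17, 1, 7, 10, 9, 22, 23],
     [9, 6, 2, 3, 4, 7, 1, 5, 21, 0, 14, 11, 12, 20, 10, 18, 19, 17, 15, 16, 13, 8, 22, 23],
     [10, 7, 2, 3, 4, 6, 5, 1, 20, 14, 0, 11, 12, 21, 9, 16, 15, 17, 19, 18, 8, 13, 22, 23],
     [13, 16, 2, 3, 4, 18, 19, 15, 14, 20, 21, 11, 12, 0, 8, 7, 1, 17, 5, 6, 9, 10, 22, 23],
     [14, 5, 2, 3, 4, 1, 7, 6, 13, 10, 9, 11, 12, 8, 0, 19, 18, 17, 16, 15, 21, 20, 22, 23],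
     [15, 21, 2, 3, 4, 20, 8, 13, 6, 18, 16, 11, 12, 7, 19, 0, 10, 17, 9, 14, 5, 1, 22, 23],
     [16, 13, 2, 3, 4, 8, 20, 21, 5, 19, 15, 11, 12, 1, 18, 10, 0, 17, 14, 9, 6, 7, 22, 23],
     [18, 8, 2, 3, 4, 13, 21, 20, 1, 15, 19, 11, 12, 5, 16, 9, 14, 17, 0, 10, 7, 6, 22, 23],
     [19, 20, 2, 3, 4, 21, 13, 8, 7, 16, 18, 11, 12, 6, 15, 14, 9, 17, 10, 0, 1, 5, 22, 23],
     [20, 19, 2, 3, 4, 15, 16, 18, 10, 13, 8, 11, 12, 9, 21, 5, 6, 17, 7, 1, 0, 14, 22, 23],
     [21, 15, 2, 3, 4, 19, 18, 16, 9, 8, 13, 11, 12, 10, 20, 1, 7, 17, 6, 5, 14, 0, 22, 23]]⟩]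

/-- The pointwise stabilizer of the mask 12720156. Final rigidity certificate. -/

def fin0Fin : List Step :=
  [.sub 1, .compl 1, .and 4057059 16777214, .cw 15747077 [4057058], .compl 15747077, .and 4057058 15747077,
   .and 4057058 1030138, .cw 16056344 [894946], .compl 16056344, .and 3162112 16056344, .and 3162112 720871,
   .fix 14, .and 894946 16056344, .and 894946 720871, .cw 10881097 [567266], .compl 10881097,
   .and 3145728 10881097, .and 3145728 5896118, .fix 21, .fix 20, .and 327680 10881097, .and 327680 5896118,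
   .fix 18, .fix 16, .and 567266 10881097, .and 567266 5896118, .fix 6, .cw 15864000 [567202], .compl 15864000,
   .and 567202 15864000, .and 567202 913215, .fix 7, .cw 15515712 [567074], .compl 15515712,
   .and 567074 15515712, .and 567074 1261503, .cw 15335473 [10018], .compl 15335473, .and 557056 15335473,
   .and 557056 1441742, .fix 19, .fix 15, .and 10018 15335473, .and 10018 1441742, .fix 5, .cw 15274244 [],
   .compl 15274244, .and 9986 15274244, .and 9986 1502971, .fix 8, .cw 16262146 [], .compl 16262146,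
   .and 9730 16262146, .and 9730 515069, .fix 9, .cw 15073798 [], .compl 15073798, .and 9218 15073798,
   .and 9218 1703417, .fix 1, .cw 14950785 [], .compl 14950785, .and 9216 14950785, .and 9216 1826430, .fix 13,
   .fix 10]

theorem fin0_chain_ok : checkChain [] 12720156 12720156 [] fin0Levels fin0Fin = true := by
  decide +kernel

theorem fin0_card : Nat.card (stabSub 12720156 []) = 2 ^ 4 := by
  rw [chain_card [] fin0Levels 12720156 12720156 [] fin0Fin fin0_chain_ok (fun g hg => hg.2)]
  decide +kernel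

theorem psi_1 : psiM E 0 0 1 = 12582912 := by decide +kernel
theorem psi_2 : psiM E 0 12582912 2 = 131088 := by decide +kernel
theorem psi_3 : psiM E 0 12714000 4 = 6156 := by decide +kernel
theorem ext_3 : extOKm E 0 12714000 6156 [2] = true := by decide +kernel
theorem psi_4 : psiM E 4 12714004 1 = 4096 := by decide +kernel
theorem psi_5 : psiM E 4 12718100 2 = 2056 := by decide +kernel

/-- No element of odd prime order normalizes the group. -/
theorem no_odd : ∀ r : ℕ, r.Prime → r % 2 = 1 → ∀ x, x ∉ XC (stabSub 8388608 []) (genGroup C) r 0 0 := by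
  intro r hr hr2 x0 hx0
  have hx1 := rule_fix' group_ok hr2 hx0 1 12582912 12582912 psi_1 (by decide) (by decide)
  have hx2 := rule_fix' group_ok hr2 hx1 2 131088 12714000 psi_2 (by decide) (by decide)
  obtain ⟨x3, hx3⟩ := rule_ext1 group_ok le_H hr hr2 hx2 4 6156 2 4 12714004 psi_3 ext_3 (by decide) (by decide)
  have hx4 := rule_fix' group_ok hr2 hx3 1 4096 12718100 psi_4 (by decide) (by decide)
  have hx5 := rule_fix' group_ok hr2 hx4 2 2056 12720156 psi_5 (by decide) (by decide)
  exact rule_end' hr hr2 12720156 4 (by decide) fin0_card hx5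

theorem card_H : Nat.card (stabSub 8388608 []) = 2 ^ 7 * 79695 := by
  rw [← M23_eq]
  exact PSL23.card_M23.trans (by norm_num)

/-- The data of the Sylow 2-subgroup of M23. -/
theorem sylData : SylData 8388608 [] C E cay W steps 7 79695 :=
  ⟨group_ok, length_E, by decide, cent_ok, inH_ok, fus_ok, card_H, by decide, no_odd⟩

end Cfsg.Agent.Helper91.SylM23
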