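/-
Helper91: the subgroups of order 40320 of a point stabilizer of `Cfsg.M24` are the stabilizers of the pairs
of points not containing the point and of the octads through the point.
-/
import Cfsg.Agent.Helper91.Idx23b
import Cfsg.Agent.Helper91.SylM23
import Cfsg.Agent.Helper7.AutTools
import Cfsg.Agent.Helper7.M24Trans

set_option autoImplicit false

namespace Cfsg.Agent.Helper91.Idx23

open Cfsg Cfsg.Agent.Helper91 Cfsg.Agent.Helper91.PSL23
open scoped Pointwise

/-- A subgroup of order 40320 of the stabilizer of the point `x` in `Cfsg.M24` is the stabilizer of a pair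
of points different from `x` or of an octad through `x`. -/
theorem main {x : GolayPt} {K : Subgroup (Equiv.Perm GolayPt)} (hK : ∀ k ∈ K, k ∈ M24 ∧ k x = x)
    (hc : Nat.card K = 40320) :
    (∃ s : Finset GolayPt, s.card = 2 ∧ x ∉ s ∧ ∀ h ∈ M24, h x = x → (h ∈ K ↔ h • s = s)) ∨
    (∃ o ∈ octads, x ∈ o ∧ ∀ h ∈ M24, h x = x → (h ∈ K ↔ h • o = o)) := by
  obtain ⟨c0, hc0, hc0x⟩ := Cfsg.Agent.Helper7.m24_trans1 x none
  have : Fact (Nat.Prime 7) := ⟨by norm_num⟩
  obtain ⟨y, hy⟩ := exists_prime_orderOf_dvd_card' 7 (show 7 ∣ Nat.card K by rw [hc]; norm_num)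
  have hconjM : ∀ (c h : Equiv.Perm GolayPt), c ∈ M24 → c x = none → h ∈ M24 → h x = x →
      c * h * c⁻¹ ∈ M := by
    intro c h hcM hcx hh hhx
    apply mem_M
    · exact mul_mem (mul_mem hcM hh) (inv_mem hcM)
    · have hi : c⁻¹ none = x := Equiv.Perm.inv_eq_iff_eq.2 hcx.symm
      rw [Equiv.Perm.mul_apply, Equiv.Perm.mul_apply, hi, hhx, hcx]
  have hy0M : c0 * (y : Equiv.Perm GolayPt) * c0⁻¹ ∈ M :=
    hconjM c0 y hc0 hc0x (hK y y.2).1 (hK y y.2).2
  have hy0o : orderOf (c0 * (y : Equiv.Perm GolayPt) * c0⁻¹) = 7 := by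
    have h1 := (MulAut.conj c0).orderOf_eq (y : Equiv.Perm GolayPt)
    rw [MulAut.conj_apply, Subgroup.orderOf_coe, hy] at h1
    exact h1
  have hcardM : Nat.card ↥M = 10200960 := SylM23.card_H.trans (by norm_num)
  obtain ⟨g, k, hgk⟩ := Cfsg.Agent.Helper7.exists_conj_pow (G := ↥M) (p := 7)
    (by rw [hcardM]; norm_num) (a := ⟨s7, s7_mem_M⟩)
    (x := ⟨c0 * (y : Equiv.Perm GolayPt) * c0⁻¹, hy0M⟩)
    (by rw [Subgroup.orderOf_mk]; exact orderOf_s7)
    (by rw [Subgroup.orderOf_mk]; exact hy0o)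
  have hgk' : c0 * (y : Equiv.Perm GolayPt) * c0⁻¹ =
      (g : Equiv.Perm GolayPt) * s7 ^ k * (g : Equiv.Perm GolayPt)⁻¹ := congrArg Subtype.val hgk
  obtain ⟨c, hcdef⟩ : ∃ c : Equiv.Perm GolayPt, c = (g : Equiv.Perm GolayPt)⁻¹ * c0 := ⟨_, rfl⟩
  have hcM : c ∈ M24 := by
    rw [hcdef]
    exact mul_mem (inv_mem g.2.1) hc0
  have hcx : c x = none := by
    rw [hcdef, Equiv.Perm.mul_apply, hc0x]
    exact fix_M (inv_mem g.2)
  have hcy : c * (y : Equiv.Perm GolayPt) * c⁻¹ = s7 ^ k := by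
    have h1 : c * (y : Equiv.Perm GolayPt) * c⁻¹ =
        (g : Equiv.Perm GolayPt)⁻¹ * (c0 * (y : Equiv.Perm GolayPt) * c0⁻¹) * (g : Equiv.Perm GolayPt) := by
      rw [hcdef]; group
    rw [h1, hgk']; group
  have hsk1 : s7 ^ k ≠ 1 := by
    intro h1
    rw [h1] at hcy
    have hy1 : (y : Equiv.Perm GolayPt) = 1 := by
      have h2 := congrArg (fun t => c⁻¹ * t * c) hcy
      simp only [mul_assoc, inv_mul_cancel, mul_one, inv_mul_cancel_left] at h2
      exact h2
    have hy1' : y = 1 := Subtype.ext hy1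
    rw [hy1', orderOf_one] at hy
    omega
  have hk7 : k % 7 ≠ 0 := by
    intro h0
    apply hsk1
    rw [pow_eq_pow_mod k s7_pow_seven, h0, pow_zero]
  have hcop : Nat.Coprime k 7 := by
    rw [Nat.coprime_comm, Nat.Prime.coprime_iff_not_dvd (by norm_num)]
    intro hdvd
    exact hk7 (Nat.mod_eq_zero_of_dvd hdvd)
  obtain ⟨j, -, hj⟩ := Nat.exists_mul_mod_eq_one_of_coprime hcop (by norm_num)
  have hsj : (s7 ^ k) ^ j = s7 := by
    rw [← pow_mul, pow_eq_pow_mod (k * j) s7_pow_seven, hj, pow_one]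
  have hK1 : K.map (MulAut.conj c).toMonoidHom ≤ M := by
    rintro _ ⟨h, hh, rfl⟩
    exact hconjM c h hcM hcx (hK h hh).1 (hK h hh).2
  have hcard : Nat.card (K.map (MulAut.conj c).toMonoidHom) = 40320 := by
    rw [← hc]
    exact Subgroup.card_map_of_injective (MulEquiv.injective _)
  have hs : s7 ∈ K.map (MulAut.conj c).toMonoidHom := by
    have h1 : s7 ^ k ∈ K.map (MulAut.conj c).toMonoidHom := ⟨y, y.2, hcy⟩
    rw [← hsj]
    exact pow_mem h1 j
  have hmem : ∀ h : Equiv.Perm GolayPt, h ∈ K ↔ c * h * c⁻¹ ∈ K.map (MulAut.conj c).toMonoidHom := by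
    intro h
    exact (Subgroup.mem_map_iff_mem (f := (MulAut.conj c).toMonoidHom)
      (MulEquiv.injective (MulAut.conj c))).symm
  have hconj : ∀ (h : Equiv.Perm GolayPt) (S : Finset GolayPt),
      (c * h * c⁻¹) • S = S ↔ h • (c⁻¹ • S) = c⁻¹ • S := by
    intro h S
    rw [mul_smul, mul_smul, smul_eq_iff_eq_inv_smul]
  have hstab : ∀ (m : Nat) (h : Equiv.Perm GolayPt), h ∈ M24 → h x = x →
      (c * h * c⁻¹ ∈ stabSub 8388608 [m] ↔ h • (c⁻¹ • setM m) = c⁻¹ • setM m) := by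
    intro m h hh hhx
    rw [← hconj, smul_setM_eq_iff]
    have hM : c * h * c⁻¹ ∈ M := hconjM c h hcM hcx hh hhx
    constructor
    · intro h1
      exact h1.2.2 m (List.mem_singleton.2 rfl)
    · intro h1
      refine ⟨hM.1, hM.2.1, ?_⟩
      intro I hI
      rw [List.mem_singleton] at hI
      subst hI
      exact h1
  have hxmem : ∀ m : Nat, (x ∈ c⁻¹ • setM m ↔ m.testBit 23 = true) := by
    intro m
    rw [Finset.mem_inv_smul_finset_iff, Equiv.Perm.smul_def, hcx, mem_setM]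
    rfl
  rcases core hK1 hcard hs with h | h
  · left
    refine ⟨c⁻¹ • setM 1048592, ?_, ?_, ?_⟩
    · rw [Finset.card_smul_finset, card_setM (by norm_num)]
      decide
    · rw [hxmem]
      decide
    · intro g' hg' hgx
      rw [hmem, h, hstab _ g' hg' hgx]
  · right
    refine ⟨c⁻¹ • setM 13062145,
      smul_mem_octads (inv_mem hcM) ((setM_mem_octads_iff (by norm_num)).2 (by decide)), ?_, ?_⟩
    · rw [hxmem]
      decide
    · intro g' hg' hgx
      rw [hmem, h, hstab _ g' hg' hgx]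

end Cfsg.Agent.Helper91.Idx23
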