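/-
Helper91: tools for the subgroups of small index of `Cfsg.M24`: fixed points of elements of prime order
(modulo `p` on invariant sets, and their number for the orders 5, 7 and 11), orbits of a subgroup as
finite sets, and a count of the conjugates of a set of elements attached to a subgroup of prime order.
-/
import Cfsg.Agent.Helper91.Idx24d
import Cfsg.Agent.Helper91.Idx23c
import Cfsg.Agent.S0376
import Cfsg.Agent.Helper7.Simple

set_option autoImplicit false

namespace Cfsg.Agent.Helper91.Idx24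

open Cfsg Cfsg.Agent.Helper91 Cfsg.Agent.Helper91.Idx23
open scoped Pointwise

/-- The set of the fixed points of a permutation of the 24 points. -/
def fixF (g : Equiv.Perm GolayPt) : Finset GolayPt := Finset.univ.filter (fun q => g q = q)

theorem mem_fixF {g : Equiv.Perm GolayPt} {q : GolayPt} : q ∈ fixF g ↔ g q = q := by
  simp [fixF]

theorem card_golayPt : Fintype.card GolayPt = 24 := by decide

/-- A permutation mapping a finite set into itself leaves it invariant. -/
theorem smul_eq_of_maps {g : Equiv.Perm GolayPt} {X : Finset GolayPt} (h : ∀ q ∈ X, g q ∈ X) :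
    g • X = X := by
  apply Finset.eq_of_subset_of_card_le
  · intro y hy
    rw [Finset.mem_smul_finset] at hy
    obtain ⟨q, hq, rfl⟩ := hy
    exact h q hq
  · rw [Finset.card_smul_finset]

theorem maps_of_smul_eq {g : Equiv.Perm GolayPt} {X : Finset GolayPt} (h : g • X = X) :
    ∀ q ∈ X, g q ∈ X := by
  intro q hq
  have h1 : g • q ∈ g • X := Finset.smul_mem_smul_finset hq
  rwa [h] at h1

/-- On a set invariant under a permutation of prime order `p`, the number of points and the number of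
fixed points are congruent modulo `p`. -/
theorem card_modEq_fix {p : ℕ} [hp : Fact p.Prime] {g : Equiv.Perm GolayPt} (hg : g ^ p = 1)
    (X : Finset GolayPt) (hX : ∀ q ∈ X, g q ∈ X) :
    X.card ≡ (X ∩ fixF g).card [MOD p] := by
  classical
  have hk : ∀ k : ℕ, ∀ q ∈ X, (g ^ k) q ∈ X := by
    intro k
    induction k with
    | zero => intro q hq; simpa using hq
    | succ n ih =>
      intro q hq
      rw [pow_succ, Equiv.Perm.mul_apply]
      exact ih _ (hX q hq)
  have hiff : ∀ x, g x ∈ X ↔ x ∈ X := by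
    intro x
    refine ⟨fun h => ?_, hX x⟩
    have h1 := hk (p - 1) (g x) h
    have h2 : (g ^ (p - 1)) (g x) = x := by
      rw [← Equiv.Perm.mul_apply, ← pow_succ, Nat.sub_add_cancel hp.out.pos, hg]
      rfl
    rwa [h2] at h1
  have hτp : (g.subtypePerm hiff) ^ p ^ 1 = 1 := by
    rw [pow_one, Equiv.Perm.subtypePerm_pow]
    ext x
    simp [hg]
  have h1 := Equiv.Perm.card_compl_support_modEq hτp
  rw [Fintype.card_coe] at h1
  have h2 : (g.subtypePerm hiff).supportᶜ.card = (X ∩ fixF g).card := by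
    rw [← Finset.card_map ⟨Subtype.val, Subtype.val_injective⟩]
    congr 1
    ext q
    simp only [Finset.mem_map, Finset.mem_compl, Equiv.Perm.mem_support, not_not,
      Function.Embedding.coeFn_mk, Finset.mem_inter, mem_fixF]
    constructor
    · rintro ⟨x, hx, rfl⟩
      refine ⟨x.2, ?_⟩
      have := congrArg Subtype.val hx
      simpa [Equiv.Perm.subtypePerm_apply] using this
    · rintro ⟨hq, hgq⟩
      exact ⟨⟨q, hq⟩, Subtype.ext (by simp [Equiv.Perm.subtypePerm_apply, hgq]), rfl⟩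
  rw [h2] at h1
  exact h1.symm

/-- Elements of prime order `p` of `M24`, for `p` dividing the order only once, have as many fixed
points as a given one whose non-trivial powers have the same fixed points. -/
theorem card_fixF_conj {p : ℕ} [hp : Fact p.Prime] (hp2 : ¬ p ^ 2 ∣ 244823040)
    {a : Equiv.Perm GolayPt} (haM : a ∈ M24) (ha : orderOf a = p)
    (hfix : ∀ k < p, 0 < k → ∀ q, (a ^ k) q = q → a q = q)
    {g : Equiv.Perm GolayPt} (hg : g ∈ M24) (hgo : orderOf g = p) :
    (fixF g).card = (fixF a).card := by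
  obtain ⟨u, k, huk⟩ := Cfsg.Agent.Helper7.exists_conj_pow (G := ↥M24) (p := p)
    (by rw [Cfsg.Agent.Helper7.card_M24]; exact hp2) (a := ⟨a, haM⟩) (x := ⟨g, hg⟩)
    (by rw [Subgroup.orderOf_mk]; exact ha) (by rw [Subgroup.orderOf_mk]; exact hgo)
  have huk' : g = (u : Equiv.Perm GolayPt) * a ^ k * (u : Equiv.Perm GolayPt)⁻¹ :=
    congrArg Subtype.val huk
  have hap : a ^ p = 1 := by rw [← ha]; exact pow_orderOf_eq_one a
  have hk0 : k % p ≠ 0 := by
    intro h0
    have h1 : a ^ k = 1 := by rw [pow_eq_pow_mod k hap, h0, pow_zero]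
    rw [h1, mul_one, mul_inv_cancel] at huk'
    rw [huk', orderOf_one] at hgo
    exact hp.out.one_lt.ne hgo
  have hfixk : ∀ q, (a ^ k) q = q ↔ a q = q := by
    intro q
    rw [pow_eq_pow_mod k hap]
    constructor
    · exact hfix (k % p) (Nat.mod_lt _ hp.out.pos) (Nat.pos_of_ne_zero hk0) q
    · intro h
      exact Equiv.Perm.pow_apply_eq_self_of_apply_eq_self h _
  have hmap : fixF g = (fixF a).map (u : Equiv.Perm GolayPt).toEmbedding := by
    ext q
    simp only [mem_fixF, Finset.mem_map, Equiv.coe_toEmbedding]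
    constructor
    · intro hq
      refine ⟨(u : Equiv.Perm GolayPt)⁻¹ q, ?_, by simp⟩
      rw [← hfixk]
      have h1 : (a ^ k) ((u : Equiv.Perm GolayPt)⁻¹ q) = (u : Equiv.Perm GolayPt)⁻¹ (g q) := by
        rw [huk']
        simp
      rw [h1, hq]
    · rintro ⟨r, hr, rfl⟩
      rw [huk']
      simp [(hfixk r).2 hr]
  rw [hmap, Finset.card_map]

theorem card_fixF_s7 : (fixF s7).card = 3 := by decide
theorem card_fixF_s5 : (fixF s5).card = 4 := by decide
theorem card_fixF_s11 : (fixF s11).card = 2 := by decide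

/-- The elements of order 7 of `M24` have 3 fixed points. -/
theorem card_fixF_seven {g : Equiv.Perm GolayPt} (hg : g ∈ M24) (hgo : orderOf g = 7) :
    (fixF g).card = 3 := by
  have : Fact (Nat.Prime 7) := ⟨by norm_num⟩
  rw [card_fixF_conj (by norm_num) s7_mem_M.1 orderOf_s7 s7_fix hg hgo, card_fixF_s7]

/-- The elements of order 5 of `M24` have 4 fixed points. -/
theorem card_fixF_five {g : Equiv.Perm GolayPt} (hg : g ∈ M24) (hgo : orderOf g = 5) :
    (fixF g).card = 4 := by
  have : Fact (Nat.Prime 5) := ⟨by norm_num⟩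
  rw [card_fixF_conj (by norm_num) s5_mem_M24 orderOf_s5 s5_fix hg hgo, card_fixF_s5]

/-- The elements of order 11 of `M24` have 2 fixed points. -/
theorem card_fixF_eleven {g : Equiv.Perm GolayPt} (hg : g ∈ M24) (hgo : orderOf g = 11) :
    (fixF g).card = 2 := by
  have : Fact (Nat.Prime 11) := ⟨by norm_num⟩
  rw [card_fixF_conj (by norm_num) s11_mem_M24 orderOf_s11 s11_fix hg hgo, card_fixF_s11]

/-- Cauchy's theorem in a subgroup. -/
theorem exists_orderOf_eq (K : Subgroup (Equiv.Perm GolayPt)) (p : ℕ) [hp : Fact p.Prime]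
    (h : p ∣ Nat.card K) : ∃ t ∈ K, orderOf t = p := by
  obtain ⟨y, hy⟩ := exists_prime_orderOf_dvd_card' p h
  exact ⟨y, y.2, by rw [Subgroup.orderOf_coe]; exact hy⟩

/-! ## Orbits and point stabilizers -/

/-- The stabilizer of a point in a subgroup. -/
def stabP (K : Subgroup (Equiv.Perm GolayPt)) (a : GolayPt) : Subgroup (Equiv.Perm GolayPt) :=
  K ⊓ MulAction.stabilizer (Equiv.Perm GolayPt) a

theorem mem_stabP {K : Subgroup (Equiv.Perm GolayPt)} {a : GolayPt} {k : Equiv.Perm GolayPt} :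
    k ∈ stabP K a ↔ k ∈ K ∧ k a = a := by
  rw [stabP, Subgroup.mem_inf, MulAction.mem_stabilizer_iff, Equiv.Perm.smul_def]

theorem stabP_le (K : Subgroup (Equiv.Perm GolayPt)) (a : GolayPt) : stabP K a ≤ K := inf_le_left

open Classical in
/-- The orbit of a point under a subgroup, as a finite set. -/
noncomputable def orbF (K : Subgroup (Equiv.Perm GolayPt)) (x : GolayPt) : Finset GolayPt :=
  Finset.univ.filter (fun y => ∃ h ∈ K, h x = y)

theorem mem_orbF {K : Subgroup (Equiv.Perm GolayPt)} {x y : GolayPt} :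
    y ∈ orbF K x ↔ ∃ h ∈ K, h x = y := by
  classical
  simp [orbF]

theorem self_mem_orbF (K : Subgroup (Equiv.Perm GolayPt)) (x : GolayPt) : x ∈ orbF K x :=
  mem_orbF.2 ⟨1, one_mem K, rfl⟩

theorem orbF_maps (K : Subgroup (Equiv.Perm GolayPt)) (x : GolayPt) :
    ∀ k ∈ K, ∀ q ∈ orbF K x, k q ∈ orbF K x := by
  intro k hk q hq
  obtain ⟨h, hh, rfl⟩ := mem_orbF.1 hq
  exact mem_orbF.2 ⟨k * h, mul_mem hk hh, rfl⟩

/-- Orbit-stabilizer. -/
theorem card_stabP_mul (K : Subgroup (Equiv.Perm GolayPt)) (x : GolayPt) :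
    Nat.card (stabP K x) * (orbF K x).card = Nat.card K := by
  have h := card_inf_stabilizer_mul K x ((orbF K x : Finset GolayPt) : Set GolayPt) (fun y => by
    rw [Finset.mem_coe, mem_orbF]
    rfl)
  rwa [Set.ncard_coe_finset] at h

/-- The order of a point stabilizer of `M24`. -/
theorem card_stabP_M24 (x : GolayPt) : Nat.card (stabP M24 x) = 10200960 := by
  rw [← Cfsg.Agent.S0376.result x]
  exact (Nat.card_congr (Cfsg.Agent.Helper7.stabSubEquiv M24 x).toEquiv).symm

theorem stabP_mono {K L : Subgroup (Equiv.Perm GolayPt)} (h : K ≤ L) (a : GolayPt) :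
    stabP K a ≤ stabP L a := inf_le_inf_right _ h

/-- The length of an orbit of a subgroup of `M24`, times 10200960, is a multiple of its order. -/
theorem card_dvd_orb {K : Subgroup (Equiv.Perm GolayPt)} (hK : K ≤ M24) (x : GolayPt) :
    Nat.card K ∣ 10200960 * (orbF K x).card := by
  rw [← card_stabP_mul K x, ← card_stabP_M24 x]
  exact Nat.mul_dvd_mul_right (Subgroup.card_dvd_of_le (stabP_mono hK x)) _

/-! ## Counting conjugates -/

/-- If the elements `b` of a finite set `B` have a power `b ^ e` which is a non-trivial element of the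
subgroup `P` of prime order of `K`, the set of the `K`-conjugates of the elements of `B` has at least
`|K| * |B| / |N_K(P)|` elements. -/
theorem conj_count {K P : Subgroup (Equiv.Perm GolayPt)} {p : ℕ} [hp : Fact p.Prime]
    (hP : Nat.card P = p) (B : Finset (Equiv.Perm GolayPt)) (e : ℕ)
    (hB : ∀ b ∈ B, b ^ e ∈ P ∧ b ^ e ≠ 1) :
    ∃ Y : Finset (Equiv.Perm GolayPt), (∀ y ∈ Y, ∃ g ∈ K, ∃ b ∈ B, y = g * b * g⁻¹) ∧
      Nat.card K * B.card ≤
        Nat.card ↥(Subgroup.normalizer (P : Set (Equiv.Perm GolayPt)) ⊓ K) * Y.card := by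
  classical
  have cardF : ∀ S : Subgroup (Equiv.Perm GolayPt),
      Nat.card S = (Finset.univ.filter (fun g => g ∈ S)).card := by
    intro S
    rw [Nat.card_eq_fintype_card, Fintype.card_subtype]
  refine ⟨((Finset.univ.filter (fun g => g ∈ K)) ×ˢ B).image (fun x => x.1 * x.2 * x.1⁻¹), ?_, ?_⟩
  · intro y hy
    rw [Finset.mem_image] at hy
    obtain ⟨⟨g, b⟩, hgb, rfl⟩ := hy
    rw [Finset.mem_product] at hgb
    exact ⟨g, (Finset.mem_filter.1 hgb.1).2, b, hgb.2, rfl⟩
  · rw [cardF K, cardF (Subgroup.normalizer (P : Set (Equiv.Perm GolayPt)) ⊓ K), ← Finset.card_product]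
    apply Finset.card_le_mul_card_image
    intro y hy
    rw [Finset.mem_image] at hy
    obtain ⟨⟨g0, b0⟩, hgb0, hy0⟩ := hy
    rw [Finset.mem_product] at hgb0
    have hg0K : g0 ∈ K := (Finset.mem_filter.1 hgb0.1).2
    obtain ⟨hu0P, -⟩ := hB b0 hgb0.2
    apply Finset.card_le_card_of_injOn (fun x => g0⁻¹ * x.1)
    · intro x hx
      rw [Finset.mem_coe, Finset.mem_filter, Finset.mem_product] at hx
      obtain ⟨⟨hxK, hxB⟩, hxy⟩ := hx
      have hgK : x.1 ∈ K := (Finset.mem_filter.1 hxK).2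
      obtain ⟨hvP, hv1⟩ := hB x.2 hxB
      rw [Finset.mem_coe, Finset.mem_filter]
      refine ⟨Finset.mem_univ _, Subgroup.mem_inf.2 ⟨?_, mul_mem (inv_mem hg0K) hgK⟩⟩
      have hconj : (g0⁻¹ * x.1) * x.2 ^ e * (g0⁻¹ * x.1)⁻¹ = b0 ^ e := by
        have h1 : x.1 * x.2 ^ e * x.1⁻¹ = g0 * b0 ^ e * g0⁻¹ := by
          have h2 : (x.1 * x.2 * x.1⁻¹) ^ e = (g0 * b0 * g0⁻¹) ^ e := by
            rw [hxy, hy0]
          rwa [conj_pow, conj_pow] at h2
        calc (g0⁻¹ * x.1) * x.2 ^ e * (g0⁻¹ * x.1)⁻¹ = g0⁻¹ * (x.1 * x.2 ^ e * x.1⁻¹) * g0 := by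
              group
          _ = b0 ^ e := by rw [h1]; group
      apply Subgroup.mem_normalizer_fintype
      intro n hn
      have hn' : (⟨n, hn⟩ : ↥P) ∈ Subgroup.zpowers (⟨x.2 ^ e, hvP⟩ : ↥P) :=
        mem_zpowers_of_prime_card hP (fun h => hv1 (congrArg Subtype.val h))
      obtain ⟨j, hj⟩ := Subgroup.mem_zpowers_iff.1 hn'
      have hj' : (x.2 ^ e) ^ j = n := congrArg Subtype.val hj
      rw [← hj', ← conj_zpow, hconj]
      exact zpow_mem hu0P j
    · intro x hx x' hx' hxx'
      rw [Finset.mem_coe, Finset.mem_filter] at hx hx'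
      have h1 : x.1 = x'.1 := mul_left_cancel hxx'
      have h2 : x.1 * x.2 * x.1⁻¹ = x'.1 * x'.2 * x'.1⁻¹ := hx.2.trans hx'.2.symm
      rw [← h1] at h2
      have h3 : x.2 = x'.2 := mul_left_cancel (mul_right_cancel h2)
      exact Prod.ext h1 h3

end Cfsg.Agent.Helper91.Idx24
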