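/-
Helper91: a subgroup of order 887040 (index 276) of `Cfsg.M24` leaves a pair of points invariant.
-/
import Cfsg.Agent.Helper91.Idx24a

set_option autoImplicit false

namespace Cfsg.Agent.Helper91.Idx24

open Cfsg Cfsg.Agent.Helper91 Cfsg.Agent.Helper91.Idx23
open scoped Pointwise

/-- A point whose orbit has one element is fixed. -/
theorem fixed_of_orbF_card_one {K : Subgroup (Equiv.Perm GolayPt)} {x : GolayPt}
    (h : (orbF K x).card = 1) : ∀ k ∈ K, k x = x := by
  intro k hk
  have h1 : orbF K x = {x} := by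
    obtain ⟨y, hy⟩ := Finset.card_eq_one.1 h
    have h2 := self_mem_orbF K x
    rw [hy, Finset.mem_singleton] at h2
    rw [hy, h2]
  have h2 := orbF_maps K x k hk x (self_mem_orbF K x)
  rw [h1, Finset.mem_singleton] at h2
  exact h2

/-- The complement of an invariant set is invariant. -/
theorem compl_maps {K : Subgroup (Equiv.Perm GolayPt)} {X : Finset GolayPt}
    (hX : ∀ k ∈ K, ∀ q ∈ X, k q ∈ X) : ∀ k ∈ K, ∀ q ∈ Xᶜ, k q ∈ Xᶜ := by
  intro k hk q hq
  rw [Finset.mem_compl] at hq ⊢
  intro h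
  apply hq
  have h1 := hX k⁻¹ (inv_mem hk) (k q) h
  simpa using h1

theorem exists_ne_pt (a : GolayPt) : ∃ b : GolayPt, b ≠ a := by
  by_cases h : a = none
  · exact ⟨some 0, by rw [h]; exact Option.some_ne_none 0⟩
  · exact ⟨none, fun h' => h h'.symm⟩

/-- A subgroup of order 887040 of `M24` leaves a pair of points invariant. -/
theorem idx276 {K : Subgroup (Equiv.Perm GolayPt)} (hK : K ≤ M24) (hc : Nat.card K = 887040) :
    ∃ s : Finset GolayPt, s.card = 2 ∧ ∀ k ∈ K, k • s = s := by
  classical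
  have : Fact (Nat.Prime 7) := ⟨by norm_num⟩
  have : Fact (Nat.Prime 11) := ⟨by norm_num⟩
  obtain ⟨t, htK, hto⟩ := exists_orderOf_eq K 7 (by rw [hc]; norm_num)
  obtain ⟨u, huK, huo⟩ := exists_orderOf_eq K 11 (by rw [hc]; norm_num)
  have ht7 : t ^ 7 = 1 := by rw [← hto]; exact pow_orderOf_eq_one t
  have hu11 : u ^ 11 = 1 := by rw [← huo]; exact pow_orderOf_eq_one u
  have hft := card_fixF_seven (hK htK) hto
  have hfu := card_fixF_eleven (hK huK) huo
  have hinv : ∀ X : Finset GolayPt, (∀ k ∈ K, ∀ q ∈ X, k q ∈ X) →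
      X.card = 0 ∨ X.card = 1 ∨ X.card = 2 ∨ X.card = 22 ∨ X.card = 23 ∨ X.card = 24 := by
    intro X hX
    have h1 := card_modEq_fix ht7 X (hX t htK)
    have h2 := card_modEq_fix hu11 X (hX u huK)
    have h3 : (X ∩ fixF t).card ≤ 3 := hft ▸ Finset.card_le_card Finset.inter_subset_right
    have h4 : (X ∩ fixF u).card ≤ 2 := hfu ▸ Finset.card_le_card Finset.inter_subset_right
    have h5 : X.card ≤ 24 := by
      have := Finset.card_le_univ X
      rwa [card_golayPt] at this
    unfold Nat.ModEq at h1 h2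
    omega
  have hnofix : ∀ a : GolayPt, ¬ ∀ k ∈ K, k a = a := by
    intro a ha
    have hle : K ≤ stabP M24 a := fun k hk => mem_stabP.2 ⟨hK hk, ha k hk⟩
    have hd := Subgroup.card_dvd_of_le hle
    rw [hc, card_stabP_M24] at hd
    obtain ⟨c, hc'⟩ := hd
    omega
  by_cases h2 : ∃ x, (orbF K x).card = 2
  · obtain ⟨x, hx⟩ := h2
    exact ⟨orbF K x, hx, fun k hk => smul_eq_of_maps (orbF_maps K x k hk)⟩
  by_cases h22 : ∃ x, (orbF K x).card = 22
  · obtain ⟨x, hx⟩ := h22
    refine ⟨(orbF K x)ᶜ, ?_, fun k hk => smul_eq_of_maps (compl_maps (orbF_maps K x) k hk)⟩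
    rw [Finset.card_compl, card_golayPt, hx]
  exfalso
  have horb : ∀ x, (orbF K x).card = 24 := by
    intro x
    have h0 : 0 < (orbF K x).card := Finset.card_pos.2 ⟨x, self_mem_orbF K x⟩
    rcases hinv (orbF K x) (orbF_maps K x) with h | h | h | h | h | h
    · omega
    · exact absurd (fixed_of_orbF_card_one h) (hnofix x)
    · exact absurd ⟨x, h⟩ h2
    · exact absurd ⟨x, h⟩ h22
    · exfalso
      have hcc : ((orbF K x)ᶜ).card = 1 := by rw [Finset.card_compl, card_golayPt, h]
      obtain ⟨a, ha⟩ := Finset.card_eq_one.1 hcc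
      apply hnofix a
      intro k hk
      have h1 := compl_maps (orbF_maps K x) k hk a (by rw [ha]; exact Finset.mem_singleton_self a)
      rwa [ha, Finset.mem_singleton] at h1
    · exact h
  have hst : ∀ a, Nat.card (stabP K a) = 36960 := by
    intro a
    have h1 := card_stabP_mul K a
    rw [horb a, hc] at h1
    omega
  have hsecond : ∀ a, ∃ b, b ≠ a ∧ ∀ k ∈ stabP K a, k b = b := by
    intro a
    obtain ⟨t', ht'K, ht'o⟩ := exists_orderOf_eq (stabP K a) 7 (by rw [hst a]; norm_num)
    obtain ⟨u', hu'K, hu'o⟩ := exists_orderOf_eq (stabP K a) 11 (by rw [hst a]; norm_num)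
    have ht'7 : t' ^ 7 = 1 := by rw [← ht'o]; exact pow_orderOf_eq_one t'
    have hu'11 : u' ^ 11 = 1 := by rw [← hu'o]; exact pow_orderOf_eq_one u'
    have hft' := card_fixF_seven (hK (mem_stabP.1 ht'K).1) ht'o
    have hfu' := card_fixF_eleven (hK (mem_stabP.1 hu'K).1) hu'o
    have hinv' : ∀ X : Finset GolayPt, a ∉ X → (∀ k ∈ stabP K a, ∀ q ∈ X, k q ∈ X) →
        X.card = 0 ∨ X.card = 1 ∨ X.card = 22 ∨ X.card = 23 := by
      intro X haX hX
      have h1 := card_modEq_fix ht'7 X (hX t' ht'K)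
      have h2 := card_modEq_fix hu'11 X (hX u' hu'K)
      have h3 : (X ∩ fixF t').card ≤ 2 := by
        have hsub : X ∩ fixF t' ⊆ (fixF t').erase a := by
          intro q hq
          rw [Finset.mem_inter] at hq
          exact Finset.mem_erase.2 ⟨fun h => haX (h ▸ hq.1), hq.2⟩
        have h6 := Finset.card_le_card hsub
        rw [Finset.card_erase_of_mem (mem_fixF.2 (mem_stabP.1 ht'K).2), hft'] at h6
        exact h6
      have h4 : (X ∩ fixF u').card ≤ 1 := by
        have hsub : X ∩ fixF u' ⊆ (fixF u').erase a := by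
          intro q hq
          rw [Finset.mem_inter] at hq
          exact Finset.mem_erase.2 ⟨fun h => haX (h ▸ hq.1), hq.2⟩
        have h6 := Finset.card_le_card hsub
        rw [Finset.card_erase_of_mem (mem_fixF.2 (mem_stabP.1 hu'K).2), hfu'] at h6
        exact h6
      have h5 : X.card ≤ 23 := by
        have hsub : X ⊆ Finset.univ.erase a := fun q hq =>
          Finset.mem_erase.2 ⟨fun h => haX (h ▸ hq), Finset.mem_univ q⟩
        have h6 := Finset.card_le_card hsub
        rw [Finset.card_erase_of_mem (Finset.mem_univ a), Finset.card_univ, card_golayPt] at h6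
        exact h6
      unfold Nat.ModEq at h1 h2
      omega
    obtain ⟨b0, hb0⟩ := exists_ne_pt a
    have haX : a ∉ orbF (stabP K a) b0 := by
      intro h
      obtain ⟨k, hk, hkb⟩ := mem_orbF.1 h
      apply hb0
      have hka : k a = a := (mem_stabP.1 hk).2
      exact k.injective (hkb.trans hka.symm)
    have hpos : 0 < (orbF (stabP K a) b0).card := Finset.card_pos.2 ⟨b0, self_mem_orbF _ b0⟩
    rcases hinv' _ haX (orbF_maps (stabP K a) b0) with h | h | h | h
    · omega
    · exact ⟨b0, hb0, fixed_of_orbF_card_one h⟩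
    · have hsubO : orbF (stabP K a) b0 ⊆ Finset.univ.erase a := fun q hq =>
        Finset.mem_erase.2 ⟨fun h' => haX (h' ▸ hq), Finset.mem_univ q⟩
      have hX'card : ((Finset.univ.erase a) \ orbF (stabP K a) b0).card = 1 := by
        rw [Finset.card_sdiff_of_subset hsubO, Finset.card_erase_of_mem (Finset.mem_univ a),
          Finset.card_univ, card_golayPt, h]
      obtain ⟨b, hb⟩ := Finset.card_eq_one.1 hX'card
      have hbm : b ∈ (Finset.univ.erase a) \ orbF (stabP K a) b0 := by
        rw [hb]; exact Finset.mem_singleton_self b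
      rw [Finset.mem_sdiff, Finset.mem_erase] at hbm
      refine ⟨b, hbm.1.1, ?_⟩
      intro k hk
      have hkb : k b ∈ (Finset.univ.erase a) \ orbF (stabP K a) b0 := by
        rw [Finset.mem_sdiff, Finset.mem_erase]
        refine ⟨⟨?_, Finset.mem_univ _⟩, ?_⟩
        · intro h'
          apply hbm.1.1
          have hka : k a = a := (mem_stabP.1 hk).2
          exact k.injective (h'.trans hka.symm)
        · intro h'
          apply hbm.2
          have h1 := orbF_maps (stabP K a) b0 k⁻¹ (inv_mem hk) (k b) h'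
          simpa using h1
      rwa [hb, Finset.mem_singleton] at hkb
    · exfalso
      have h1 := card_stabP_mul (stabP K a) b0
      rw [h, hst a] at h1
      omega
  have hfne : (fixF t).Nonempty := Finset.card_pos.1 (by rw [hft]; norm_num)
  obtain ⟨p1, hp1⟩ := hfne
  obtain ⟨q1, hq1ne, hq1⟩ := hsecond p1
  have htp1 : t ∈ stabP K p1 := mem_stabP.2 ⟨htK, mem_fixF.1 hp1⟩
  have hq1f : q1 ∈ fixF t := mem_fixF.2 (hq1 t htp1)
  have heq1 : stabP K p1 = stabP K q1 := by
    apply Subgroup.eq_of_le_of_card_ge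
    · intro k hk
      exact mem_stabP.2 ⟨(mem_stabP.1 hk).1, hq1 k hk⟩
    · rw [hst, hst]
  obtain ⟨p3, hp3, hp3n⟩ : ∃ p3 ∈ fixF t, p3 ∉ ({p1, q1} : Finset GolayPt) := by
    apply Finset.exists_mem_notMem_of_card_lt_card
    rw [hft]
    exact lt_of_le_of_lt Finset.card_le_two (by norm_num)
  rw [Finset.mem_insert, Finset.mem_singleton, not_or] at hp3n
  have hcard3 : ({p1, q1, p3} : Finset GolayPt).card = 3 :=
    Finset.card_eq_three.2 ⟨p1, q1, p3, fun h => hq1ne h.symm, fun h => hp3n.1 h.symm,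
      fun h => hp3n.2 h.symm, rfl⟩
  have hfixt : fixF t = {p1, q1, p3} := by
    symm
    apply Finset.eq_of_subset_of_card_le
    · intro q hq
      rw [Finset.mem_insert, Finset.mem_insert, Finset.mem_singleton] at hq
      rcases hq with h | h | h
      · rw [h]; exact hp1
      · rw [h]; exact hq1f
      · rw [h]; exact hp3
    · rw [hft, hcard3]
  obtain ⟨q3, hq3ne, hq3⟩ := hsecond p3
  have htp3 : t ∈ stabP K p3 := mem_stabP.2 ⟨htK, mem_fixF.1 hp3⟩
  have hq3f : q3 ∈ fixF t := mem_fixF.2 (hq3 t htp3)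
  have heq3 : stabP K p3 = stabP K q3 := by
    apply Subgroup.eq_of_le_of_card_ge
    · intro k hk
      exact mem_stabP.2 ⟨(mem_stabP.1 hk).1, hq3 k hk⟩
    · rw [hst, hst]
  have heq13 : stabP K p1 = stabP K p3 := by
    rw [hfixt, Finset.mem_insert, Finset.mem_insert, Finset.mem_singleton] at hq3f
    rcases hq3f with h | h | h
    · rw [heq3, h]
    · rw [heq3, h, heq1]
    · exact absurd h hq3ne
  obtain ⟨u', hu'K, hu'o⟩ := exists_orderOf_eq (stabP K p1) 11 (by rw [hst p1]; norm_num)
  have hfu' := card_fixF_eleven (hK (mem_stabP.1 hu'K).1) hu'o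
  have h3 : ({p1, q1, p3} : Finset GolayPt) ⊆ fixF u' := by
    intro q hq
    rw [Finset.mem_insert, Finset.mem_insert, Finset.mem_singleton] at hq
    rcases hq with h | h | h
    · rw [h]; exact mem_fixF.2 (mem_stabP.1 hu'K).2
    · rw [h]; exact mem_fixF.2 (hq1 u' hu'K)
    · rw [h]; exact mem_fixF.2 (mem_stabP.1 (heq13 ▸ hu'K)).2
  have h4 := Finset.card_le_card h3
  rw [hcard3, hfu'] at h4
  omega

end Cfsg.Agent.Helper91.Idx24
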