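/-
Helper91: `Cfsg.M24` has no subgroup of order 967680 (index 253): such a subgroup would be transitive
on the 24 points, with point stabilizers of index 253 in the point stabilizers of `M24`, hence stabilizers
of pairs of points or of octads; both cases are excluded with the fixed points of elements of order 5 and 7.
-/
import Cfsg.Agent.Helper91.Idx24b
import Cfsg.Agent.Helper7.OctStab

set_option autoImplicit false

namespace Cfsg.Agent.Helper91.Idx24

open Cfsg Cfsg.Agent.Helper91 Cfsg.Agent.Helper91.Idx23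
open scoped Pointwise

/-- A permutation of prime order `p` leaving invariant a set with less than `p` points fixes its points. -/
theorem fix_of_smul_eq {p : ℕ} [Fact p.Prime] {g : Equiv.Perm GolayPt} (hg : g ^ p = 1)
    {X : Finset GolayPt} (hX : g • X = X) (hlt : X.card < p) : X ⊆ fixF g := by
  have h1 := card_modEq_fix hg X (maps_of_smul_eq hX)
  have h2 : (X ∩ fixF g).card ≤ X.card := Finset.card_le_card Finset.inter_subset_left
  have h3 : (X ∩ fixF g).card = X.card := by
    unfold Nat.ModEq at h1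
    rw [Nat.mod_eq_of_lt hlt, Nat.mod_eq_of_lt (lt_of_le_of_lt h2 hlt)] at h1
    exact h1.symm
  have h4 : X ∩ fixF g = X := Finset.eq_of_subset_of_card_le Finset.inter_subset_left (by rw [h3])
  rw [← h4]
  exact Finset.inter_subset_right

/-- The stabilizer of the point `y` in `K` is the stabilizer of the set `X` in the stabilizer of `y` in
`M24`. -/
def IsStabData (K : Subgroup (Equiv.Perm GolayPt)) (y : GolayPt) (X : Finset GolayPt) : Prop :=
  ∀ h ∈ M24, h y = y → (h ∈ stabP K y ↔ h • X = X)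

theorem IsStabData.conj {K : Subgroup (Equiv.Perm GolayPt)} (hK : K ≤ M24) {x : GolayPt}
    {X : Finset GolayPt} (hd : IsStabData K x X) {g : Equiv.Perm GolayPt} (hg : g ∈ K) :
    IsStabData K (g x) (g • X) := by
  intro h hh hhy
  have h1 : g⁻¹ * h * g ∈ M24 := mul_mem (mul_mem (inv_mem (hK hg)) hh) (hK hg)
  have h2 : (g⁻¹ * h * g) x = x := by
    rw [Equiv.Perm.mul_apply, Equiv.Perm.mul_apply, hhy]
    simp
  have h3 := hd (g⁻¹ * h * g) h1 h2
  have h4 : g⁻¹ * h * g ∈ stabP K x ↔ h ∈ stabP K (g x) := by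
    rw [mem_stabP, mem_stabP]
    constructor
    · rintro ⟨hk, -⟩
      refine ⟨?_, hhy⟩
      have e : h = g * (g⁻¹ * h * g) * g⁻¹ := by group
      rw [e]
      exact mul_mem (mul_mem hg hk) (inv_mem hg)
    · rintro ⟨hk, -⟩
      exact ⟨mul_mem (mul_mem (inv_mem hg) hk) hg, h2⟩
  rw [← h4, h3, mul_smul, mul_smul, inv_smul_eq_iff]

/-- The point stabilizers of a transitive subgroup with point stabilizers of order 40320 are not
stabilizers of pairs of points. -/
theorem no_duad_type {K : Subgroup (Equiv.Perm GolayPt)} (hK : K ≤ M24)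
    (hst : ∀ a, Nat.card (stabP K a) = 40320)
    (hd : ∀ y, ∃ s : Finset GolayPt, s.card = 2 ∧ y ∉ s ∧ IsStabData K y s) : False := by
  have : Fact (Nat.Prime 7) := ⟨by norm_num⟩
  have : Fact (Nat.Prime 5) := ⟨by norm_num⟩
  have hA2 : ∀ (y : GolayPt) (s : Finset GolayPt), s.card = 2 → y ∉ s → IsStabData K y s →
      ∀ t ∈ stabP K y, orderOf t = 7 → fixF t = insert y s := by
    intro y s hs2 hys hdat t ht hto
    have htM := hK (mem_stabP.1 ht).1
    have hty := (mem_stabP.1 ht).2
    have ht7 : t ^ 7 = 1 := by rw [← hto]; exact pow_orderOf_eq_one t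
    have hsm : t • s = s := (hdat t htM hty).1 ht
    have hsub := fix_of_smul_eq ht7 hsm (by rw [hs2]; norm_num)
    symm
    apply Finset.eq_of_subset_of_card_le
    · intro q hq
      rw [Finset.mem_insert] at hq
      rcases hq with h | hq
      · rw [h]; exact mem_fixF.2 hty
      · exact hsub hq
    · rw [card_fixF_seven htM hto, Finset.card_insert_of_notMem hys, hs2]
  obtain ⟨s, hs2, hxs, hdat⟩ := hd none
  obtain ⟨t, ht, hto⟩ := exists_orderOf_eq (stabP K none) 7 (by rw [hst]; norm_num)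
  obtain ⟨f, hf, hfo⟩ := exists_orderOf_eq (stabP K none) 5 (by rw [hst]; norm_num)
  have hfM := hK (mem_stabP.1 hf).1
  have hf5 : f ^ 5 = 1 := by rw [← hfo]; exact pow_orderOf_eq_one f
  have hTx := hA2 none s hs2 hxs hdat t ht hto
  have hfs : f • s = s := (hdat f hfM (mem_stabP.1 hf).2).1 hf
  have hsf : s ⊆ fixF f := fix_of_smul_eq hf5 hfs (by rw [hs2]; norm_num)
  have hTf : insert none s ⊆ fixF f := by
    intro q hq
    rw [Finset.mem_insert] at hq
    rcases hq with h | hq
    · rw [h]; exact mem_fixF.2 (mem_stabP.1 hf).2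
    · exact hsf hq
  have hT3 : (insert none s).card = 3 := by rw [Finset.card_insert_of_notMem hxs, hs2]
  obtain ⟨c, hcf, hcT⟩ : ∃ c ∈ fixF f, c ∉ insert none s := by
    apply Finset.exists_mem_notMem_of_card_lt_card
    rw [hT3, card_fixF_five hfM hfo]
    norm_num
  obtain ⟨sc, hsc2, hcsc, hdatc⟩ := hd c
  have hfc : f ∈ stabP K c := mem_stabP.2 ⟨(mem_stabP.1 hf).1, mem_fixF.1 hcf⟩
  have hfsc : f • sc = sc := (hdatc f hfM (mem_fixF.1 hcf)).1 hfc
  have hscf : sc ⊆ fixF f := fix_of_smul_eq hf5 hfsc (by rw [hsc2]; norm_num)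
  have hfix4 : fixF f = insert c (insert none s) := by
    symm
    apply Finset.eq_of_subset_of_card_le
    · intro q hq
      rw [Finset.mem_insert] at hq
      rcases hq with h | hq
      · rw [h]; exact hcf
      · exact hTf hq
    · rw [card_fixF_five hfM hfo, Finset.card_insert_of_notMem hcT, hT3]
  obtain ⟨u, hu⟩ : sc.Nonempty := Finset.card_pos.1 (by rw [hsc2]; norm_num)
  have huT : u ∈ insert none s := by
    have h1 := hscf hu
    rw [hfix4, Finset.mem_insert] at h1
    rcases h1 with h1 | h1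
    · rw [h1] at hu; exact absurd hu hcsc
    · exact h1
  obtain ⟨tc, htc, htco⟩ := exists_orderOf_eq (stabP K c) 7 (by rw [hst]; norm_num)
  have hTc := hA2 c sc hsc2 hcsc hdatc tc htc htco
  obtain ⟨su, hsu2, husu, hdatu⟩ := hd u
  have htu : t ∈ stabP K u := mem_stabP.2 ⟨(mem_stabP.1 ht).1, mem_fixF.1 (hTx ▸ huT)⟩
  have htcu : tc ∈ stabP K u :=
    mem_stabP.2 ⟨(mem_stabP.1 htc).1, mem_fixF.1 (by rw [hTc]; exact Finset.mem_insert_of_mem hu)⟩
  have h1 := hA2 u su hsu2 husu hdatu t htu hto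
  have h2 := hA2 u su hsu2 husu hdatu tc htcu htco
  have hc1 : c ∈ fixF tc := mem_fixF.2 (mem_stabP.1 htc).2
  rw [h2, ← h1, hTx] at hc1
  exact hcT hc1

/-- The point stabilizers of a transitive subgroup with point stabilizers of order 40320 are not
stabilizers of octads. -/
theorem no_octad_type {K : Subgroup (Equiv.Perm GolayPt)} (hK : K ≤ M24)
    (hst : ∀ a, Nat.card (stabP K a) = 40320)
    (hd : ∀ y, ∃ o ∈ octads, y ∈ o ∧ IsStabData K y o) : False := by
  have : Fact (Nat.Prime 5) := ⟨by norm_num⟩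
  have hB2 : ∀ (y : GolayPt) (o : Finset GolayPt) (a : GolayPt) (o' : Finset GolayPt), o ∈ octads →
      y ∈ o → IsStabData K y o → o' ∈ octads → a ∈ o' → IsStabData K a o' → a ∈ o → o' = o := by
    intro y o a o' ho hyo hdat ho' hao' hdat' hao
    by_contra hne
    have hq : ∃ q ∈ o', q ∉ o := by
      by_contra hcon
      apply hne
      apply Finset.eq_of_subset_of_card_le
      · intro q hq
        by_contra hqo
        exact hcon ⟨q, hq, hqo⟩
      · rw [ho.2, ho'.2]
    obtain ⟨q, hqo', hqo⟩ := hq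
    have hsub : oᶜ ⊆ o' := by
      intro r hr
      rw [Finset.mem_compl] at hr
      obtain ⟨e, he, heq⟩ := Cfsg.Agent.Helper7.octad_fix_trans ho hqo hr
      have heM : e ∈ M24 := he.1
      have hefix : ∀ z ∈ o, e z = z := fun z hz =>
        (mem_fixingSubgroup_iff _).1 he.2 z (Finset.mem_coe.2 hz)
      have heo : e • o = o := smul_eq_of_maps (fun z hz => by rw [hefix z hz]; exact hz)
      have heK : e ∈ stabP K y := (hdat e heM (hefix y hyo)).2 heo
      have hea : e ∈ stabP K a := mem_stabP.2 ⟨(mem_stabP.1 heK).1, hefix a hao⟩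
      have heo' : e • o' = o' := (hdat' e heM (hefix a hao)).1 hea
      rw [← heq]
      exact maps_of_smul_eq heo' q hqo'
    have h1 := Finset.card_le_card hsub
    rw [Finset.card_compl, card_golayPt, ho.2, ho'.2] at h1
    omega
  obtain ⟨o, ho, hxo, hdat⟩ := hd none
  obtain ⟨f, hf, hfo⟩ := exists_orderOf_eq (stabP K none) 5 (by rw [hst]; norm_num)
  have hfM := hK (mem_stabP.1 hf).1
  have hf5 : f ^ 5 = 1 := by rw [← hfo]; exact pow_orderOf_eq_one f
  have h3of : ∀ o' : Finset GolayPt, o' ∈ octads → f • o' = o' → (o' ∩ fixF f).card = 3 := by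
    intro o' ho' hfo'
    have h1 := card_modEq_fix hf5 o' (maps_of_smul_eq hfo')
    have h2 : (o' ∩ fixF f).card ≤ 4 := by
      rw [← card_fixF_five hfM hfo]
      exact Finset.card_le_card Finset.inter_subset_right
    rw [ho'.2] at h1
    unfold Nat.ModEq at h1
    omega
  have h3 := h3of o ho ((hdat f hfM (mem_stabP.1 hf).2).1 hf)
  obtain ⟨c, hcf, hco⟩ : ∃ c ∈ fixF f, c ∉ o ∩ fixF f := by
    apply Finset.exists_mem_notMem_of_card_lt_card
    rw [h3, card_fixF_five hfM hfo]
    norm_num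
  have hco' : c ∉ o := fun h => hco (Finset.mem_inter.2 ⟨h, hcf⟩)
  obtain ⟨oc, hoc, hcoc, hdatc⟩ := hd c
  have hfc : f ∈ stabP K c := mem_stabP.2 ⟨(mem_stabP.1 hf).1, mem_fixF.1 hcf⟩
  have h3c := h3of oc hoc ((hdatc f hfM (mem_fixF.1 hcf)).1 hfc)
  obtain ⟨z, hz⟩ : ((o ∩ fixF f) ∩ (oc ∩ fixF f)).Nonempty := by
    rw [← Finset.card_pos]
    have hu : ((o ∩ fixF f) ∪ (oc ∩ fixF f)).card ≤ 4 := by
      rw [← card_fixF_five hfM hfo]
      exact Finset.card_le_card (Finset.union_subset Finset.inter_subset_right Finset.inter_subset_right)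
    have h4 := Finset.card_union_add_card_inter (o ∩ fixF f) (oc ∩ fixF f)
    omega
  rw [Finset.mem_inter, Finset.mem_inter, Finset.mem_inter] at hz
  obtain ⟨oz, hoz, hzoz, hdatz⟩ := hd z
  have e1 := hB2 none o z oz ho hxo hdat hoz hzoz hdatz hz.1.1
  have e2 := hB2 c oc z oz hoc hcoc hdatc hoz hzoz hdatz hz.2.1
  rw [← e2, e1] at hcoc
  exact hco' hcoc

/-- The order of the point stabilizers and transitivity, from the order of the subgroup. -/
theorem trans_of_card {K : Subgroup (Equiv.Perm GolayPt)} (hK : K ≤ M24) {n m : ℕ}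
    (hc : Nat.card K = n) (hn : n = 24 * m)
    (hdvd : ∀ j c : ℕ, 0 < j → j ≤ 24 → 10200960 * j = n * c → j = 24) :
    (∀ a, Nat.card (stabP K a) = m) ∧ ∀ x y : GolayPt, ∃ g ∈ K, g x = y := by
  have horb : ∀ x, (orbF K x).card = 24 := by
    intro x
    have h0 : 0 < (orbF K x).card := Finset.card_pos.2 ⟨x, self_mem_orbF K x⟩
    have h1 : (orbF K x).card ≤ 24 := by
      have := Finset.card_le_univ (orbF K x)
      rwa [card_golayPt] at this
    obtain ⟨c, hc'⟩ := card_dvd_orb hK x
    rw [hc] at hc'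
    exact hdvd _ c h0 h1 hc'
  refine ⟨?_, ?_⟩
  · intro a
    have h1 := card_stabP_mul K a
    rw [horb a, hc, hn] at h1
    omega
  · intro x y
    have h1 : y ∈ orbF K x := by
      rw [Finset.eq_univ_of_card (orbF K x) (by rw [horb, card_golayPt])]
      exact Finset.mem_univ y
    exact mem_orbF.1 h1

/-- `M24` has no subgroup of order 967680. -/
theorem idx253 {K : Subgroup (Equiv.Perm GolayPt)} (hK : K ≤ M24) (hc : Nat.card K = 967680) :
    False := by
  obtain ⟨hst, htrans⟩ := trans_of_card hK hc (m := 40320) (by norm_num)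
    (fun j c h0 h1 h => by omega)
  rcases Idx23.main (x := none) (K := stabP K none)
    (fun k hk => ⟨hK (mem_stabP.1 hk).1, (mem_stabP.1 hk).2⟩) (hst none) with
    ⟨s, hs2, hxs, hiff⟩ | ⟨o, ho, hxo, hiff⟩
  · apply no_duad_type hK hst
    intro y
    obtain ⟨g, hg, rfl⟩ := htrans none y
    refine ⟨g • s, by rw [Finset.card_smul_finset, hs2], ?_, IsStabData.conj hK hiff hg⟩
    intro h
    apply hxs
    rwa [← Equiv.Perm.smul_def, Finset.smul_mem_smul_finset_iff] at h
  · apply no_octad_type hK hst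
    intro y
    obtain ⟨g, hg, rfl⟩ := htrans none y
    refine ⟨g • o, smul_mem_octads (hK hg) ho, ?_, IsStabData.conj hK hiff hg⟩
    rw [← Equiv.Perm.smul_def]
    exact Finset.smul_mem_smul_finset hxo

end Cfsg.Agent.Helper91.Idx24
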