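/-
Helper91: a subgroup of order 322560 (index 759) of `Cfsg.M24` leaves an octad invariant.  Its orbits have
lengths 8, 16 or 24; if it has an orbit of length 8, its point stabilizers there have order 40320 and are
known (`Idx23.main`); if it is transitive, its point stabilizers have order 13440, and the point stabilizer
`M23` of `M24` has no subgroup of this order (count of the elements of orders 7, 5 and 15).
-/
import Cfsg.Agent.Helper91.Idx24c

set_option autoImplicit false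

namespace Cfsg.Agent.Helper91.Idx24

open Cfsg Cfsg.Agent.Helper91 Cfsg.Agent.Helper91.Idx23 Cfsg.Agent.Helper91.PSL23
open scoped Pointwise

/-- `M24` is transitive on the quadruples of distinct points. -/
theorem trans4x {p q r s p' q' r' s' : GolayPt} (h : [p, q, r, s].Nodup)
    (h' : [p', q', r', s'].Nodup) : ∃ g ∈ M24, g p = p' ∧ g q = q' ∧ g r = r' ∧ g s = s' := by
  obtain ⟨g, hg, hh⟩ := Cfsg.Agent.Helper7.m24_tuple [0, 1, 2, 3] Cfsg.Agent.Helper7.m24chain4
    [p, q, r, s] rfl h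
  obtain ⟨g', hg', hh'⟩ := Cfsg.Agent.Helper7.m24_tuple [0, 1, 2, 3] Cfsg.Agent.Helper7.m24chain4
    [p', q', r', s'] rfl h'
  simp only [List.map_cons, List.map_nil, List.cons.injEq, and_true] at hh hh'
  refine ⟨g' * g⁻¹, M24.mul_mem hg' (M24.inv_mem hg), ?_, ?_, ?_, ?_⟩
  · rw [Equiv.Perm.mul_apply, ← hh.1, ← hh'.1]; simp
  · rw [Equiv.Perm.mul_apply, ← hh.2.1, ← hh'.2.1]; simp
  · rw [Equiv.Perm.mul_apply, ← hh.2.2.1, ← hh'.2.2.1]; simp
  · rw [Equiv.Perm.mul_apply, ← hh.2.2.2, ← hh'.2.2.2]; simp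

/-- `M24` is transitive on the quintuples of distinct points. -/
theorem trans5x {p q r s t p' q' r' s' t' : GolayPt} (h : [p, q, r, s, t].Nodup)
    (h' : [p', q', r', s', t'].Nodup) :
    ∃ g ∈ M24, g p = p' ∧ g q = q' ∧ g r = r' ∧ g s = s' ∧ g t = t' := by
  obtain ⟨g, hg, hh⟩ := Cfsg.Agent.Helper7.m24_tuple [0, 1, 2, 3, 4] Cfsg.Agent.Helper7.m24chain
    [p, q, r, s, t] rfl h
  obtain ⟨g', hg', hh'⟩ := Cfsg.Agent.Helper7.m24_tuple [0, 1, 2, 3, 4] Cfsg.Agent.Helper7.m24chain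
    [p', q', r', s', t'] rfl h'
  simp only [List.map_cons, List.map_nil, List.cons.injEq, and_true] at hh hh'
  refine ⟨g' * g⁻¹, M24.mul_mem hg' (M24.inv_mem hg), ?_, ?_, ?_, ?_, ?_⟩
  · rw [Equiv.Perm.mul_apply, ← hh.1, ← hh'.1]; simp
  · rw [Equiv.Perm.mul_apply, ← hh.2.1, ← hh'.2.1]; simp
  · rw [Equiv.Perm.mul_apply, ← hh.2.2.1, ← hh'.2.2.1]; simp
  · rw [Equiv.Perm.mul_apply, ← hh.2.2.2.1, ← hh'.2.2.2.1]; simp
  · rw [Equiv.Perm.mul_apply, ← hh.2.2.2.2, ← hh'.2.2.2.2]; simp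

/-- A subgroup of `M` whose order is divisible by the prime `p`, where `p ^ 2` does not divide `|M|`, has a
conjugate under `M` containing a given element of order `p` of `M`. -/
theorem exists_conj_mem {L : Subgroup (Equiv.Perm GolayPt)} (hL : L ≤ M) {p : ℕ} [hp : Fact p.Prime]
    (hp2 : ¬ p ^ 2 ∣ 10200960) (hpL : p ∣ Nat.card L) {a : Equiv.Perm GolayPt} (haM : a ∈ M)
    (ha : orderOf a = p) :
    ∃ g ∈ M, a ∈ L.map (MulAut.conj g).toMonoidHom := by
  have hcardM : Nat.card ↥M = 10200960 := SylM23.card_H.trans (by norm_num)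
  obtain ⟨y, hy, hyo⟩ := exists_orderOf_eq L p hpL
  obtain ⟨g, k, hgk⟩ := Cfsg.Agent.Helper7.exists_conj_pow (G := ↥M) (p := p)
    (by rw [hcardM]; exact hp2) (a := ⟨a, haM⟩) (x := ⟨y, hL hy⟩)
    (by rw [Subgroup.orderOf_mk]; exact ha) (by rw [Subgroup.orderOf_mk]; exact hyo)
  have hgk' : y = (g : Equiv.Perm GolayPt) * a ^ k * (g : Equiv.Perm GolayPt)⁻¹ :=
    congrArg Subtype.val hgk
  refine ⟨(g : Equiv.Perm GolayPt)⁻¹, inv_mem g.2, ?_⟩
  have h1 : a ^ k ∈ L.map (MulAut.conj (g : Equiv.Perm GolayPt)⁻¹).toMonoidHom := by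
    refine ⟨y, hy, ?_⟩
    show (g : Equiv.Perm GolayPt)⁻¹ * y * ((g : Equiv.Perm GolayPt)⁻¹)⁻¹ = a ^ k
    rw [hgk']; group
  have hap : a ^ p = 1 := by rw [← ha]; exact pow_orderOf_eq_one a
  have hak1 : a ^ k ≠ 1 := by
    intro h
    rw [h] at hgk'
    have hy1 : y = 1 := by rw [hgk']; group
    rw [hy1, orderOf_one] at hyo
    exact hp.out.one_lt.ne hyo
  have hkp : ¬ p ∣ k := by
    rintro ⟨c, rfl⟩
    apply hak1
    rw [pow_mul, hap, one_pow]
  have hcop : Nat.Coprime k p := by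
    rw [Nat.coprime_comm, Nat.Prime.coprime_iff_not_dvd hp.out]
    exact hkp
  obtain ⟨j, -, hj⟩ := Nat.exists_mul_mod_eq_one_of_coprime hcop hp.out.one_lt
  have hsj : (a ^ k) ^ j = a := by
    rw [← pow_mul, pow_eq_pow_mod (k * j) hap, hj, pow_one]
  rw [← hsj]
  exact pow_mem h1 j

/-- A subgroup of order 13440 of `M` containing `s7` has at least 5760 elements of order 7. -/
theorem count7 {L : Subgroup (Equiv.Perm GolayPt)} (hL : L ≤ M) (hc : Nat.card L = 13440)
    (hs : s7 ∈ L) :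
    ∃ Y : Finset (Equiv.Perm GolayPt), (∀ y ∈ Y, y ∈ L ∧ y ^ 7 = 1) ∧ 5760 ≤ Y.card := by
  classical
  have : Fact (Nat.Prime 7) := ⟨by norm_num⟩
  have hP : Nat.card (Subgroup.zpowers s7) = 7 := by rw [Nat.card_zpowers, orderOf_s7]
  have hPL : Subgroup.zpowers s7 ≤ L := by rw [Subgroup.zpowers_le]; exact hs
  obtain ⟨m, hm, hm1⟩ := sylow_index L (Subgroup.zpowers s7) hPL 7 hP (by rw [hc]; norm_num)
  have hn := card_norm_s7_le hL
  rw [hc] at hm
  have hn14 : Nat.card ↥(Subgroup.normalizer (Subgroup.zpowers s7 : Set (Equiv.Perm GolayPt)) ⊓ L) =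
      14 := by
    generalize Nat.card ↥(Subgroup.normalizer (Subgroup.zpowers s7 : Set (Equiv.Perm GolayPt)) ⊓ L) = n
      at hm hn
    unfold Nat.ModEq at hm1
    interval_cases n <;> omega
  have cardF : ∀ S : Subgroup (Equiv.Perm GolayPt),
      Nat.card S = (Finset.univ.filter (fun g => g ∈ S)).card := by
    intro S
    rw [Nat.card_eq_fintype_card, Fintype.card_subtype]
  obtain ⟨Y, hY, hYc⟩ := conj_count (K := L) hP
    ((Finset.univ.filter (fun g => g ∈ Subgroup.zpowers s7)).erase 1) 1 (by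
      intro b hb
      rw [Finset.mem_erase, Finset.mem_filter] at hb
      rw [pow_one]
      exact ⟨hb.2.2, hb.1⟩)
  rw [hc, hn14, Finset.card_erase_of_mem (Finset.mem_filter.2 ⟨Finset.mem_univ _, one_mem _⟩),
    ← cardF, hP] at hYc
  refine ⟨Y, ?_, by omega⟩
  intro y hy
  obtain ⟨g, hg, b, hb, rfl⟩ := hY y hy
  rw [Finset.mem_erase, Finset.mem_filter] at hb
  refine ⟨mul_mem (mul_mem hg (hPL hb.2.2)) (inv_mem hg), ?_⟩
  rw [conj_pow]
  have hb7 : b ^ 7 = 1 := by
    obtain ⟨k, rfl⟩ := NormEnum.mem_zpowers_nat' hb.2.2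
    rw [← pow_mul, mul_comm, pow_mul, s7_pow_seven, one_pow]
  rw [hb7]; group

/-- A subgroup of order 13440 of `M` containing `s5` has at least 10752 elements of order 5 or 15. -/
theorem count5 {L : Subgroup (Equiv.Perm GolayPt)} (hL : L ≤ M) (hc : Nat.card L = 13440)
    (hs : s5 ∈ L) :
    ∃ Y : Finset (Equiv.Perm GolayPt), (∀ y ∈ Y, y ∈ L ∧ y ^ 15 = 1 ∧ y ^ 3 ≠ 1) ∧
      10752 ≤ Y.card := by
  classical
  have : Fact (Nat.Prime 5) := ⟨by norm_num⟩
  have : Fact (Nat.Prime 3) := ⟨by norm_num⟩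
  have hP : Nat.card (Subgroup.zpowers s5) = 5 := by rw [Nat.card_zpowers, orderOf_s5]
  have hPL : Subgroup.zpowers s5 ≤ L := by rw [Subgroup.zpowers_le]; exact hs
  obtain ⟨m, hm, hm1⟩ := sylow_index L (Subgroup.zpowers s5) hPL 5 hP (by rw [hc]; norm_num)
  have hn := card_norm_s5_le hL
  rw [hc] at hm
  have hc3N : c3 ∈ Subgroup.normalizer (Subgroup.zpowers s5 : Set (Equiv.Perm GolayPt)) ⊓ M := by
    refine Subgroup.mem_inf.2 ⟨?_, c3_mem_M⟩
    apply Subgroup.mem_normalizer_fintype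
    intro n hn
    obtain ⟨k, rfl⟩ := NormEnum.mem_zpowers_nat' hn
    have hcm : Commute c3 (s5 ^ k) := Commute.pow_right c3_s5 k
    have e : c3 * s5 ^ k * c3⁻¹ = s5 ^ k := by rw [hcm.eq, mul_inv_cancel_right]
    rw [e]
    exact pow_mem (Subgroup.mem_zpowers s5) k
  have h3M : 3 ∣
      Nat.card ↥(Subgroup.normalizer (Subgroup.zpowers s5 : Set (Equiv.Perm GolayPt)) ⊓ M) := by
    have h := orderOf_dvd_natCard
      (⟨c3, hc3N⟩ : ↥(Subgroup.normalizer (Subgroup.zpowers s5 : Set (Equiv.Perm GolayPt)) ⊓ M))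
    rwa [Subgroup.orderOf_mk, orderOf_c3] at h
  have hM60 := card_norm_s5_le (K := M) le_rfl
  have hdvd : Nat.card ↥(Subgroup.normalizer (Subgroup.zpowers s5 : Set (Equiv.Perm GolayPt)) ⊓ L) ∣
      Nat.card ↥(Subgroup.normalizer (Subgroup.zpowers s5 : Set (Equiv.Perm GolayPt)) ⊓ M) :=
    Subgroup.card_dvd_of_le (inf_le_inf_left _ hL)
  have hpos : 0 <
      Nat.card ↥(Subgroup.normalizer (Subgroup.zpowers s5 : Set (Equiv.Perm GolayPt)) ⊓ M) :=
    Nat.card_pos
  have hn15 : Nat.card ↥(Subgroup.normalizer (Subgroup.zpowers s5 : Set (Equiv.Perm GolayPt)) ⊓ L) =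
      15 := by
    generalize Nat.card ↥(Subgroup.normalizer (Subgroup.zpowers s5 : Set (Equiv.Perm GolayPt)) ⊓ M) = nM
      at h3M hM60 hdvd hpos
    generalize Nat.card ↥(Subgroup.normalizer (Subgroup.zpowers s5 : Set (Equiv.Perm GolayPt)) ⊓ L) = n
      at hm hn hdvd
    unfold Nat.ModEq at hm1
    obtain ⟨u, hu⟩ := h3M
    obtain ⟨t, ht⟩ := hdvd
    interval_cases n <;> omega
  obtain ⟨c, hcQ, hco⟩ := exists_orderOf_eq
    (Subgroup.normalizer (Subgroup.zpowers s5 : Set (Equiv.Perm GolayPt)) ⊓ L) 3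
    (by rw [hn15]; norm_num)
  have hcN := (Subgroup.mem_inf.1 hcQ).1
  have hcL := (Subgroup.mem_inf.1 hcQ).2
  have hc3 : c ^ 3 = 1 := by rw [← hco]; exact pow_orderOf_eq_one c
  obtain ⟨k, hk5, hcomm⟩ := NormEnum.exists_comm_of_norm s5_pow_five hcN
  have hk5' : k < 5 := hk5 (by norm_num)
  have hconj : ∀ i : ℕ, c * s5 ^ i * c⁻¹ = s5 ^ (k * i) := by
    intro i
    have h1 : c * s5 * c⁻¹ = s5 ^ k := by rw [hcomm, mul_inv_cancel_right]
    rw [← conj_pow, h1, ← pow_mul]
  have h3 : s5 ^ 1 = s5 ^ (k * (k * (k * 1))) := by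
    have e1 : c ^ 3 * s5 ^ 1 * (c ^ 3)⁻¹ = c * (c * (c * s5 ^ 1 * c⁻¹) * c⁻¹) * c⁻¹ := by
      rw [pow_succ c 2, pow_succ c 1, pow_one c]
      group
    rw [hconj 1, hconj (k * 1), hconj (k * (k * 1)), hc3] at e1
    rw [← e1]; group
  have hk1 : k = 1 := by
    rw [pow_eq_pow_iff_modEq, orderOf_s5] at h3
    unfold Nat.ModEq at h3
    interval_cases k <;> omega
  rw [hk1, pow_one] at hcomm
  have hcs : Commute s5 c := hcomm.symm
  have hf3 : ∀ x : ℕ × ℕ, (s5 ^ (x.1 + 1) * c ^ x.2) ^ 3 = s5 ^ (3 * (x.1 + 1)) := by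
    intro x
    rw [(Commute.pow_pow hcs _ _).mul_pow, ← pow_mul, ← pow_mul, mul_comm x.2 3, pow_mul c, hc3,
      one_pow, mul_one, mul_comm]
  have hinj : Set.InjOn (fun x : ℕ × ℕ => s5 ^ (x.1 + 1) * c ^ x.2)
      ((Finset.range 4 ×ˢ Finset.range 3 : Finset (ℕ × ℕ)) : Set (ℕ × ℕ)) := by
    rintro ⟨i, j⟩ hx ⟨i', j'⟩ hx' hxx
    rw [Finset.mem_coe, Finset.mem_product, Finset.mem_range, Finset.mem_range] at hx hx'
    have hxx' : s5 ^ (i + 1) * c ^ j = s5 ^ (i' + 1) * c ^ j' := hxx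
    have h1 : (s5 ^ (i + 1) * c ^ j) ^ 3 = (s5 ^ (i' + 1) * c ^ j') ^ 3 := by rw [hxx']
    rw [hf3 (i, j), hf3 (i', j'), pow_eq_pow_iff_modEq, orderOf_s5] at h1
    unfold Nat.ModEq at h1
    have hx1 : i < 4 := hx.1
    have hx2 : j < 3 := hx.2
    have hx1' : i' < 4 := hx'.1
    have hx2' : j' < 3 := hx'.2
    have h1' : 3 * (i + 1) % 5 = 3 * (i' + 1) % 5 := h1
    have hi : i = i' := by omega
    subst hi
    have h2 : c ^ j = c ^ j' := mul_left_cancel hxx'
    rw [pow_eq_pow_iff_modEq, hco] at h2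
    unfold Nat.ModEq at h2
    have hj : j = j' := by omega
    rw [hj]
  obtain ⟨Y, hY, hYc⟩ := conj_count (K := L) hP
    ((Finset.range 4 ×ˢ Finset.range 3).image (fun x : ℕ × ℕ => s5 ^ (x.1 + 1) * c ^ x.2)) 3 (by
      intro b hb
      rw [Finset.mem_image] at hb
      obtain ⟨x, hx, rfl⟩ := hb
      rw [Finset.mem_product, Finset.mem_range, Finset.mem_range] at hx
      rw [hf3]
      refine ⟨pow_mem (Subgroup.mem_zpowers s5) _, ?_⟩
      intro h
      have h5 := orderOf_dvd_of_pow_eq_one h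
      rw [orderOf_s5] at h5
      omega)
  rw [hc, hn15, Finset.card_image_of_injOn hinj, Finset.card_product, Finset.card_range,
    Finset.card_range] at hYc
  refine ⟨Y, ?_, by omega⟩
  intro y hy
  obtain ⟨g, hg, b, hb, rfl⟩ := hY y hy
  rw [Finset.mem_image] at hb
  obtain ⟨x, hx, rfl⟩ := hb
  rw [Finset.mem_product, Finset.mem_range, Finset.mem_range] at hx
  have hbL : s5 ^ (x.1 + 1) * c ^ x.2 ∈ L := mul_mem (pow_mem hs _) (pow_mem hcL _)
  refine ⟨mul_mem (mul_mem hg hbL) (inv_mem hg), ?_, ?_⟩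
  · rw [conj_pow]
    have e15 : (s5 ^ (x.1 + 1) * c ^ x.2) ^ 15 = 1 := by
      have e : (s5 ^ (x.1 + 1) * c ^ x.2) ^ 15 = ((s5 ^ (x.1 + 1) * c ^ x.2) ^ 3) ^ 5 := by
        rw [← pow_mul]
      rw [e, hf3, ← pow_mul, mul_comm, pow_mul, s5_pow_five, one_pow]
    rw [e15]; group
  · rw [conj_pow]
    intro h
    have h1 : (s5 ^ (x.1 + 1) * c ^ x.2) ^ 3 = 1 := by
      have h2 := congrArg (fun t => g⁻¹ * t * g) h
      simpa [mul_assoc] using h2
    rw [hf3] at h1
    have h5 := orderOf_dvd_of_pow_eq_one h1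
    rw [orderOf_s5] at h5
    omega

/-- The point stabilizer `M23` of `M24` has no subgroup of order 13440. -/
theorem no13440 {L : Subgroup (Equiv.Perm GolayPt)} (hL : L ≤ M) (hc : Nat.card L = 13440) :
    False := by
  classical
  have : Fact (Nat.Prime 7) := ⟨by norm_num⟩
  have : Fact (Nat.Prime 5) := ⟨by norm_num⟩
  have hmapM : ∀ g ∈ M, L.map (MulAut.conj g).toMonoidHom ≤ M := by
    rintro g hg _ ⟨h, hh, rfl⟩
    exact mul_mem (mul_mem hg (hL hh)) (inv_mem hg)
  have hmapc : ∀ g : Equiv.Perm GolayPt, Nat.card (L.map (MulAut.conj g).toMonoidHom) = 13440 := by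
    intro g
    rw [← hc]
    exact Subgroup.card_map_of_injective (MulEquiv.injective _)
  obtain ⟨g7, hg7, hs7⟩ := exists_conj_mem hL (p := 7) (by norm_num) (by rw [hc]; norm_num)
    s7_mem_M orderOf_s7
  obtain ⟨Y7, hY7, hY7c⟩ := count7 (hmapM g7 hg7) (hmapc g7) hs7
  obtain ⟨g5, hg5, hs5⟩ := exists_conj_mem hL (p := 5) (by norm_num) (by rw [hc]; norm_num)
    s5_mem_M orderOf_s5
  obtain ⟨Y5, hY5, hY5c⟩ := count5 (hmapM g5 hg5) (hmapc g5) hs5
  have hback : ∀ (g y : Equiv.Perm GolayPt), y ∈ L.map (MulAut.conj g).toMonoidHom →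
      g⁻¹ * y * g ∈ L := by
    rintro g _ ⟨h, hh, rfl⟩
    have e : g⁻¹ * ((MulAut.conj g).toMonoidHom h) * g = h := by
      show g⁻¹ * (g * h * g⁻¹) * g = h
      group
    rw [e]
    exact hh
  have hinj : ∀ g : Equiv.Perm GolayPt,
      Function.Injective (fun y : Equiv.Perm GolayPt => g⁻¹ * y * g) := by
    intro g a b h
    simpa using h
  have hpow : ∀ (g y : Equiv.Perm GolayPt) (n : ℕ), (g⁻¹ * y * g) ^ n = g⁻¹ * y ^ n * g := by
    intro g y n
    have h := conj_pow (a := g⁻¹) (b := y) (i := n)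
    rwa [inv_inv] at h
  have h7 : (Y7.image (fun y => g7⁻¹ * y * g7)).card = Y7.card :=
    Finset.card_image_of_injective _ (hinj g7)
  have h5 : (Y5.image (fun y => g5⁻¹ * y * g5)).card = Y5.card :=
    Finset.card_image_of_injective _ (hinj g5)
  have hdisj : Disjoint (Y7.image (fun y => g7⁻¹ * y * g7)) (Y5.image (fun y => g5⁻¹ * y * g5)) := by
    rw [Finset.disjoint_left]
    intro z hz7 hz5
    rw [Finset.mem_image] at hz7 hz5
    obtain ⟨y7, hy7, rfl⟩ := hz7
    obtain ⟨y5, hy5, hzz⟩ := hz5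
    have a7 : (g7⁻¹ * y7 * g7) ^ 7 = 1 := by rw [hpow, (hY7 y7 hy7).2]; group
    have a15 : (g7⁻¹ * y7 * g7) ^ 15 = 1 := by rw [← hzz, hpow, (hY5 y5 hy5).2.1]; group
    have a1 : g7⁻¹ * y7 * g7 = 1 := by
      have e : (g7⁻¹ * y7 * g7) ^ 15 =
          (g7⁻¹ * y7 * g7) ^ 7 * (g7⁻¹ * y7 * g7) ^ 7 * (g7⁻¹ * y7 * g7) := by
        rw [← pow_add, ← pow_succ]
      rw [a15, a7, one_mul, one_mul] at e
      exact e.symm
    have a3 : (g5⁻¹ * y5 * g5) ^ 3 = 1 := by rw [hzz, a1, one_pow]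
    rw [hpow] at a3
    apply (hY5 y5 hy5).2.2
    have h2 := congrArg (fun t => g5 * t * g5⁻¹) a3
    simpa [mul_assoc] using h2
  have hsub : (Y7.image (fun y => g7⁻¹ * y * g7)) ∪ (Y5.image (fun y => g5⁻¹ * y * g5)) ⊆
      Finset.univ.filter (fun g => g ∈ L) := by
    intro z hz
    rw [Finset.mem_union, Finset.mem_image, Finset.mem_image] at hz
    rw [Finset.mem_filter]
    refine ⟨Finset.mem_univ _, ?_⟩
    rcases hz with ⟨y, hy, rfl⟩ | ⟨y, hy, rfl⟩
    · exact hback g7 y (hY7 y hy).1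
    · exact hback g5 y (hY5 y hy).1
  have hle := Finset.card_le_card hsub
  rw [Finset.card_union_of_disjoint hdisj, h7, h5] at hle
  have hcL : Nat.card L = (Finset.univ.filter (fun g => g ∈ L)).card := by
    rw [Nat.card_eq_fintype_card, Fintype.card_subtype]
  omega

/-- A subgroup of order 322560 of `M24` leaves an octad invariant. -/
theorem idx759 {K : Subgroup (Equiv.Perm GolayPt)} (hK : K ≤ M24) (hc : Nat.card K = 322560) :
    ∃ o ∈ octads, ∀ k ∈ K, k • o = o := by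
  have horb : ∀ x, (orbF K x).card = 8 ∨ (orbF K x).card = 16 ∨ (orbF K x).card = 24 := by
    intro x
    have h0 : 0 < (orbF K x).card := Finset.card_pos.2 ⟨x, self_mem_orbF K x⟩
    have h1 : (orbF K x).card ≤ 24 := by
      have := Finset.card_le_univ (orbF K x)
      rwa [card_golayPt] at this
    obtain ⟨c, hc'⟩ := card_dvd_orb hK x
    rw [hc] at hc'
    omega
  have h8 : ∃ x, (orbF K x).card = 8 := by
    by_contra hno
    have hno' : ∀ x, (orbF K x).card ≠ 8 := fun x h => hno ⟨x, h⟩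
    have h24 : ∀ x, (orbF K x).card = 24 := by
      intro x
      rcases horb x with h | h | h
      · exact absurd h (hno' x)
      · exfalso
        obtain ⟨y, hy⟩ : ∃ y, y ∉ orbF K x := by
          by_contra hall
          have hu : orbF K x = Finset.univ := by
            ext q
            simp only [Finset.mem_univ, iff_true]
            by_contra hq
            exact hall ⟨q, hq⟩
          rw [hu, Finset.card_univ, card_golayPt] at h
          omega
        have hdisj : Disjoint (orbF K x) (orbF K y) := by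
          rw [Finset.disjoint_left]
          intro q hqx hqy
          obtain ⟨a, ha, rfl⟩ := mem_orbF.1 hqx
          obtain ⟨b, hb, hab⟩ := mem_orbF.1 hqy
          apply hy
          rw [mem_orbF]
          refine ⟨b⁻¹ * a, mul_mem (inv_mem hb) ha, ?_⟩
          rw [Equiv.Perm.mul_apply, ← hab]
          simp
        have hle : (orbF K x ∪ orbF K y).card ≤ 24 := by
          have := Finset.card_le_univ (orbF K x ∪ orbF K y)
          rwa [card_golayPt] at this
        rw [Finset.card_union_of_disjoint hdisj, h] at hle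
        rcases horb y with h' | h' | h'
        · exact hno' y h'
        · omega
        · omega
      · exact h
    have hst := card_stabP_mul K none
    rw [h24, hc] at hst
    apply no13440 (L := stabP K none) ?_ (by omega)
    intro k hk
    exact mem_M (hK (mem_stabP.1 hk).1) (mem_stabP.1 hk).2
  obtain ⟨x, hx8⟩ := h8
  have hst := card_stabP_mul K x
  rw [hx8, hc] at hst
  have hst' : Nat.card (stabP K x) = 40320 := by omega
  rcases Idx23.main (x := x) (K := stabP K x)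
    (fun k hk => ⟨hK (mem_stabP.1 hk).1, (mem_stabP.1 hk).2⟩) hst' with
    ⟨s, hs2, hxs, hiff⟩ | ⟨o, ho, hxo, hiff⟩
  · exfalso
    obtain ⟨a, b, hab, rfl⟩ := Finset.card_eq_two.1 hs2
    have hxa : x ≠ a := by
      intro h
      apply hxs
      rw [h]
      exact Finset.mem_insert_self _ _
    have hxb : x ≠ b := by
      intro h
      apply hxs
      rw [h]
      simp
    obtain ⟨p, hpX, hpn⟩ : ∃ p ∈ orbF K x, p ∉ ({x, a, b} : Finset GolayPt) := by
      apply Finset.exists_mem_notMem_of_card_lt_card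
      rw [hx8]
      exact lt_of_le_of_lt Finset.card_le_three (by norm_num)
    have hpx : p ≠ x := fun h => hpn (by rw [h]; simp)
    have hpa : p ≠ a := fun h => hpn (by rw [h]; simp)
    have hpb : p ≠ b := fun h => hpn (by rw [h]; simp)
    have hall : ({x, a, b} : Finset GolayPt)ᶜ ⊆ orbF K x := by
      intro q hq
      rw [Finset.mem_compl] at hq
      have hqx : q ≠ x := fun h => hq (by rw [h]; simp)
      have hqa : q ≠ a := fun h => hq (by rw [h]; simp)
      have hqb : q ≠ b := fun h => hq (by rw [h]; simp)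
      obtain ⟨g, hg, hgx, hga, hgb, hgp⟩ := trans4x (p := x) (q := a) (r := b) (s := p)
        (p' := x) (q' := a) (r' := b) (s' := q)
        (by simp [hxa, hxb, hab, hpx.symm, hpa.symm, hpb.symm])
        (by simp [hxa, hxb, hab, hqx.symm, hqa.symm, hqb.symm])
      have hgs : g • ({a, b} : Finset GolayPt) = {a, b} := smul_eq_of_maps (by
        intro z hz
        rw [Finset.mem_insert, Finset.mem_singleton] at hz ⊢
        rcases hz with rfl | rfl
        · left; exact hga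
        · right; exact hgb)
      have hgK : g ∈ stabP K x := (hiff g hg hgx).2 hgs
      rw [← hgp]
      exact orbF_maps K x g (mem_stabP.1 hgK).1 p hpX
    have h1 := Finset.card_le_card hall
    rw [Finset.card_compl, card_golayPt, hx8] at h1
    have h3 : ({x, a, b} : Finset GolayPt).card ≤ 3 := Finset.card_le_three
    omega
  · refine ⟨o, ho, ?_⟩
    have hXo : orbF K x ⊆ o := by
      intro p hp
      by_contra hpo
      have hsub : oᶜ ⊆ orbF K x := by
        intro r hr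
        rw [Finset.mem_compl] at hr
        obtain ⟨e, he, heq⟩ := Cfsg.Agent.Helper7.octad_fix_trans ho hpo hr
        have heM : e ∈ M24 := he.1
        have hefix : ∀ z ∈ o, e z = z := fun z hz =>
          (mem_fixingSubgroup_iff _).1 he.2 z (Finset.mem_coe.2 hz)
        have heo : e • o = o := smul_eq_of_maps (fun z hz => by rw [hefix z hz]; exact hz)
        have heK : e ∈ stabP K x := (hiff e heM (hefix x hxo)).2 heo
        rw [← heq]
        exact orbF_maps K x e (mem_stabP.1 heK).1 p hp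
      have h1 := Finset.card_le_card hsub
      rw [Finset.card_compl, card_golayPt, ho.2, hx8] at h1
      omega
    have hXeq : orbF K x = o := Finset.eq_of_subset_of_card_le hXo (by rw [ho.2, hx8])
    intro k hk
    rw [← hXeq]
    exact smul_eq_of_maps (orbF_maps K x k hk)

end Cfsg.Agent.Helper91.Idx24
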