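/-
Helper91: the subgroups of order 5760 of `M23` (the stabilizer of `∞` in `Cfsg.M24`) containing the Sylow
2-subgroup `R0` are the stabilizer of a set of 3 points and the stabilizer of a point and of a set of 6
points.  The orbits of such a subgroup are unions of orbits of `R0`.
-/
import Cfsg.Agent.Helper91.Idx24e
import Cfsg.Agent.Helper91.Idx24f
import Cfsg.Agent.Helper91.SylM23

set_option autoImplicit false

namespace Cfsg.Agent.Helper91.Idx24

open Cfsg Cfsg.Agent.Helper91 Cfsg.Agent.Helper91.Idx23
open scoped Pointwise

/-- A Sylow 2-subgroup of `M23`. -/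
abbrev R0 : Subgroup (Equiv.Perm GolayPt) := Syl.genGroup SylM23.C

theorem card_R0 : Nat.card R0 = 2 ^ 7 := by
  rw [Syl.card_genGroup SylM23.group_ok, SylM23.length_E]

theorem orb_22 : Syl.orbM SylM23.E 0 22 = 4194304 := by decide +kernel
theorem orb_4 : Syl.orbM SylM23.E 0 4 = 131088 := by decide +kernel
theorem orb_2 : Syl.orbM SylM23.E 0 2 = 6156 := by decide +kernel
theorem orb_0 : Syl.orbM SylM23.E 0 0 = 4057059 := by decide +kernel

/-- The orbits of `R0`. -/
theorem R0_trans {b m : Nat} (hb : b < 24) (hm : Syl.orbM SylM23.E 0 b = m) (q : GolayPt)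
    (hq : m.testBit (idx q) = true) : ∃ s ∈ R0, s (pt b) = q := by
  obtain ⟨s, hs, hsq⟩ := (Syl.mem_orbit_iff SylM23.group_ok 0 hb q).2 (by rw [hm]; exact hq)
  exact ⟨s, (Subgroup.mem_inf.1 hs).1, hsq⟩

theorem R0_fix22 : ∀ s ∈ R0, s (pt 22) = pt 22 := by
  intro s hs
  have h := (Syl.mem_orbit_iff SylM23.group_ok 0 (show 22 < 24 by norm_num) (s (pt 22))).1
    ⟨s, Subgroup.mem_inf.2 ⟨hs, by rw [Syl.fixSub_zero]; exact Subgroup.mem_top _⟩, rfl⟩
  rw [orb_22] at h
  have key : ∀ q : GolayPt, (4194304 : Nat).testBit (idx q) = true → q = pt 22 := by decide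
  exact key _ h

/-- If an orbit of a subgroup containing `R0` meets an orbit of `R0`, it contains it. -/
theorem block_of_hit {L : Subgroup (Equiv.Perm GolayPt)} (hR : R0 ≤ L) {b m : Nat} (hb : b < 24)
    (hm : Syl.orbM SylM23.E 0 b = m) (x : GolayPt)
    (hhit : ∃ k ∈ L, m.testBit (idx (k x)) = true) :
    ∀ q : GolayPt, m.testBit (idx q) = true → ∃ k ∈ L, k x = q := by
  obtain ⟨k0, hk0, hq0⟩ := hhit
  intro q hq
  obtain ⟨s0, hs0, hs0q⟩ := R0_trans hb hm (k0 x) hq0
  obtain ⟨s, hs, hsq⟩ := R0_trans hb hm q hq
  refine ⟨s * s0⁻¹ * k0, mul_mem (mul_mem (hR hs) (inv_mem (hR hs0))) hk0, ?_⟩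
  rw [Equiv.Perm.mul_apply, Equiv.Perm.mul_apply, ← hs0q]
  simp [hsq]

theorem pt_cases5 (p : GolayPt) : p = none ∨ p = pt 22 ∨ (131088 : Nat).testBit (idx p) = true ∨
    (6156 : Nat).testBit (idx p) = true ∨ (4057059 : Nat).testBit (idx p) = true := by
  revert p
  decide

/-- An orbit given by a mask. -/
theorem orb_eq_setM {L : Subgroup (Equiv.Perm GolayPt)} (x : GolayPt) (m : Nat)
    (hm : ∀ p : GolayPt, m.testBit (idx p) = true → ∃ k ∈ L, k x = p)
    (hout : ∀ k ∈ L, m.testBit (idx (k x)) = true) :
    orbF L x = setM m ∧ ∀ k ∈ L, Inv (⇑k) m := by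
  constructor
  · ext p
    rw [mem_orbF, mem_setM]
    constructor
    · rintro ⟨k, hk, rfl⟩
      exact hout k hk
    · exact hm p
  · apply inv_of_forall_mem
    intro k hk p hp
    obtain ⟨k0, hk0, rfl⟩ := hm p hp
    have h1 := hout (k * k0) (mul_mem hk hk0)
    rwa [Equiv.Perm.mul_apply] at h1

/-- A subgroup of order 5760 of `M23` containing `R0` is the stabilizer of the set `{22, 4, 17}` or the
stabilizer of the point `22` and of the set `{4, 17, 2, 3, 11, 12}`. -/
theorem core1771 {L : Subgroup (Equiv.Perm GolayPt)} (hL : L ≤ M) (hc : Nat.card L = 5760)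
    (hR : R0 ≤ L) : L = stabSub 8388608 [4325392] ∨ L = stabSub 12582912 [137244] := by
  have : Fact (Nat.Prime 5) := ⟨by norm_num⟩
  have hnone : ∀ k ∈ L, k none = none := fun k hk => fix_M (hL hk)
  have hOn : ∀ x : GolayPt, x ≠ none → ∀ k ∈ L, k x ≠ none := by
    intro x hx k hk h
    exact hx (k.injective (h.trans (hnone k hk).symm))
  have hle : ∀ m : Nat, (∀ k ∈ L, Inv (⇑k) m) → L ≤ stabSub 8388608 [m] := by
    intro m hm k hk
    refine ⟨(hL hk).1, (hL hk).2.1, ?_⟩
    intro I hI
    rw [List.mem_singleton] at hI
    subst hI
    exact hm k hk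
  have hle2 : (∀ k ∈ L, k (pt 22) = pt 22) → ∀ m : Nat, (∀ k ∈ L, Inv (⇑k) m) →
      L ≤ stabSub 12582912 [m] := by
    intro hfix m hm k hk
    refine ⟨(hL hk).1, ?_, ?_⟩
    · have key : ∀ r : GolayPt, (12582912 : Nat).testBit (idx r) = true → r = none ∨ r = pt 22 := by
        decide
      intro r hr
      rcases key r hr with rfl | rfl
      · exact hnone k hk
      · exact hfix k hk
    · intro I hI
      rw [List.mem_singleton] at hI
      subst hI
      exact hm k hk
  have h22n : pt 22 ≠ none := by decide
  have h4n : pt 4 ≠ none := by decide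
  have hB2 := fun x => block_of_hit hR (show 4 < 24 by norm_num) orb_4 x
  have hB4 := fun x => block_of_hit hR (show 2 < 24 by norm_num) orb_2 x
  have hB16 := fun x => block_of_hit hR (show 0 < 24 by norm_num) orb_0 x
  -- the length of the orbit of the point 22
  have hcard1 : (orbF L (pt 22)).card = 1 ∨ (orbF L (pt 22)).card = 3 ∨ (orbF L (pt 22)).card = 5 ∨
      (orbF L (pt 22)).card = 9 ∨ (orbF L (pt 22)).card = 15 := by
    have h1 := card_stabP_mul L (pt 22)
    have h2 : R0 ≤ stabP L (pt 22) := fun s hs => mem_stabP.2 ⟨hR hs, R0_fix22 s hs⟩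
    obtain ⟨t, ht⟩ := Subgroup.card_dvd_of_le h2
    rw [card_R0] at ht
    rw [ht, hc] at h1
    have h3 : (orbF L (pt 22)).card ≤ 24 := by
      have := Finset.card_le_univ (orbF L (pt 22))
      rwa [card_golayPt] at this
    generalize (orbF L (pt 22)).card = n at h1 h3
    interval_cases n <;> omega
  by_cases a16 : ∃ k ∈ L, (4057059 : Nat).testBit (idx (k (pt 22))) = true
  · exfalso
    have hsub : setM 4057059 ⊆ orbF L (pt 22) := by
      intro q hq
      rw [mem_setM] at hq
      exact mem_orbF.2 (hB16 (pt 22) a16 q hq)
    have h1 := Finset.card_le_card hsub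
    rw [card_setM (by norm_num)] at h1
    have h2 : Helper26.pc24 4057059 = 16 := by decide
    omega
  by_cases a2 : ∃ k ∈ L, (131088 : Nat).testBit (idx (k (pt 22))) = true
  · by_cases a4 : ∃ k ∈ L, (6156 : Nat).testBit (idx (k (pt 22))) = true
    · exfalso
      have key : ∀ p : GolayPt, (p = pt 22 ∨ (131088 : Nat).testBit (idx p) = true ∨
          (6156 : Nat).testBit (idx p) = true) ↔ (4331548 : Nat).testBit (idx p) = true := by decide
      obtain ⟨h1, -⟩ := orb_eq_setM (L := L) (pt 22) 4331548 (by
          intro p hp
          rcases (key p).2 hp with rfl | h | h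
          · exact ⟨1, one_mem L, rfl⟩
          · exact hB2 (pt 22) a2 p h
          · exact hB4 (pt 22) a4 p h) (by
          intro k hk
          rw [← key]
          rcases pt_cases5 (k (pt 22)) with h | h | h | h | h
          · exact absurd h (hOn _ h22n k hk)
          · exact Or.inl h
          · exact Or.inr (Or.inl h)
          · exact Or.inr (Or.inr h)
          · exact absurd ⟨k, hk, h⟩ a16)
      rw [h1, card_setM (by norm_num)] at hcard1
      have h2 : Helper26.pc24 4331548 = 7 := by decide
      omega
    · left
      have key : ∀ p : GolayPt, (p = pt 22 ∨ (131088 : Nat).testBit (idx p) = true) ↔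
          (4325392 : Nat).testBit (idx p) = true := by decide
      obtain ⟨-, h2⟩ := orb_eq_setM (L := L) (pt 22) 4325392 (by
          intro p hp
          rcases (key p).2 hp with rfl | h
          · exact ⟨1, one_mem L, rfl⟩
          · exact hB2 (pt 22) a2 p h) (by
          intro k hk
          rw [← key]
          rcases pt_cases5 (k (pt 22)) with h | h | h | h | h
          · exact absurd h (hOn _ h22n k hk)
          · exact Or.inl h
          · exact Or.inr h
          · exact absurd ⟨k, hk, h⟩ a4
          · exact absurd ⟨k, hk, h⟩ a16)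
      exact Subgroup.eq_of_le_of_card_ge (hle _ h2) (by rw [card_G4, hc])
  · by_cases a4 : ∃ k ∈ L, (6156 : Nat).testBit (idx (k (pt 22))) = true
    · exfalso
      have key : ∀ p : GolayPt, (p = pt 22 ∨ (6156 : Nat).testBit (idx p) = true) ↔
          (4200460 : Nat).testBit (idx p) = true := by decide
      obtain ⟨-, h2⟩ := orb_eq_setM (L := L) (pt 22) 4200460 (by
          intro p hp
          rcases (key p).2 hp with rfl | h
          · exact ⟨1, one_mem L, rfl⟩
          · exact hB4 (pt 22) a4 p h) (by
          intro k hk
          rw [← key]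
          rcases pt_cases5 (k (pt 22)) with h | h | h | h | h
          · exact absurd h (hOn _ h22n k hk)
          · exact Or.inl h
          · exact absurd ⟨k, hk, h⟩ a2
          · exact Or.inr h
          · exact absurd ⟨k, hk, h⟩ a16)
      have h3 := Subgroup.card_le_of_le (hle _ h2)
      rw [hc, card_G5] at h3
      omega
    · -- the point 22 is fixed
      have hfix : ∀ k ∈ L, k (pt 22) = pt 22 := by
        intro k hk
        rcases pt_cases5 (k (pt 22)) with h | h | h | h | h
        · exact absurd h (hOn _ h22n k hk)
        · exact h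
        · exact absurd ⟨k, hk, h⟩ a2
        · exact absurd ⟨k, hk, h⟩ a4
        · exact absurd ⟨k, hk, h⟩ a16
      have hO22 : ∀ k ∈ L, k (pt 4) ≠ pt 22 := by
        intro k hk h
        have h1 : pt 4 = pt 22 := k.injective (h.trans (hfix k hk).symm)
        exact absurd h1 (by decide)
      have hself : ∃ k ∈ L, (131088 : Nat).testBit (idx (k (pt 4))) = true :=
        ⟨1, one_mem L, by decide⟩
      by_cases b16 : ∃ k ∈ L, (4057059 : Nat).testBit (idx (k (pt 4))) = true
      · exfalso
        by_cases b4 : ∃ k ∈ L, (6156 : Nat).testBit (idx (k (pt 4))) = true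
        · -- an orbit with 22 points
          have key : ∀ p : GolayPt, ((131088 : Nat).testBit (idx p) = true ∨
              (6156 : Nat).testBit (idx p) = true ∨ (4057059 : Nat).testBit (idx p) = true) ↔
              (4194303 : Nat).testBit (idx p) = true := by decide
          obtain ⟨h1, -⟩ := orb_eq_setM (L := L) (pt 4) 4194303 (by
              intro p hp
              rcases (key p).2 hp with h | h | h
              · exact hB2 (pt 4) hself p h
              · exact hB4 (pt 4) b4 p h
              · exact hB16 (pt 4) b16 p h) (by
              intro k hk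
              rw [← key]
              rcases pt_cases5 (k (pt 4)) with h | h | h | h | h
              · exact absurd h (hOn _ h4n k hk)
              · exact absurd h (hO22 k hk)
              · exact Or.inl h
              · exact Or.inr (Or.inl h)
              · exact Or.inr (Or.inr h))
          have h2 := card_stabP_mul L (pt 4)
          rw [h1, card_setM (by norm_num), hc] at h2
          have h3 : Helper26.pc24 4194303 = 22 := by decide
          rw [h3] at h2
          omega
        · -- an orbit with 18 points: the other 4 points are fixed by the elements of order 5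
          have hinv : ∀ k ∈ L, Inv (⇑k) 6156 := by
            apply inv_of_forall_mem
            intro k hk p hp
            rcases pt_cases5 (k p) with h | h | h | h | h
            · exfalso
              have h1 : p = none := k.injective (h.trans (hnone k hk).symm)
              subst h1
              exact absurd hp (by decide)
            · exfalso
              have h1 : p = pt 22 := k.injective (h.trans (hfix k hk).symm)
              subst h1
              exact absurd hp (by decide)
            · exfalso
              obtain ⟨k1, hk1, hk1p⟩ := hB2 (pt 4) hself (k p) h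
              apply b4
              refine ⟨k⁻¹ * k1, mul_mem (inv_mem hk) hk1, ?_⟩
              rw [Equiv.Perm.mul_apply, hk1p]
              simpa using hp
            · exact h
            · exfalso
              obtain ⟨k1, hk1, hk1p⟩ := hB16 (pt 4) b16 (k p) h
              apply b4
              refine ⟨k⁻¹ * k1, mul_mem (inv_mem hk) hk1, ?_⟩
              rw [Equiv.Perm.mul_apply, hk1p]
              simpa using hp
          obtain ⟨f, hf, hfo⟩ := exists_orderOf_eq L 5 (by rw [hc]; norm_num)
          have hf5 : f ^ 5 = 1 := by rw [← hfo]; exact pow_orderOf_eq_one f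
          have hsm : f • setM 6156 = setM 6156 := (smul_setM_eq_iff f 6156).2 (hinv f hf)
          have hsub := fix_of_smul_eq hf5 hsm (by rw [card_setM (by norm_num)]; decide)
          have hn1 : pt 22 ∉ setM 6156 := by rw [mem_setM]; decide
          have hn2 : none ∉ insert (pt 22) (setM 6156) := by
            rw [Finset.mem_insert, mem_setM]; decide
          have h6 : insert none (insert (pt 22) (setM 6156)) ⊆ fixF f := by
            intro q hq
            rw [Finset.mem_insert, Finset.mem_insert] at hq
            rcases hq with rfl | rfl | hq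
            · exact mem_fixF.2 (hnone f hf)
            · exact mem_fixF.2 (hfix f hf)
            · exact hsub hq
          have h7 := Finset.card_le_card h6
          rw [card_fixF_five (hL hf).1 hfo, Finset.card_insert_of_notMem hn2,
            Finset.card_insert_of_notMem hn1, card_setM (by norm_num)] at h7
          have h8 : Helper26.pc24 6156 = 4 := by decide
          omega
      · by_cases b4 : ∃ k ∈ L, (6156 : Nat).testBit (idx (k (pt 4))) = true
        · right
          have key : ∀ p : GolayPt, ((131088 : Nat).testBit (idx p) = true ∨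
              (6156 : Nat).testBit (idx p) = true) ↔ (137244 : Nat).testBit (idx p) = true := by
            decide
          obtain ⟨-, h2⟩ := orb_eq_setM (L := L) (pt 4) 137244 (by
              intro p hp
              rcases (key p).2 hp with h | h
              · exact hB2 (pt 4) hself p h
              · exact hB4 (pt 4) b4 p h) (by
              intro k hk
              rw [← key]
              rcases pt_cases5 (k (pt 4)) with h | h | h | h | h
              · exact absurd h (hOn _ h4n k hk)
              · exact absurd h (hO22 k hk)
              · exact Or.inl h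
              · exact Or.inr h
              · exact absurd ⟨k, hk, h⟩ b16)
          exact Subgroup.eq_of_le_of_card_ge (hle2 hfix _ h2) (by rw [card_G2, hc])
        · exfalso
          obtain ⟨-, h2⟩ := orb_eq_setM (L := L) (pt 4) 131088 (by
              intro p hp
              exact hB2 (pt 4) hself p hp) (by
              intro k hk
              rcases pt_cases5 (k (pt 4)) with h | h | h | h | h
              · exact absurd h (hOn _ h4n k hk)
              · exact absurd h (hO22 k hk)
              · exact h
              · exact absurd ⟨k, hk, h⟩ b4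
              · exact absurd ⟨k, hk, h⟩ b16)
          have h3 := Subgroup.card_le_of_le (hle2 hfix _ h2)
          rw [hc, card_G3] at h3
          omega

end Cfsg.Agent.Helper91.Idx24
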