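/-
Helper91: a subgroup of order 138240 (index 1771) of `Cfsg.M24` leaves a sextet invariant.  It is transitive
on the 24 points, and its point stabilizers have order 5760; up to conjugacy they contain a fixed Sylow
2-subgroup of the point stabilizer of `M24`, so they are known (`core1771`).
-/
import Cfsg.Agent.Helper91.Idx24g
import Cfsg.Agent.Helper91.Objects

set_option autoImplicit false

namespace Cfsg.Agent.Helper91.Idx24

open Cfsg Cfsg.Agent.Helper91 Cfsg.Agent.Helper91.Idx23
open scoped Pointwise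

/-- A subgroup of order 5760 of `M` has a conjugate under `M` containing `R0`. -/
theorem exists_conj_R0_le {L : Subgroup (Equiv.Perm GolayPt)} (hL : L ≤ M) (hc : Nat.card L = 5760) :
    ∃ g ∈ M, R0 ≤ L.map (MulAut.conj g).toMonoidHom := by
  have : Fact (Nat.Prime 2) := ⟨Nat.prime_two⟩
  obtain ⟨Q0, hQ0⟩ := Sylow.exists_subgroup_card_pow_prime 2 (n := 7) (G := ↥L)
    (by rw [hc]; norm_num)
  have hQL : Q0.map L.subtype ≤ L := Subgroup.map_subtype_le Q0
  have hQc : Nat.card (Q0.map L.subtype) = 2 ^ 7 := by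
    rw [Subgroup.card_map_of_injective L.subtype_injective, hQ0]
  have hQM := le_trans hQL hL
  obtain ⟨g, hg⟩ := MulAction.exists_smul_eq ↥M
    (Syl.sylOf hQM hQc SylM23.card_H (by norm_num))
    (Syl.sylOf SylM23.le_H card_R0 SylM23.card_H (by norm_num))
  refine ⟨(g : Equiv.Perm GolayPt), g.2, ?_⟩
  intro r hr
  have h1 : (⟨r, SylM23.le_H hr⟩ : ↥M) ∈
      ((Syl.sylOf SylM23.le_H card_R0 SylM23.card_H (by norm_num) : Sylow 2 ↥M) : Subgroup ↥M) := by
    rw [Syl.coe_sylOf, Subgroup.mem_subgroupOf]
    exact hr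
  rw [← hg, Sylow.coe_subgroup_smul, Subgroup.mem_pointwise_smul_iff_inv_smul_mem, Syl.coe_sylOf,
    Subgroup.mem_subgroupOf] at h1
  refine ⟨(g : Equiv.Perm GolayPt)⁻¹ * r * g, hQL h1, ?_⟩
  show (g : Equiv.Perm GolayPt) * ((g : Equiv.Perm GolayPt)⁻¹ * r * g) * (g : Equiv.Perm GolayPt)⁻¹ = r
  group

theorem perm_apply_inv (c : Equiv.Perm GolayPt) (x : GolayPt) : c (c⁻¹ x) = x :=
  Equiv.apply_symm_apply c x

theorem perm_inv_apply (c : Equiv.Perm GolayPt) (x : GolayPt) : c⁻¹ (c x) = x :=
  Equiv.symm_apply_apply c x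

/-- A subgroup of order 5760 of `M23` is the stabilizer of a set of 4 points through `∞`, or it fixes a
second point `q`, leaves an octad through `∞` and `q` invariant and contains the pointwise stabilizer of this
octad. -/
theorem point_stab_type {L : Subgroup (Equiv.Perm GolayPt)} (hL : L ≤ M) (hc : Nat.card L = 5760) :
    (∃ T : Finset GolayPt, T.card = 4 ∧ none ∈ T ∧
      ∀ h ∈ M24, h none = none → (h ∈ L ↔ h • T = T)) ∨
    (∃ (q : GolayPt) (O : Finset GolayPt), O ∈ octads ∧ none ∈ O ∧ q ∈ O ∧ q ≠ none ∧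
      (∀ h ∈ L, h q = q ∧ h • O = O) ∧ (∀ e ∈ M24, (∀ z ∈ O, e z = z) → e ∈ L)) := by
  obtain ⟨c, hcM, hR⟩ := exists_conj_R0_le hL hc
  have hcM24 : c ∈ M24 := hcM.1
  have hcn : c none = none := fix_M hcM
  have hcin : c⁻¹ none = none := Equiv.Perm.inv_eq_iff_eq.2 hcn.symm
  have hL' : L.map (MulAut.conj c).toMonoidHom ≤ M := by
    rintro _ ⟨h, hh, rfl⟩
    exact mul_mem (mul_mem hcM (hL hh)) (inv_mem hcM)
  have hcard : Nat.card (L.map (MulAut.conj c).toMonoidHom) = 5760 := by
    rw [← hc]
    exact Subgroup.card_map_of_injective (MulEquiv.injective _)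
  have hmem : ∀ h : Equiv.Perm GolayPt, h ∈ L ↔ c * h * c⁻¹ ∈ L.map (MulAut.conj c).toMonoidHom := by
    intro h
    exact (Subgroup.mem_map_iff_mem (f := (MulAut.conj c).toMonoidHom)
      (MulEquiv.injective (MulAut.conj c))).symm
  have hconj : ∀ (h : Equiv.Perm GolayPt) (S : Finset GolayPt),
      (c * h * c⁻¹) • S = S ↔ h • (c⁻¹ • S) = c⁻¹ • S := by
    intro h S
    rw [mul_smul, mul_smul, smul_eq_iff_eq_inv_smul]
  rcases core1771 hL' hcard hR with h | h
  · left
    have hn3 : none ∉ c⁻¹ • setM 4325392 := by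
      rw [Finset.mem_inv_smul_finset_iff, Equiv.Perm.smul_def, hcn, mem_setM]
      decide
    refine ⟨insert none (c⁻¹ • setM 4325392), ?_, Finset.mem_insert_self _ _, ?_⟩
    · rw [Finset.card_insert_of_notMem hn3, Finset.card_smul_finset, card_setM (by norm_num)]
      decide
    · intro g hg hgn
      rw [hmem, h]
      have hM' : c * g * c⁻¹ ∈ M := mem_M (mul_mem (mul_mem hcM24 hg) (inv_mem hcM24)) (by
        rw [Equiv.Perm.mul_apply, Equiv.Perm.mul_apply, hcin, hgn, hcn])
      have e1 : c * g * c⁻¹ ∈ stabSub 8388608 [4325392] ↔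
          g • (c⁻¹ • setM 4325392) = c⁻¹ • setM 4325392 := by
        rw [← hconj, smul_setM_eq_iff]
        constructor
        · intro h1
          exact h1.2.2 _ (List.mem_singleton.2 rfl)
        · intro h1
          refine ⟨hM'.1, hM'.2.1, ?_⟩
          intro I hI
          rw [List.mem_singleton] at hI
          subst hI
          exact h1
      rw [e1]
      constructor
      · intro h3
        rw [Finset.smul_finset_insert, h3, Equiv.Perm.smul_def, hgn]
      · intro h4
        apply smul_eq_of_maps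
        intro z hz
        have h5 := maps_of_smul_eq h4 z (Finset.mem_insert_of_mem hz)
        rw [Finset.mem_insert] at h5
        rcases h5 with h5 | h5
        · exfalso
          have h6 : z = none := g.injective (h5.trans hgn.symm)
          rw [h6] at hz
          exact hn3 hz
        · exact h5
  · right
    have hO0 : setM 12720156 ∈ octads := (setM_mem_octads_iff (by norm_num)).2 (by decide)
    have key1 : ∀ z : GolayPt, (12720156 : Nat).testBit (idx z) = true ↔
        (z = none ∨ z = pt 22 ∨ (137244 : Nat).testBit (idx z) = true) := by decide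
    have key2 : ∀ r : GolayPt, (12582912 : Nat).testBit (idx r) = true → r = none ∨ r = pt 22 := by
      decide
    refine ⟨c⁻¹ (pt 22), c⁻¹ • setM 12720156, smul_mem_octads (inv_mem hcM24) hO0, ?_, ?_, ?_, ?_, ?_⟩
    · rw [Finset.mem_inv_smul_finset_iff, Equiv.Perm.smul_def, hcn, mem_setM]
      decide
    · rw [Finset.mem_inv_smul_finset_iff, Equiv.Perm.smul_def, perm_apply_inv, mem_setM]
      decide
    · intro h1
      have h2 := congrArg c h1
      rw [perm_apply_inv, hcn] at h2
      exact absurd h2 (by decide)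
    · intro g hg
      have hg' : c * g * c⁻¹ ∈ stabSub 12582912 [137244] := by
        rw [← h]
        exact (hmem g).1 hg
      obtain ⟨hgM, hgF, hgI⟩ := hg'
      have hI := hgI 137244 (List.mem_singleton.2 rfl)
      have h22 : (c * g * c⁻¹) (pt 22) = pt 22 := hgF (pt 22) (by decide)
      have hnn : (c * g * c⁻¹) none = none := hgF none (by decide)
      constructor
      · have h3 := h22
        rw [Equiv.Perm.mul_apply, Equiv.Perm.mul_apply] at h3
        exact (Equiv.Perm.inv_eq_iff_eq.2 h3.symm).symm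
      · rw [← hconj]
        apply smul_eq_of_maps
        intro z hz
        rw [mem_setM] at hz ⊢
        rw [key1] at hz ⊢
        rcases hz with rfl | rfl | hz
        · left; exact hnn
        · right; left; exact h22
        · right; right; rw [hI]; exact hz
    · intro e he hefix
      rw [hmem, h]
      have hfix' : ∀ z : GolayPt, (12720156 : Nat).testBit (idx z) = true → (c * e * c⁻¹) z = z := by
        intro z hz
        have h1 : c⁻¹ z ∈ c⁻¹ • setM 12720156 := by
          rw [← Equiv.Perm.smul_def]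
          exact Finset.smul_mem_smul_finset ((mem_setM _ _).2 hz)
        rw [Equiv.Perm.mul_apply, Equiv.Perm.mul_apply, hefix _ h1, perm_apply_inv]
      refine ⟨mul_mem (mul_mem hcM24 he) (inv_mem hcM24), ?_, ?_⟩
      · intro r hr
        apply hfix'
        rw [key1]
        rcases key2 r hr with h1 | h1
        · left; exact h1
        · right; left; exact h1
      · intro I hI
        rw [List.mem_singleton] at hI
        subst hI
        rw [← smul_setM_eq_iff]
        apply smul_eq_of_maps
        intro z hz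
        rw [hfix' z ((key1 z).2 (Or.inr (Or.inr ((mem_setM _ _).1 hz))))]
        exact hz

/-- The pointwise stabilizer in `M24` of a set of 4 points is transitive on the other points. -/
theorem fix4_trans {X : Finset GolayPt} (hX : X.card = 4) {p r : GolayPt} (hp : p ∉ X) (hr : r ∉ X) :
    ∃ e ∈ M24, (∀ z ∈ X, e z = z) ∧ e p = r := by
  obtain ⟨g, hg, hh⟩ := Cfsg.Agent.Helper7.m24_tuple [0, 1, 2, 3, 4] Cfsg.Agent.Helper7.m24chain
    (p :: X.toList) (by simp [hX])
    (List.nodup_cons.2 ⟨by simpa using hp, X.nodup_toList⟩)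
  obtain ⟨g', hg', hh'⟩ := Cfsg.Agent.Helper7.m24_tuple [0, 1, 2, 3, 4] Cfsg.Agent.Helper7.m24chain
    (r :: X.toList) (by simp [hX])
    (List.nodup_cons.2 ⟨by simpa using hr, X.nodup_toList⟩)
  simp only [List.map_cons, List.map_nil, List.cons.injEq] at hh hh'
  obtain ⟨h0, hl⟩ := hh
  obtain ⟨h0', hl'⟩ := hh'
  have hll : [g (Cfsg.Agent.Helper7.pt 1), g (Cfsg.Agent.Helper7.pt 2), g (Cfsg.Agent.Helper7.pt 3),
      g (Cfsg.Agent.Helper7.pt 4)] = [g' (Cfsg.Agent.Helper7.pt 1), g' (Cfsg.Agent.Helper7.pt 2),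
      g' (Cfsg.Agent.Helper7.pt 3), g' (Cfsg.Agent.Helper7.pt 4)] :=
    hl.trans hl'.symm
  simp only [List.cons.injEq, and_true] at hll
  refine ⟨g' * g⁻¹, mul_mem hg' (inv_mem hg), ?_, ?_⟩
  · intro z hz
    have hz' : z ∈ X.toList := Finset.mem_toList.2 hz
    rw [← hl] at hz'
    simp only [List.mem_cons, List.not_mem_nil, or_false] at hz'
    rw [Equiv.Perm.mul_apply]
    rcases hz' with rfl | rfl | rfl | rfl
    · rw [perm_inv_apply]; exact hll.1.symm
    · rw [perm_inv_apply]; exact hll.2.1.symm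
    · rw [perm_inv_apply]; exact hll.2.2.1.symm
    · rw [perm_inv_apply]; exact hll.2.2.2.symm
  · rw [Equiv.Perm.mul_apply, ← h0, ← h0']
    simp

/-- The point stabilizers of a transitive subgroup with point stabilizers of order 5760 are not of the
second type. -/
theorem no_flag_type {K : Subgroup (Equiv.Perm GolayPt)} (hK : K ≤ M24)
    (hst : ∀ a, Nat.card (stabP K a) = 5760) (htrans : ∀ x y : GolayPt, ∃ g ∈ K, g x = y)
    {q : GolayPt} {O : Finset GolayPt} (hO : O ∈ octads) (hq : q ≠ none)
    (h1 : ∀ h ∈ stabP K none, h q = q ∧ h • O = O)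
    (h2 : ∀ e ∈ M24, (∀ z ∈ O, e z = z) → e ∈ stabP K none) : False := by
  have : Fact (Nat.Prime 5) := ⟨by norm_num⟩
  obtain ⟨f, hf, hfo⟩ := exists_orderOf_eq (stabP K none) 5 (by rw [hst]; norm_num)
  have hfK := (mem_stabP.1 hf).1
  have hfM := hK hfK
  have hf5 : f ^ 5 = 1 := by rw [← hfo]; exact pow_orderOf_eq_one f
  have h3 : (O ∩ fixF f).card = 3 := by
    have ha := card_modEq_fix hf5 O (maps_of_smul_eq (h1 f hf).2)
    have hb : (O ∩ fixF f).card ≤ 4 := by
      rw [← card_fixF_five hfM hfo]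
      exact Finset.card_le_card Finset.inter_subset_right
    rw [hO.2] at ha
    unfold Nat.ModEq at ha
    omega
  obtain ⟨w, hwf, hwO⟩ : ∃ w ∈ fixF f, w ∉ O ∩ fixF f := by
    apply Finset.exists_mem_notMem_of_card_lt_card
    rw [h3, card_fixF_five hfM hfo]
    norm_num
  have hwO' : w ∉ O := fun h => hwO (Finset.mem_inter.2 ⟨h, hwf⟩)
  have hother : ∀ w' ∈ fixF f, w' ≠ w → w' ∈ O := by
    intro w' hw' hne
    have hsub : O ∩ fixF f ⊆ (fixF f).erase w := by
      intro z hz
      rw [Finset.mem_erase]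
      refine ⟨?_, (Finset.mem_inter.1 hz).2⟩
      rintro rfl
      exact hwO hz
    have heq : O ∩ fixF f = (fixF f).erase w := Finset.eq_of_subset_of_card_le hsub (by
      rw [Finset.card_erase_of_mem hwf, card_fixF_five hfM hfo, h3])
    have h4 : w' ∈ O ∩ fixF f := by
      rw [heq]
      exact Finset.mem_erase.2 ⟨hne, hw'⟩
    exact (Finset.mem_inter.1 h4).1
  obtain ⟨g, hg, hgw⟩ := htrans none w
  have hfixw' : ∀ h ∈ stabP K w, h (g q) = g q := by
    intro h hh
    have hc : g⁻¹ * h * g ∈ stabP K none := by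
      rw [mem_stabP]
      refine ⟨mul_mem (mul_mem (inv_mem hg) (mem_stabP.1 hh).1) hg, ?_⟩
      rw [Equiv.Perm.mul_apply, Equiv.Perm.mul_apply, hgw, (mem_stabP.1 hh).2, ← hgw]
      simp
    have h5 := (h1 _ hc).1
    rw [Equiv.Perm.mul_apply, Equiv.Perm.mul_apply] at h5
    have h6 := congrArg g h5
    simpa using h6
  have hgq_ne : g q ≠ w := by
    intro h
    rw [← hgw] at h
    exact hq (g.injective h)
  have hfw : f ∈ stabP K w := mem_stabP.2 ⟨hfK, mem_fixF.1 hwf⟩
  have hgqO : g q ∈ O := hother (g q) (mem_fixF.2 (hfixw' f hfw)) hgq_ne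
  have hle : stabP K w ≤ stabP K (g q) :=
    fun h hh => mem_stabP.2 ⟨(mem_stabP.1 hh).1, hfixw' h hh⟩
  have heq : stabP K w = stabP K (g q) := Subgroup.eq_of_le_of_card_ge hle (by rw [hst, hst])
  obtain ⟨r, hr, hrw⟩ : ∃ r ∈ Oᶜ, r ≠ w := by
    apply Finset.exists_mem_ne
    rw [Finset.card_compl, card_golayPt, hO.2]
    norm_num
  rw [Finset.mem_compl] at hr
  obtain ⟨e, he, hew⟩ := Cfsg.Agent.Helper7.octad_fix_trans hO hwO' hr
  have hefix : ∀ z ∈ O, e z = z := fun z hz =>
    (mem_fixingSubgroup_iff _).1 he.2 z (Finset.mem_coe.2 hz)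
  have heL := h2 e he.1 hefix
  have he1 : e ∈ stabP K (g q) := mem_stabP.2 ⟨(mem_stabP.1 heL).1, hefix _ hgqO⟩
  rw [← heq] at he1
  have h7 := (mem_stabP.1 he1).2
  rw [hew] at h7
  exact hrw h7

/-- A transitive subgroup of `M24` whose point stabilizers are stabilizers of sets of 4 points leaves a
sextet invariant. -/
theorem sextet_of_tetrad_type {K : Subgroup (Equiv.Perm GolayPt)} (hK : K ≤ M24)
    (htrans : ∀ x y : GolayPt, ∃ g ∈ K, g x = y) {T : Finset GolayPt} (hT4 : T.card = 4)
    (hnT : none ∈ T) (hd : IsStabData K none T) :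
    ∀ k ∈ K, k • Helper26.sextetOf T = Helper26.sextetOf T := by
  have hB : ∀ (y : GolayPt) (X : Finset GolayPt) (a : GolayPt) (X' : Finset GolayPt), X.card = 4 →
      y ∈ X → IsStabData K y X → a ∈ X → X'.card = 4 → IsStabData K a X' → X' = X := by
    intro y X a X' hX4 hyX hdat haX hX'4 hdat'
    by_contra hne
    obtain ⟨p, hpX', hpX⟩ : ∃ p ∈ X', p ∉ X := by
      by_contra hcon
      apply hne
      apply Finset.eq_of_subset_of_card_le
      · intro q hq
        by_contra hqX
        exact hcon ⟨q, hq, hqX⟩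
      · rw [hX4, hX'4]
    have hsub : Xᶜ ⊆ X' := by
      intro r hr
      rw [Finset.mem_compl] at hr
      obtain ⟨e, he, hefix, hep⟩ := fix4_trans hX4 hpX hr
      have heo : e • X = X := smul_eq_of_maps (fun z hz => by rw [hefix z hz]; exact hz)
      have heK : e ∈ stabP K y := (hdat e he (hefix y hyX)).2 heo
      have hea : e ∈ stabP K a := mem_stabP.2 ⟨(mem_stabP.1 heK).1, hefix a haX⟩
      have heo' : e • X' = X' := (hdat' e he (hefix a haX)).1 hea
      rw [← hep]
      exact maps_of_smul_eq heo' p hpX'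
    have h1 := Finset.card_le_card hsub
    rw [Finset.card_compl, card_golayPt, hX4, hX'4] at h1
    omega
  intro k hk
  have hkT4 : (k • T).card = 4 := by rw [Finset.card_smul_finset, hT4]
  have hdk : IsStabData K (k none) (k • T) := IsStabData.conj hK hd hk
  have hkn : k none ∈ k • T := by
    rw [← Equiv.Perm.smul_def]
    exact Finset.smul_mem_smul_finset hnT
  have hmem : k • T ∈ Helper26.sextetOf T := by
    rw [Helper26.mem_sextetOf]
    by_cases hp : k none ∈ T
    · left
      exact hB none T (k none) (k • T) hT4 hnT hd hp hkT4 hdk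
    · right
      have hdisj : Disjoint T (k • T) := by
        rw [Finset.disjoint_left]
        intro a haT hakT
        obtain ⟨h, hh, hha⟩ := htrans none a
        have hda : IsStabData K (h none) (h • T) := IsStabData.conj hK hd hh
        rw [hha] at hda
        have e1 : h • T = T :=
          hB none T a (h • T) hT4 hnT hd haT (by rw [Finset.card_smul_finset, hT4]) hda
        rw [e1] at hda
        have e2 : T = k • T := hB (k none) (k • T) a T hkT4 hkn hdk hakT hT4 hda
        apply hp
        rw [e2]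
        exact hkn
      obtain ⟨o, ho, hsub⟩ := Cfsg.Agent.Helper7.exists_octad_superset (t := insert (k none) T)
        (by rw [Finset.card_insert_of_notMem hp, hT4])
      have hTo : T ⊆ o := fun z hz => hsub (Finset.mem_insert_of_mem hz)
      have hpo : k none ∈ o := hsub (Finset.mem_insert_self _ _)
      have hkTo : k • T ⊆ o := by
        intro r hr
        by_contra hro
        have hsub2 : oᶜ ⊆ k • T := by
          intro s hs
          rw [Finset.mem_compl] at hs
          obtain ⟨e, he, hes⟩ := Cfsg.Agent.Helper7.octad_fix_trans ho hro hs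
          have hefix : ∀ z ∈ o, e z = z := fun z hz =>
            (mem_fixingSubgroup_iff _).1 he.2 z (Finset.mem_coe.2 hz)
          have heT : e • T = T := smul_eq_of_maps (fun z hz => by rw [hefix z (hTo hz)]; exact hz)
          have heK : e ∈ stabP K none := (hd e he.1 (hefix none (hTo hnT))).2 heT
          have hep : e ∈ stabP K (k none) := mem_stabP.2 ⟨(mem_stabP.1 heK).1, hefix _ hpo⟩
          have hekT : e • (k • T) = k • T := (hdk e he.1 (hefix _ hpo)).1 hep
          rw [← hes]
          exact maps_of_smul_eq hekT r hr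
        have h1 := Finset.card_le_card hsub2
        rw [Finset.card_compl, card_golayPt, ho.2, hkT4] at h1
        omega
      refine ⟨o, ⟨ho, hTo⟩, ?_⟩
      symm
      apply Finset.eq_of_subset_of_card_le
      · intro r hr
        rw [Finset.mem_sdiff]
        exact ⟨hkTo hr, fun hrT => Finset.disjoint_left.1 hdisj hrT hr⟩
      · rw [Finset.card_sdiff_of_subset hTo, ho.2, hT4, hkT4]
  rw [smul_sextetOf (hK hk) hT4]
  exact (Helper26.eq_sextetOf (Helper26.sextetOf_mem_sextets T hT4) hmem).symm

/-- A subgroup of order 138240 of `M24` leaves a sextet invariant. -/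
theorem idx1771 {K : Subgroup (Equiv.Perm GolayPt)} (hK : K ≤ M24) (hc : Nat.card K = 138240) :
    ∃ S ∈ sextets, ∀ k ∈ K, k • S = S := by
  obtain ⟨hst, htrans⟩ := trans_of_card hK hc (m := 5760) (by norm_num)
    (fun j c h0 h1 h => by omega)
  have hLM : stabP K none ≤ M :=
    fun k hk => mem_M (hK (mem_stabP.1 hk).1) (mem_stabP.1 hk).2
  rcases point_stab_type hLM (hst none) with
    ⟨T, hT4, hnT, hiff⟩ | ⟨q, O, hO, hnO, hqO, hq, h1, h2⟩
  · exact ⟨Helper26.sextetOf T, Helper26.sextetOf_mem_sextets T hT4,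
      sextet_of_tetrad_type hK htrans hT4 hnT hiff⟩
  · exact (no_flag_type hK hst htrans hO hq h1 h2).elim

end Cfsg.Agent.Helper91.Idx24
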