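/-
Helper91: the subgroups of index 759, 276, 1771 and 253 of `Cfsg.M24`, as subgroups of `↥Cfsg.M24`.
-/
import Cfsg.Agent.Helper91.Idx24h
import Cfsg.Agent.Helper91.StabCard
import Cfsg.Agent.Helper27.SextetA

set_option autoImplicit false

namespace Cfsg.Agent.Helper91.Idx24

open Cfsg Cfsg.Agent.Helper91
open scoped Pointwise

/-- The stabilizer of a pair of points in `M24` has order 887040. -/
theorem card_stabilizer_duad {s : Finset GolayPt} (hs : s.card = 2) :
    Nat.card ↥(MulAction.stabilizer ↥M24 s) = 887040 := by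
  have h := card_stabilizer_mul_orbit (G := ↥M24) s
  have horb : MulAction.orbit ↥M24 s =
      ((Finset.powersetCard 2 (Finset.univ : Finset GolayPt) : Finset (Finset GolayPt)) :
        Set (Finset GolayPt)) := by
    ext t
    rw [Finset.mem_coe, Finset.mem_powersetCard]
    constructor
    · rintro ⟨g, rfl⟩
      refine ⟨Finset.subset_univ _, ?_⟩
      show ((g : Equiv.Perm GolayPt) • s).card = 2
      rw [Finset.card_smul_finset, hs]
    · rintro ⟨-, ht⟩
      obtain ⟨a, b, hab, rfl⟩ := Finset.card_eq_two.1 hs
      obtain ⟨a', b', hab', rfl⟩ := Finset.card_eq_two.1 ht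
      obtain ⟨g, hg, hga, hgb⟩ := Cfsg.Agent.Helper7.m24_trans2 hab hab'
      refine ⟨⟨g, hg⟩, ?_⟩
      show g • ({a, b} : Finset GolayPt) = {a', b'}
      rw [Finset.smul_finset_insert, Finset.smul_finset_singleton, Equiv.Perm.smul_def,
        Equiv.Perm.smul_def, hga, hgb]
  rw [horb, Set.ncard_coe_finset, Finset.card_powersetCard, Finset.card_univ, card_golayPt,
    Cfsg.Agent.Helper7.card_M24] at h
  have h2 : Nat.choose 24 2 = 276 := by decide
  rw [h2] at h
  omega

/-- A subgroup of `↥M24` leaving a set of points invariant, of the order of its stabilizer, is this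
stabilizer. -/
theorem eq_stab_set (H : Subgroup ↥M24) (x : Finset GolayPt) {n : ℕ} (hcard : Nat.card H = n)
    (hstab : Nat.card ↥(MulAction.stabilizer ↥M24 x) = n)
    (hfix : ∀ k ∈ H.map M24.subtype, k • x = x) : H = MulAction.stabilizer ↥M24 x := by
  apply Subgroup.eq_of_le_of_card_ge
  · intro h hh
    rw [MulAction.mem_stabilizer_iff]
    exact hfix _ ⟨h, hh, rfl⟩
  · rw [hcard, hstab]

/-- A subgroup of `↥M24` leaving a set of sets of points invariant, of the order of its stabilizer, is
this stabilizer. -/
theorem eq_stab_set2 (H : Subgroup ↥M24) (x : Finset (Finset GolayPt)) {n : ℕ}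
    (hcard : Nat.card H = n) (hstab : Nat.card ↥(MulAction.stabilizer ↥M24 x) = n)
    (hfix : ∀ k ∈ H.map M24.subtype, k • x = x) : H = MulAction.stabilizer ↥M24 x := by
  apply Subgroup.eq_of_le_of_card_ge
  · intro h hh
    rw [MulAction.mem_stabilizer_iff]
    exact hfix _ ⟨h, hh, rfl⟩
  · rw [hcard, hstab]

/-- The order of a subgroup of `↥M24`, as a subgroup of the group of all permutations. -/
theorem card_map_M24 (H : Subgroup ↥M24) : Nat.card (H.map M24.subtype) = Nat.card H :=
  Subgroup.card_map_of_injective (Subgroup.subtype_injective _)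

end Cfsg.Agent.Helper91.Idx24
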