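/-
Helper91: maximality of the stabilizer of a structure in `M24` from the lengths of its orbits on the images
of the structure; statements with the structure itself and three or four further orbits.
-/
import Cfsg.Agent.Helper91.Sep2
import Cfsg.Agent.Helper7.Maximal

set_option autoImplicit false

namespace Cfsg.Agent.Helper91

open Cfsg
open scoped Pointwise

section
variable {G : Type*} [Group G] {X : Type*} [MulAction G X]

open Classical in
/-- Maximality of a point stabilizer from its orbits: if the orbit of `x` is the disjoint union of `{x}` and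
the orbits of `Y i` under the stabilizer of `x`, and no partial sum of the lengths containing `1` divides the
total except the trivial ones, then the stabilizer is a maximal subgroup. -/
theorem isCoatom_of_orbits [Finite G] (x : X) {r : ℕ} (Y : Fin r → X) (n : Fin r → ℕ)
    (hn : ∀ i, (MulAction.orbit ↥(MulAction.stabilizer G x) (Y i)).ncard = n i)
    (hcover : MulAction.orbit G x = {x} ∪ ⋃ i, MulAction.orbit ↥(MulAction.stabilizer G x) (Y i))
    (hx : ∀ i, Y i ≠ x)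
    (hdisj : ∀ i j, i ≠ j → Y j ∉ MulAction.orbit ↥(MulAction.stabilizer G x) (Y i))
    (hr : 0 < r)
    (harith : ∀ I : Finset (Fin r), (1 + ∑ i ∈ I, n i) ∣ (1 + ∑ i, n i) → I = ∅ ∨ I = Finset.univ) :
    IsCoatom (MulAction.stabilizer G x) := by
  set c : X → Option (Fin r) := fun y =>
    if h : ∃ i, y ∈ MulAction.orbit ↥(MulAction.stabilizer G x) (Y i) then some (Classical.choose h)
    else none with hcdef
  have ha : ∀ i, x ∉ MulAction.orbit ↥(MulAction.stabilizer G x) (Y i) := by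
    rintro i ⟨k, hk⟩
    apply hx i
    have h1 : (k : G) • Y i = x := hk
    have h2 : (k : G) • x = x := k.2
    have h3 : (k : G) • Y i = (k : G) • x := by rw [h1, h2]
    exact smul_left_cancel _ h3
  have hb : ∀ {y : X} {i : Fin r}, y ∈ MulAction.orbit ↥(MulAction.stabilizer G x) (Y i) →
      c y = some i := by
    intro y i hy
    have hex : ∃ i, y ∈ MulAction.orbit ↥(MulAction.stabilizer G x) (Y i) := ⟨i, hy⟩
    have hch := Classical.choose_spec hex
    rw [hcdef]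
    simp only [dif_pos hex]
    by_contra hne
    have hne' : i ≠ Classical.choose hex := fun e => hne (by rw [← e])
    apply hdisj i _ hne'
    have e1 := MulAction.orbit_eq_iff.2 hy
    have e2 := MulAction.orbit_eq_iff.2 hch
    rw [← e1, e2]
    exact MulAction.mem_orbit_self _
  have hc' : ∀ {y : X} {i : Fin r}, c y = some i →
      y ∈ MulAction.orbit ↥(MulAction.stabilizer G x) (Y i) := by
    intro y i hy
    rw [hcdef] at hy
    by_cases hex : ∃ i, y ∈ MulAction.orbit ↥(MulAction.stabilizer G x) (Y i)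
    · simp only [dif_pos hex] at hy
      have hch := Classical.choose_spec hex
      rw [Option.some.inj hy] at hch
      exact hch
    · simp only [dif_neg hex] at hy
      exact absurd hy (by simp)
  have hd : ∀ {y : X}, y ∈ MulAction.orbit G x → c y = none → y = x := by
    intro y hy hcy
    rw [hcover] at hy
    rcases hy with hy | hy
    · exact hy
    · obtain ⟨i, hi⟩ := Set.mem_iUnion.1 hy
      rw [hb hi] at hcy
      exact absurd hcy (by simp)
  have he : c x = none := by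
    rw [hcdef]
    have hex : ¬ ∃ i, x ∈ MulAction.orbit ↥(MulAction.stabilizer G x) (Y i) := fun ⟨i, hi⟩ => ha i hi
    simp only [dif_neg hex]
  refine Helper7.isCoatom_stabilizer_of_suborbits x c Finset.univ (fun o => o.elim 1 n)
    (fun _ _ => Finset.mem_univ _) ?_ ?_ none he rfl ?_ ?_
  · rintro (_ | i)
    · have e : {y | y ∈ MulAction.orbit G x ∧ c y = none} = {x} := by
        ext y
        constructor
        · rintro ⟨h1, h2⟩
          exact hd h1 h2
        · intro h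
          rw [Set.mem_singleton_iff] at h
          rw [h]
          exact ⟨MulAction.mem_orbit_self x, he⟩
      rw [e, Set.ncard_singleton]
      rfl
    · have e : {y | y ∈ MulAction.orbit G x ∧ c y = some i} =
          MulAction.orbit ↥(MulAction.stabilizer G x) (Y i) := by
        ext y
        constructor
        · rintro ⟨-, h2⟩
          exact hc' h2
        · intro h
          refine ⟨?_, hb h⟩
          rw [hcover]
          exact Or.inr (Set.mem_iUnion.2 ⟨i, h⟩)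
      rw [e, hn i]
      rfl
  · intro y hy z hz hyz
    rcases hcy : c y with _ | i
    · have h1 := hd hy hcy
      have h2 := hd hz (by rw [← hyz, hcy])
      exact ⟨1, one_smul _ _, by rw [one_smul, h1, h2]⟩
    · have h1 := hc' hcy
      have h2 : z ∈ MulAction.orbit ↥(MulAction.stabilizer G x) (Y i) := hc' (by rw [← hyz, hcy])
      obtain ⟨k₁, rfl⟩ := h1
      obtain ⟨k₂, rfl⟩ := h2
      refine ⟨(k₂ * k₁⁻¹ : ↥(MulAction.stabilizer G x)), (k₂ * k₁⁻¹).2, ?_⟩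
      show ((k₂ * k₁⁻¹ : ↥(MulAction.stabilizer G x)) : G) • ((k₁ : G) • Y i) = (k₂ : G) • Y i
      rw [Subgroup.coe_mul, Subgroup.coe_inv, mul_smul, inv_smul_smul]
  · refine ⟨some ⟨0, hr⟩, by simp, ?_⟩
    show n ⟨0, hr⟩ ≠ 0
    rw [← hn]
    exact Set.ncard_ne_zero_of_mem (MulAction.mem_orbit_self _) (Set.finite_range _)
  · intro I _ hI hdvd
    have hIeq : I = Finset.insertNone (Finset.eraseNone I) := by
      rw [Finset.insertNone_eraseNone, Finset.insert_eq_of_mem hI]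
    have hs1 : ∑ o ∈ I, (fun o : Option (Fin r) => o.elim 1 n) o =
        1 + ∑ i ∈ Finset.eraseNone I, n i := by
      conv_lhs => rw [hIeq]
      rw [Finset.sum_insertNone]
      rfl
    have hs2 : ∑ o ∈ (Finset.univ : Finset (Option (Fin r))), (fun o : Option (Fin r) => o.elim 1 n) o =
        1 + ∑ i, n i := by
      rw [Fintype.sum_option]
      rfl
    rw [hs1, hs2] at hdvd
    rcases harith _ hdvd with h | h
    · left
      rw [hIeq, h]
      rfl
    · right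
      intro o _ _
      rw [hIeq, h]
      simp

end

section
variable {β : Type*} [MulAction (Equiv.Perm GolayPt) β]

/-- The orbits of the stabilizer of `z` on the set `Ω` of the images of `z`, and its maximality, from lower
bounds for the orbits. -/
theorem max_orbits [Finite β] (z : β) (Ω : Set β) (hΩ : ∀ g ∈ M24, ∀ x ∈ Ω, g • x ∈ Ω)
    (htr : ∀ y ∈ Ω, ∃ u ∈ M24, u • z = y) (hz : z ∈ Ω)
    {r : ℕ} (X : Fin r → β) (n : Fin r → ℕ) (hX : ∀ i, X i ∈ Ω)
    (hlow : ∀ i, n i ≤ (MulAction.orbit ↥(MulAction.stabilizer ↥M24 z) (X i)).ncard)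
    (hsum : 1 + ∑ i, n i = Ω.ncard)
    (hne : ∀ i, X i ≠ z)
    (hdisj : ∀ i j, i ≠ j → X j ∉ MulAction.orbit ↥(MulAction.stabilizer ↥M24 z) (X i))
    (hr : 0 < r)
    (harith : ∀ I : Finset (Fin r), (1 + ∑ i ∈ I, n i) ∣ (1 + ∑ i, n i) → I = ∅ ∨ I = Finset.univ) :
    (∀ i, (MulAction.orbit ↥(MulAction.stabilizer ↥M24 z) (X i)).ncard = n i) ∧
    Ω = {z} ∪ ⋃ i, MulAction.orbit ↥(MulAction.stabilizer ↥M24 z) (X i) ∧
    IsCoatom (MulAction.stabilizer ↥M24 z) := by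
  have hzorb : MulAction.orbit ↥(MulAction.stabilizer ↥M24 z) z = {z} := by
    ext y
    constructor
    · rintro ⟨k, rfl⟩
      exact k.2
    · intro h
      rw [Set.mem_singleton_iff] at h
      rw [h]
      exact MulAction.mem_orbit_self _
  have hzX : ∀ i, z ∉ MulAction.orbit ↥(MulAction.stabilizer ↥M24 z) (X i) := by
    intro i h
    have h' := MulAction.mem_orbit_symm.1 h
    rw [hzorb] at h'
    exact hne i h'
  have key := orbits_of_lower_bounds (H := ↥(MulAction.stabilizer ↥M24 z)) Ω (Set.toFinite Ω)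
    (fun h x hx => hΩ h.1.1 h.1.2 x hx) (Fin.cons z X : Fin (r + 1) → β) (Fin.cons 1 n : Fin (r + 1) → ℕ)
    (by
      intro i
      refine Fin.cases ?_ ?_ i
      · exact hz
      · intro j
        rw [Fin.cons_succ]; exact hX j)
    (by
      intro i
      refine Fin.cases ?_ ?_ i
      · rw [Fin.cons_zero, Fin.cons_zero, hzorb, Set.ncard_singleton]
      · intro j
        rw [Fin.cons_succ, Fin.cons_succ]; exact hlow j)
    (by
      rw [Fin.sum_univ_succ, Fin.cons_zero]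
      simp only [Fin.cons_succ]
      exact hsum)
    (by
      intro i j
      refine Fin.cases ?_ ?_ i
      · refine Fin.cases ?_ ?_ j
        · intro h; exact absurd rfl h
        · intro j _
          rw [Fin.cons_zero, Fin.cons_succ, hzorb]
          exact hne j
      · intro i
        refine Fin.cases ?_ ?_ j
        · intro _
          rw [Fin.cons_zero, Fin.cons_succ]
          exact hzX i
        · intro j hij
          rw [Fin.cons_succ, Fin.cons_succ]
          exact hdisj i j (fun e => hij (by rw [e])))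
  obtain ⟨hc, hU⟩ := key
  have hcard : ∀ i, (MulAction.orbit ↥(MulAction.stabilizer ↥M24 z) (X i)).ncard = n i := by
    intro i
    have := hc i.succ
    rw [Fin.cons_succ, Fin.cons_succ] at this
    exact this
  have hcover : Ω = {z} ∪ ⋃ i, MulAction.orbit ↥(MulAction.stabilizer ↥M24 z) (X i) := by
    rw [hU]
    ext y
    rw [Set.mem_iUnion, Set.mem_union, Set.mem_iUnion]
    constructor
    · rintro ⟨i, hi⟩
      revert hi
      refine Fin.cases ?_ ?_ i
      · intro hi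
        rw [Fin.cons_zero, hzorb] at hi
        exact Or.inl hi
      · intro j hj
        rw [Fin.cons_succ] at hj
        exact Or.inr ⟨j, hj⟩
    · rintro (h | ⟨j, hj⟩)
      · refine ⟨0, ?_⟩
        rw [Fin.cons_zero, hzorb]; exact h
      · refine ⟨j.succ, ?_⟩
        rw [Fin.cons_succ]; exact hj
  refine ⟨hcard, hcover, ?_⟩
  have horb : MulAction.orbit ↥M24 z = Ω := by
    ext y
    constructor
    · rintro ⟨g, rfl⟩
      exact hΩ g.1 g.2 z hz
    · intro hy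
      obtain ⟨u, hu, e⟩ := htr y hy
      exact ⟨⟨u, hu⟩, e⟩
  exact isCoatom_of_orbits (G := ↥M24) z X n hcard (by rw [horb]; exact hcover) hne hdisj hr harith

/-- The stabilizer of `z` is maximal and has, besides `{z}`, exactly three orbits on `Ω`, of the given
sizes. -/
def MaxOrbits3 (z : β) (Ω : Set β) (n₁ n₂ n₃ : Nat) : Prop :=
  ∃ X₁ ∈ Ω, ∃ X₂ ∈ Ω, ∃ X₃ ∈ Ω,
    (MulAction.orbit ↥(MulAction.stabilizer ↥M24 z) X₁).ncard = n₁ ∧
    (MulAction.orbit ↥(MulAction.stabilizer ↥M24 z) X₂).ncard = n₂ ∧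
    (MulAction.orbit ↥(MulAction.stabilizer ↥M24 z) X₃).ncard = n₃ ∧
    Ω = {z} ∪ MulAction.orbit ↥(MulAction.stabilizer ↥M24 z) X₁ ∪
      MulAction.orbit ↥(MulAction.stabilizer ↥M24 z) X₂ ∪
      MulAction.orbit ↥(MulAction.stabilizer ↥M24 z) X₃ ∧
    IsCoatom (MulAction.stabilizer ↥M24 z)

/-- The stabilizer of `z` is maximal and has, besides `{z}`, exactly four orbits on `Ω`, of the given
sizes. -/
def MaxOrbits4 (z : β) (Ω : Set β) (n₁ n₂ n₃ n₄ : Nat) : Prop :=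
  ∃ X₁ ∈ Ω, ∃ X₂ ∈ Ω, ∃ X₃ ∈ Ω, ∃ X₄ ∈ Ω,
    (MulAction.orbit ↥(MulAction.stabilizer ↥M24 z) X₁).ncard = n₁ ∧
    (MulAction.orbit ↥(MulAction.stabilizer ↥M24 z) X₂).ncard = n₂ ∧
    (MulAction.orbit ↥(MulAction.stabilizer ↥M24 z) X₃).ncard = n₃ ∧
    (MulAction.orbit ↥(MulAction.stabilizer ↥M24 z) X₄).ncard = n₄ ∧
    Ω = {z} ∪ MulAction.orbit ↥(MulAction.stabilizer ↥M24 z) X₁ ∪
      MulAction.orbit ↥(MulAction.stabilizer ↥M24 z) X₂ ∪
      MulAction.orbit ↥(MulAction.stabilizer ↥M24 z) X₃ ∪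
      MulAction.orbit ↥(MulAction.stabilizer ↥M24 z) X₄ ∧
    IsCoatom (MulAction.stabilizer ↥M24 z)

theorem isCoatom_smul {z : β} {u : Equiv.Perm GolayPt} (hu : u ∈ M24)
    (h : IsCoatom (MulAction.stabilizer ↥M24 z)) : IsCoatom (MulAction.stabilizer ↥M24 (u • z)) :=
  (Helper7.isCoatom_stabilizer_smul (⟨u, hu⟩ : ↥M24) z).2 h

theorem MaxOrbits3.smul {z : β} {Ω : Set β} {n₁ n₂ n₃ : Nat} (h : MaxOrbits3 z Ω n₁ n₂ n₃)
    {u : Equiv.Perm GolayPt} (hu : u ∈ M24) (hΩ : ∀ g ∈ M24, ∀ x ∈ Ω, g • x ∈ Ω) :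
    MaxOrbits3 (u • z) Ω n₁ n₂ n₃ := by
  obtain ⟨X₁, h₁, X₂, h₂, X₃, h₃, c₁, c₂, c₃, hU, hco⟩ := h
  refine ⟨u • X₁, hΩ u hu _ h₁, u • X₂, hΩ u hu _ h₂, u • X₃, hΩ u hu _ h₃, ?_, ?_, ?_, ?_,
    isCoatom_smul hu hco⟩
  · rw [ncard_orbit_stabilizer_smul hu, c₁]
  · rw [ncard_orbit_stabilizer_smul hu, c₂]
  · rw [ncard_orbit_stabilizer_smul hu, c₃]
  · have e : ({u • z} : Set β) = (fun y => u • y) '' {z} := by rw [Set.image_singleton]
    rw [orbit_stabilizer_smul hu, orbit_stabilizer_smul hu, orbit_stabilizer_smul hu, e,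
      ← Set.image_union, ← Set.image_union, ← Set.image_union, ← hU, smul_set_eq_of_inv hu hΩ]

theorem MaxOrbits4.smul {z : β} {Ω : Set β} {n₁ n₂ n₃ n₄ : Nat} (h : MaxOrbits4 z Ω n₁ n₂ n₃ n₄)
    {u : Equiv.Perm GolayPt} (hu : u ∈ M24) (hΩ : ∀ g ∈ M24, ∀ x ∈ Ω, g • x ∈ Ω) :
    MaxOrbits4 (u • z) Ω n₁ n₂ n₃ n₄ := by
  obtain ⟨X₁, h₁, X₂, h₂, X₃, h₃, X₄, h₄, c₁, c₂, c₃, c₄, hU, hco⟩ := h
  refine ⟨u • X₁, hΩ u hu _ h₁, u • X₂, hΩ u hu _ h₂, u • X₃, hΩ u hu _ h₃, u • X₄, hΩ u hu _ h₄,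
    ?_, ?_, ?_, ?_, ?_, isCoatom_smul hu hco⟩
  · rw [ncard_orbit_stabilizer_smul hu, c₁]
  · rw [ncard_orbit_stabilizer_smul hu, c₂]
  · rw [ncard_orbit_stabilizer_smul hu, c₃]
  · rw [ncard_orbit_stabilizer_smul hu, c₄]
  · have e : ({u • z} : Set β) = (fun y => u • y) '' {z} := by rw [Set.image_singleton]
    rw [orbit_stabilizer_smul hu, orbit_stabilizer_smul hu, orbit_stabilizer_smul hu,
      orbit_stabilizer_smul hu, e, ← Set.image_union, ← Set.image_union, ← Set.image_union,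
      ← Set.image_union, ← hU, smul_set_eq_of_inv hu hΩ]

/-- Three further orbits and maximality from lower bounds. -/
theorem maxOrbits3_of_lower [Finite β] (z : β) (Ω : Set β) (hΩ : ∀ g ∈ M24, ∀ x ∈ Ω, g • x ∈ Ω)
    (htr : ∀ y ∈ Ω, ∃ u ∈ M24, u • z = y) (hz : z ∈ Ω)
    {X₁ X₂ X₃ : β} {n₁ n₂ n₃ : Nat} (h₁ : X₁ ∈ Ω) (h₂ : X₂ ∈ Ω) (h₃ : X₃ ∈ Ω)
    (l₁ : n₁ ≤ (MulAction.orbit ↥(MulAction.stabilizer ↥M24 z) X₁).ncard)
    (l₂ : n₂ ≤ (MulAction.orbit ↥(MulAction.stabilizer ↥M24 z) X₂).ncard)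
    (l₃ : n₃ ≤ (MulAction.orbit ↥(MulAction.stabilizer ↥M24 z) X₃).ncard)
    (hsum : 1 + (n₁ + n₂ + n₃) = Ω.ncard)
    (e₁ : X₁ ≠ z) (e₂ : X₂ ≠ z) (e₃ : X₃ ≠ z)
    (d₁₂ : X₂ ∉ MulAction.orbit ↥(MulAction.stabilizer ↥M24 z) X₁)
    (d₁₃ : X₃ ∉ MulAction.orbit ↥(MulAction.stabilizer ↥M24 z) X₁)
    (d₂₃ : X₃ ∉ MulAction.orbit ↥(MulAction.stabilizer ↥M24 z) X₂)
    (harith : ∀ I : Finset (Fin 3), (1 + ∑ i ∈ I, ![n₁, n₂, n₃] i) ∣ (1 + ∑ i, ![n₁, n₂, n₃] i) →
      I = ∅ ∨ I = Finset.univ) : MaxOrbits3 z Ω n₁ n₂ n₃ := by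
  have sym : ∀ {a b : β}, b ∉ MulAction.orbit ↥(MulAction.stabilizer ↥M24 z) a →
      a ∉ MulAction.orbit ↥(MulAction.stabilizer ↥M24 z) b :=
    fun h h' => h (MulAction.mem_orbit_symm.1 h')
  obtain ⟨hc, hU, hco⟩ := max_orbits z Ω hΩ htr hz ![X₁, X₂, X₃] ![n₁, n₂, n₃]
    (by intro i; fin_cases i <;> assumption)
    (by intro i; fin_cases i <;> assumption)
    (by rw [Fin.sum_univ_three]; exact hsum)
    (by intro i; fin_cases i <;> assumption)
    (by
      intro i j hij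
      fin_cases i <;> fin_cases j
      · exact absurd rfl hij
      · exact d₁₂
      · exact d₁₃
      · exact sym d₁₂
      · exact absurd rfl hij
      · exact d₂₃
      · exact sym d₁₃
      · exact sym d₂₃
      · exact absurd rfl hij)
    (by norm_num) harith
  rw [iUnion_fin3, ← Set.union_assoc, ← Set.union_assoc] at hU
  exact ⟨X₁, h₁, X₂, h₂, X₃, h₃, hc 0, hc 1, hc 2, hU, hco⟩

/-- Four further orbits and maximality from lower bounds. -/
theorem maxOrbits4_of_lower [Finite β] (z : β) (Ω : Set β) (hΩ : ∀ g ∈ M24, ∀ x ∈ Ω, g • x ∈ Ω)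
    (htr : ∀ y ∈ Ω, ∃ u ∈ M24, u • z = y) (hz : z ∈ Ω)
    {X₁ X₂ X₃ X₄ : β} {n₁ n₂ n₃ n₄ : Nat} (h₁ : X₁ ∈ Ω) (h₂ : X₂ ∈ Ω) (h₃ : X₃ ∈ Ω) (h₄ : X₄ ∈ Ω)
    (l₁ : n₁ ≤ (MulAction.orbit ↥(MulAction.stabilizer ↥M24 z) X₁).ncard)
    (l₂ : n₂ ≤ (MulAction.orbit ↥(MulAction.stabilizer ↥M24 z) X₂).ncard)
    (l₃ : n₃ ≤ (MulAction.orbit ↥(MulAction.stabilizer ↥M24 z) X₃).ncard)
    (l₄ : n₄ ≤ (MulAction.orbit ↥(MulAction.stabilizer ↥M24 z) X₄).ncard)
    (hsum : 1 + (n₁ + n₂ + n₃ + n₄) = Ω.ncard)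
    (e₁ : X₁ ≠ z) (e₂ : X₂ ≠ z) (e₃ : X₃ ≠ z) (e₄ : X₄ ≠ z)
    (d₁₂ : X₂ ∉ MulAction.orbit ↥(MulAction.stabilizer ↥M24 z) X₁)
    (d₁₃ : X₃ ∉ MulAction.orbit ↥(MulAction.stabilizer ↥M24 z) X₁)
    (d₁₄ : X₄ ∉ MulAction.orbit ↥(MulAction.stabilizer ↥M24 z) X₁)
    (d₂₃ : X₃ ∉ MulAction.orbit ↥(MulAction.stabilizer ↥M24 z) X₂)
    (d₂₄ : X₄ ∉ MulAction.orbit ↥(MulAction.stabilizer ↥M24 z) X₂)
    (d₃₄ : X₄ ∉ MulAction.orbit ↥(MulAction.stabilizer ↥M24 z) X₃)
    (harith : ∀ I : Finset (Fin 4), (1 + ∑ i ∈ I, ![n₁, n₂, n₃, n₄] i) ∣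
      (1 + ∑ i, ![n₁, n₂, n₃, n₄] i) → I = ∅ ∨ I = Finset.univ) : MaxOrbits4 z Ω n₁ n₂ n₃ n₄ := by
  have sym : ∀ {a b : β}, b ∉ MulAction.orbit ↥(MulAction.stabilizer ↥M24 z) a →
      a ∉ MulAction.orbit ↥(MulAction.stabilizer ↥M24 z) b :=
    fun h h' => h (MulAction.mem_orbit_symm.1 h')
  obtain ⟨hc, hU, hco⟩ := max_orbits z Ω hΩ htr hz ![X₁, X₂, X₃, X₄] ![n₁, n₂, n₃, n₄]
    (by intro i; fin_cases i <;> assumption)
    (by intro i; fin_cases i <;> assumption)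
    (by rw [Fin.sum_univ_four]; exact hsum)
    (by intro i; fin_cases i <;> assumption)
    (by
      intro i j hij
      fin_cases i <;> fin_cases j
      · exact absurd rfl hij
      · exact d₁₂
      · exact d₁₃
      · exact d₁₄
      · exact sym d₁₂
      · exact absurd rfl hij
      · exact d₂₃
      · exact d₂₄
      · exact sym d₁₃
      · exact sym d₂₃
      · exact absurd rfl hij
      · exact d₃₄
      · exact sym d₁₄
      · exact sym d₂₄
      · exact sym d₃₄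
      · exact absurd rfl hij)
    (by norm_num) harith
  rw [iUnion_fin4, ← Set.union_assoc, ← Set.union_assoc, ← Set.union_assoc] at hU
  exact ⟨X₁, h₁, X₂, h₂, X₃, h₃, X₄, h₄, hc 0, hc 1, hc 2, hc 3, hU, hco⟩

end

theorem ne_of_not_mem_orbit {β : Type*} [MulAction (Equiv.Perm GolayPt) β] {z x : β}
    (h : x ∉ MulAction.orbit ↥(MulAction.stabilizer ↥M24 z) z) : x ≠ z := by
  intro e
  apply h
  rw [e]
  exact MulAction.mem_orbit_self z

theorem arith_sextets : ∀ I : Finset (Fin 3), (1 + ∑ i ∈ I, ![90, 240, 1440] i) ∣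
    (1 + ∑ i, ![90, 240, 1440] i) → I = ∅ ∨ I = Finset.univ := by decide

theorem arith_trios : ∀ I : Finset (Fin 4), (1 + ∑ i ∈ I, ![42, 56, 1008, 2688] i) ∣
    (1 + ∑ i, ![42, 56, 1008, 2688] i) → I = ∅ ∨ I = Finset.univ := by decide

end Cfsg.Agent.Helper91
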