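/-
Helper91: `23:11` and `L₂(23)` in `Cfsg.M24`.  Part d: `L₂(23)` has order 6072 and is maximal; transport of
maximality to the lattices of subgroups of subgroups.
-/
import Cfsg.Agent.Helper91.PSL23c
import Cfsg.Agent.Helper91.M24Five

set_option autoImplicit false

namespace Cfsg.Agent.Helper91.PSL23

open Cfsg Cfsg.Agent.Helper91

/-! ## An invariant of `L₂(23)` on triples of points -/

/-- The quadratic character on indices. -/
def chiN (x : Nat) : Bool := (340830 : Nat).testBit x

/-- Subtraction modulo 23. -/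
def subN (a b : Nat) : Nat := (a + 23 - b) % 23

/-- The class of an ordered triple of distinct points (indices). -/
def fN (i j k : Nat) : Bool :=
  if i = 23 then chiN (subN k j) else if j = 23 then chiN (subN i k) else if k = 23 then chiN (subN j i)
  else chiN ((subN i j * subN j k * subN k i) % 23)

/-- The class of an ordered triple of points. -/
def fP (p q r : GolayPt) : Bool := fN (idx p) (idx q) (idx r)

/-- The permutations preserving the classes of triples. -/
def F3 : Subgroup (Equiv.Perm GolayPt) where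
  carrier := {g | ∀ p q r, p ≠ q → q ≠ r → p ≠ r → fP (g p) (g q) (g r) = fP p q r}
  mul_mem' := by
    intro a b ha hb p q r h1 h2 h3
    rw [Equiv.Perm.mul_apply, Equiv.Perm.mul_apply, Equiv.Perm.mul_apply,
      ha _ _ _ (b.injective.ne h1) (b.injective.ne h2) (b.injective.ne h3), hb _ _ _ h1 h2 h3]
  one_mem' := fun _ _ _ _ _ _ => rfl
  inv_mem' := by
    intro a ha p q r h1 h2 h3
    have := ha (a⁻¹ p) (a⁻¹ q) (a⁻¹ r) (a⁻¹.injective.ne h1) (a⁻¹.injective.ne h2) (a⁻¹.injective.ne h3)
    have e : ∀ z, a (a⁻¹ z) = z := fun z => by simp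
    rw [e, e, e] at this
    exact this.symm

/-- Check that a table preserves the classes of triples. -/
def f3ok (T : List Nat) : Bool :=
  (List.range 24).all fun i => (List.range 24).all fun j => (List.range 24).all fun k =>
    (i == j || j == k || i == k) || (fN (T.getD i 0) (T.getD j 0) (T.getD k 0) == fN i j k)

theorem mem_F3_of_tab {g : Equiv.Perm GolayPt} {T : List Nat} (hT : ∀ p, g p = pt (T.getD (idx p) 0))
    (hlt : ∀ i < 24, T.getD i 0 < 24) (hok : f3ok T = true) : g ∈ F3 := by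
  intro p q r h1 h2 h3
  show fN (idx (g p)) (idx (g q)) (idx (g r)) = fN (idx p) (idx q) (idx r)
  rw [hT p, hT q, hT r, idx_pt (hlt _ (idx_lt p)), idx_pt (hlt _ (idx_lt q)), idx_pt (hlt _ (idx_lt r))]
  rw [f3ok, List.all_eq_true] at hok
  have a1 := hok (idx p) (List.mem_range.2 (idx_lt p))
  rw [List.all_eq_true] at a1
  have a2 := a1 (idx q) (List.mem_range.2 (idx_lt q))
  rw [List.all_eq_true] at a2
  have a3 := a2 (idx r) (List.mem_range.2 (idx_lt r))
  have n1 : idx p ≠ idx q := fun e => h1 (idx_injective e)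
  have n2 : idx q ≠ idx r := fun e => h2 (idx_injective e)
  have n3 : idx p ≠ idx r := fun e => h3 (idx_injective e)
  simpa [n1, n2, n3] using a3

/-- Table of `t ↦ t + 1`. -/
def tauT : List Nat := [1, 2, 3, 4, 5, 6, 7, 8, 9, 10, 11, 12, 13, 14, 15, 16, 17, 18, 19, 20, 21, 22, 0, 23]

/-- Table of `t ↦ 2 t`. -/
def sigT : List Nat := [0, 2, 4, 6, 8, 10, 12, 14, 16, 18, 20, 22, 1, 3, 5, 7, 9, 11, 13, 15, 17, 19, 21, 23]

/-- Table of `t ↦ -1/t`. -/
def invT : List Nat := [23, 22, 11, 15, 17, 9, 19, 13, 20, 5, 16, 2, 21, 7, 18, 3, 10, 4, 14, 6, 8, 12, 1, 0]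

theorem tau_tab : ∀ p, tau p = pt (tauT.getD (idx p) 0) := by decide
theorem sigma_tab : ∀ p, sigma p = pt (sigT.getD (idx p) 0) := by decide
theorem projInv_tab : ∀ p, projInv p = pt (invT.getD (idx p) 0) := by decide

theorem tauT_ok : f3ok tauT = true := by decide +kernel
theorem sigT_ok : f3ok sigT = true := by decide +kernel
theorem invT_ok : f3ok invT = true := by decide +kernel

theorem tau_mem_F3 : tau ∈ F3 := mem_F3_of_tab tau_tab (by decide) tauT_ok
theorem sigma_mem_F3 : sigma ∈ F3 := mem_F3_of_tab sigma_tab (by decide) sigT_ok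
theorem projInv_mem_F3 : projInv ∈ F3 := mem_F3_of_tab projInv_tab (by decide) invT_ok

theorem sq_pow : ∀ x : ZMod 23, x ≠ 0 → ∃ i, i < 11 ∧ x * x = 2 ^ i := by decide

theorem mulU_sq {u : (ZMod 23)ˣ} (hu : IsSquare u) : ∃ i : ℕ, mulU u = sigma ^ i := by
  obtain ⟨v, rfl⟩ := hu
  have hv : (v : ZMod 23) ≠ 0 := by
    intro h0
    have := v.mul_inv
    rw [h0, zero_mul] at this
    exact absurd this (by decide)
  obtain ⟨i, -, hi⟩ := sq_pow (v : ZMod 23) hv
  refine ⟨i, Equiv.ext fun p => ?_⟩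
  cases p with
  | none => rw [sigma_pow_none]; rfl
  | some y => rw [sigma_pow, mulU_some, Units.val_mul, hi]

theorem L_le_F3 : L ≤ F3 := by
  rw [L, Subgroup.closure_le]
  rintro g ((hg | hg) | ⟨u, hu, rfl⟩)
  · subst hg; exact tau_mem_F3
  · rw [Set.mem_singleton_iff] at hg
    subst hg; exact projInv_mem_F3
  · obtain ⟨i, hi⟩ := mulU_sq hu
    show mulU u ∈ F3
    rw [hi]
    exact pow_mem sigma_mem_F3 i

theorem M24_not_le_F3 : ¬ M24 ≤ F3 := by
  intro h
  obtain ⟨u, hu, e⟩ := m24_five_trans [pt 23, pt 1, pt 0, pt 2, pt 3] rfl (by decide)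
  simp only [List.cons.injEq, and_true] at e
  obtain ⟨e1, e2, e3, -, -⟩ := e
  have := h hu (pt 23) (pt 0) (pt 1) (by decide) (by decide) (by decide)
  rw [← e1, ← e2, ← e3] at this
  revert this
  decide

theorem L_le_M24 : L ≤ M24 := by
  rw [L, Subgroup.closure_le]
  rintro g ((hg | hg) | ⟨u, hu, rfl⟩)
  · subst hg; exact tau_mem_M24
  · rw [Set.mem_singleton_iff] at hg
    subst hg; exact projInv_mem_M24
  · exact mulU_mem_M24 hu

theorem A_le_L : A ≤ L := by
  apply Subgroup.closure_mono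
  apply Set.union_subset_union_left
  intro x hx
  exact Or.inl hx

theorem L_trans (y : GolayPt) : ∃ h ∈ L, h • (none : GolayPt) = y := by
  cases y with
  | none => exact ⟨1, one_mem _, rfl⟩
  | some x =>
    refine ⟨tau ^ x.val * projInv, mul_mem (pow_mem (A_le_L tau_mem_A) _)
      (Subgroup.subset_closure (Or.inl (Or.inr rfl))), ?_⟩
    show (tau ^ x.val) (projInv none) = some x
    exact exists_tau_pow x

/-- Orbit-stabilizer for a subgroup containing `L₂(23)`. -/
theorem card_stab_inf {H : Subgroup (Equiv.Perm GolayPt)} (hLH : L ≤ H) :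
    Nat.card ↥(H ⊓ MulAction.stabilizer (Equiv.Perm GolayPt) (none : GolayPt)) * 24 = Nat.card H := by
  have h := card_inf_stabilizer_mul H (none : GolayPt) Set.univ
    (fun y => ⟨fun _ => by obtain ⟨h, hh, e⟩ := L_trans y; exact ⟨h, hLH hh, e⟩, fun _ => Set.mem_univ y⟩)
  have h24 : Nat.card GolayPt = 24 := by rw [Nat.card_eq_fintype_card]; rfl
  rwa [Set.ncard_univ, h24] at h

theorem stab_mem_of_A {H : Subgroup (Equiv.Perm GolayPt)} (hLH : L ≤ H) :
    A ≤ H ⊓ MulAction.stabilizer (Equiv.Perm GolayPt) (none : GolayPt) :=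
  fun _ hx => ⟨hLH (A_le_L hx), (A_le_M23 hx).2⟩

theorem L_inf : L ⊓ MulAction.stabilizer (Equiv.Perm GolayPt) (none : GolayPt) = A := by
  rcases A_maximal (stab_mem_of_A le_rfl) (fun x hx => ⟨L_le_M24 hx.1, hx.2⟩) with h | h
  · exact h
  · exfalso
    have hc := card_stab_inf (le_refl L)
    rw [h, card_M23] at hc
    have : L = M24 := Subgroup.eq_of_le_of_card_ge L_le_M24 (by rw [card_M24, ← hc])
    exact M24_not_le_F3 (this ▸ L_le_F3)

theorem card_L : Nat.card L = 6072 := by
  have hc := card_stab_inf (le_refl L)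
  rw [L_inf, card_A] at hc
  omega

/-- `L₂(23)` is maximal in `M24`. -/
theorem L_maximal {H : Subgroup (Equiv.Perm GolayPt)} (hLH : L ≤ H) (hH : H ≤ M24) : H = L ∨ H = M24 := by
  have hc := card_stab_inf hLH
  rcases A_maximal (stab_mem_of_A hLH) (fun x hx => ⟨hH hx.1, hx.2⟩) with h | h
  · left
    rw [h, card_A] at hc
    exact (Subgroup.eq_of_le_of_card_ge hLH (by rw [card_L, ← hc])).symm
  · right
    rw [h, card_M23] at hc
    exact Subgroup.eq_of_le_of_card_ge hH (by rw [card_M24, ← hc])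

/-! ## Coatoms -/

theorem coatom_subgroupOf {G : Type*} [Group G] {H M : Subgroup G} (hHM : H ≤ M) (hne : H ≠ M)
    (hmax : ∀ K : Subgroup G, H ≤ K → K ≤ M → K = H ∨ K = M) : IsCoatom (H.subgroupOf M) := by
  refine ⟨fun h => hne (le_antisymm hHM (Subgroup.subgroupOf_eq_top.1 h)), fun b hb => ?_⟩
  have h1 : H ≤ b.map M.subtype := by
    intro x hx
    exact ⟨⟨x, hHM hx⟩, hb.le (show (⟨x, hHM hx⟩ : M) ∈ H.subgroupOf M from hx), rfl⟩
  have h2 : b.map M.subtype ≤ M := Subgroup.map_subtype_le b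
  have h3 : (b.map M.subtype).subgroupOf M = b :=
    Subgroup.comap_map_eq_self_of_injective M.subtype_injective b
  rcases hmax _ h1 h2 with h | h
  · rw [h] at h3
    exact absurd h3 hb.ne
  · rw [h, Subgroup.subgroupOf_self] at h3
    exact h3.symm

theorem L_coatom : IsCoatom (L.subgroupOf M24) := by
  apply coatom_subgroupOf L_le_M24
  · intro h
    have := card_L
    rw [h, card_M24] at this
    norm_num at this
  · intro K h1 h2
    exact L_maximal h1 h2

theorem A_coatom :
    IsCoatom ((A.subgroupOf M24).subgroupOf (MulAction.stabilizer M24 (none : GolayPt))) := by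
  apply coatom_subgroupOf
  · intro x hx
    exact (A_le_M23 hx).2
  · intro h
    have hle : M23 ≤ A := by
      intro x hx
      have h1 : (⟨x, hx.1⟩ : M24) ∈ MulAction.stabilizer M24 (none : GolayPt) := hx.2
      rw [← h] at h1
      exact h1
    have := Subgroup.card_le_of_le hle
    rw [card_M23, card_A] at this
    norm_num at this
  · intro K' h1 h2
    have hA : A ≤ K'.map M24.subtype := fun x hx => ⟨⟨x, (A_le hx).2⟩, h1 hx, rfl⟩
    have hK : K'.map M24.subtype ≤ M23 := by
      rintro _ ⟨y, hy, rfl⟩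
      exact ⟨y.2, h2 hy⟩
    have h3 : (K'.map M24.subtype).subgroupOf M24 = K' :=
      Subgroup.comap_map_eq_self_of_injective M24.subtype_injective K'
    rcases A_maximal hA hK with h | h
    · left; rw [← h3, h]
    · right
      rw [← h3, h]
      ext y
      exact ⟨fun hy => hy.2, fun hy => ⟨y.2, hy⟩⟩

end Cfsg.Agent.Helper91.PSL23
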