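import Mathlib
import Cfsg.Prelude.Def_LieTwisted

set_option autoImplicit false

namespace Cfsg.Agent.Helper91

open Cfsg

/-- PIECE QUAD: a subgroup `A` acting quadratically and nontrivially on `V` contains an element
`a ∉ C(V)` such that `a` commutes with every `[a, v] = a v a⁻¹ v⁻¹`, `v ∈ V`. -/
theorem qr_quad {G : Type*} [Group G] (V A : Subgroup G) (hquad : ⁅⁅V, A⁆, A⁆ = ⊥)
    (hne : ⁅V, A⁆ ≠ ⊥) :
    ∃ a ∈ A, a ∉ Subgroup.centralizer (V : Set G) ∧
      ∀ v ∈ V, a * (a * v * a⁻¹ * v⁻¹) * a⁻¹ = a * v * a⁻¹ * v⁻¹ := by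
  have h1 : ¬ V ≤ Subgroup.centralizer (A : Set G) :=
    fun h => hne (Subgroup.commutator_eq_bot_iff_le_centralizer.2 h)
  obtain ⟨v, hv, hvc⟩ := SetLike.not_le_iff_exists.1 h1
  rw [Subgroup.mem_centralizer_iff] at hvc
  push_neg at hvc
  obtain ⟨a, ha, hav⟩ := hvc
  refine ⟨a, ha, ?_, ?_⟩
  · intro hc
    rw [Subgroup.mem_centralizer_iff] at hc
    exact hav (hc v hv).symm
  · intro w hw
    have hc : a * w * a⁻¹ * w⁻¹ ∈ ⁅V, A⁆ := by
      have h5 := Subgroup.commutator_mem_commutator hw ha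
      have h2 := inv_mem h5
      rw [commutatorElement_inv, commutatorElement_def] at h2
      exact h2
    have h3 := Subgroup.commutator_mem_commutator hc ha
    rw [hquad, Subgroup.mem_bot, commutatorElement_def] at h3
    have h4 : (a * w * a⁻¹ * w⁻¹) * a = a * (a * w * a⁻¹ * w⁻¹) := by
      have h6 := mul_inv_eq_one.1 h3
      rw [mul_inv_eq_iff_eq_mul] at h6
      exact h6
    rw [← h4, mul_inv_cancel_right]

end Cfsg.Agent.Helper91
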