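import Cfsg.Agent.Helper64.UCDefs

/-!
# CALL S2100 piece S4B (helper91): shape `(1,1), (1,2), (1,3), (2,3)` (`t` version)
-/

set_option autoImplicit false

namespace Cfsg.Agent.Helper91.STUS4B

open Cfsg Cfsg.Lie Cfsg.Agent.Helper36 Cfsg.Agent.Helper64.UC

theorem map4 {α β : Type*} (f : α → β) (l : List α) (a b c d : β)
    (h : l.map f = [a, b, c, d]) :
    ∃ x1 x2 x3 x4, l = [x1, x2, x3, x4] ∧ f x1 = a ∧ f x2 = b ∧ f x3 = c ∧ f x4 = d := by
  rcases l with _ | ⟨x1, _ | ⟨x2, _ | ⟨x3, _ | ⟨x4, _ | ⟨x5, l⟩⟩⟩⟩⟩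
  all_goals simp at h
  exact ⟨x1, x2, x3, x4, rfl, h.1, h.2.1, h.2.2.1, h.2.2.2⟩

/-- the computation in a group with five additive families -/
theorem core {E : Type*} [Group E] {K : Type*} [Field K] (X A B C Z : K → E)
    (hX : ∀ t u, X t * X u = X (t + u)) (hA : ∀ t u, A t * A u = A (t + u))
    (hB : ∀ t u, B t * B u = B (t + u)) (hC : ∀ t u, C t * C u = C (t + u))
    (hZ : ∀ t u, Z t * Z u = Z (t + u)) (N M : K)
    (cN : ∀ t u : K, C u * X t = X t * C u * Z (N * (-t) * u))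
    (cM : ∀ t u : K, B u * A t = A t * B u * Z (M * (-t) * u))
    (c1 : ∀ t u : K, A u * X t = X t * A u)
    (c2 : ∀ t u : K, B u * X t = X t * B u)
    (c4 : ∀ t u : K, Z u * X t = X t * Z u)
    (c13 : ∀ t u : K, C u * A t = A t * C u)
    (c14 : ∀ t u : K, Z u * A t = A t * Z u)
    (c23 : ∀ t u : K, C u * B t = B t * C u)
    (c24 : ∀ t u : K, Z u * B t = B t * Z u)
    (c34 : ∀ t u : K, Z u * C t = C t * Z u)
    (a b c d t t' : K) :
    ∃ P : K, X t * (Z (d * t ^ 2) * C (c * t) * B (b * t) * A (a * t)) *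
        (X t' * (Z (d * t' ^ 2) * C (c * t') * B (b * t') * A (a * t'))) =
      X (t + t') * (Z (d * (t + t') ^ 2) * C (c * (t + t')) * B (b * (t + t')) *
        A (a * (t + t'))) * Z P := by
  refine ⟨N * (-t') * (c * t) + M * (a * t) * (b * t') - 2 * d * t * t', ?_⟩
  have Z0 : Z 0 = 1 := by
    have h := hZ 0 0
    rw [add_zero] at h
    exact mul_eq_left.1 h
  -- merging rules
  have mX : ∀ v w g, X v * (X w * g) = X (v + w) * g := fun v w g => by rw [← mul_assoc, hX]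
  have mA : ∀ v w g, A v * (A w * g) = A (v + w) * g := fun v w g => by rw [← mul_assoc, hA]
  have mB : ∀ v w g, B v * (B w * g) = B (v + w) * g := fun v w g => by rw [← mul_assoc, hB]
  have mC : ∀ v w g, C v * (C w * g) = C (v + w) * g := fun v w g => by rw [← mul_assoc, hC]
  have mZ : ∀ v w g, Z v * (Z w * g) = Z (v + w) * g := fun v w g => by rw [← mul_assoc, hZ]
  -- commutation rules (end versions)
  have eAX : ∀ v w, A v * X w = X w * A v := fun v w => c1 w v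
  have eBX : ∀ v w, B v * X w = X w * B v := fun v w => c2 w v
  have eZX : ∀ v w, Z v * X w = X w * Z v := fun v w => c4 w v
  have eCX : ∀ v w, C v * X w = X w * (C v * Z (N * (-w) * v)) := fun v w => by
    rw [cN w v, mul_assoc]
  have eZC : ∀ v w, Z v * C w = C w * Z v := fun v w => c34 w v
  have eZB : ∀ v w, Z v * B w = B w * Z v := fun v w => c24 w v
  have eZA : ∀ v w, Z v * A w = A w * Z v := fun v w => c14 w v
  have eAC : ∀ v w, A v * C w = C w * A v := fun v w => (c13 v w).symm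
  have eBC : ∀ v w, B v * C w = C w * B v := fun v w => (c23 v w).symm
  have eAB : ∀ v w, A v * B w = B w * (A v * Z (M * v * w)) := by
    intro v w
    have h := cM v w
    rw [← mul_assoc, h, mul_assoc, hZ]
    have e : M * (-v) * w + M * v * w = 0 := by ring
    rw [e, Z0, mul_one]
  -- commutation rules (inner versions)
  have rAX : ∀ v w g, A v * (X w * g) = X w * (A v * g) := fun v w g => by
    rw [← mul_assoc, eAX, mul_assoc]
  have rBX : ∀ v w g, B v * (X w * g) = X w * (B v * g) := fun v w g => by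
    rw [← mul_assoc, eBX, mul_assoc]
  have rZX : ∀ v w g, Z v * (X w * g) = X w * (Z v * g) := fun v w g => by
    rw [← mul_assoc, eZX, mul_assoc]
  have rCX : ∀ v w g, C v * (X w * g) = X w * (C v * (Z (N * (-w) * v) * g)) := fun v w g => by
    rw [← mul_assoc, eCX, mul_assoc, mul_assoc]
  have rZC : ∀ v w g, Z v * (C w * g) = C w * (Z v * g) := fun v w g => by
    rw [← mul_assoc, eZC, mul_assoc]
  have rZB : ∀ v w g, Z v * (B w * g) = B w * (Z v * g) := fun v w g => by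
    rw [← mul_assoc, eZB, mul_assoc]
  have rZA : ∀ v w g, Z v * (A w * g) = A w * (Z v * g) := fun v w g => by
    rw [← mul_assoc, eZA, mul_assoc]
  have rAC : ∀ v w g, A v * (C w * g) = C w * (A v * g) := fun v w g => by
    rw [← mul_assoc, eAC, mul_assoc]
  have rBC : ∀ v w g, B v * (C w * g) = C w * (B v * g) := fun v w g => by
    rw [← mul_assoc, eBC, mul_assoc]
  have rAB : ∀ v w g, A v * (B w * g) = B w * (A v * (Z (M * v * w) * g)) := fun v w g => by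
    rw [← mul_assoc, eAB, mul_assoc, mul_assoc]
  have fin : ∀ p1 p2 p3 p4 q1 q2 q3 q4 : K, p1 = q1 → p2 = q2 → p3 = q3 → p4 = q4 →
      X (t + t') * (C p1 * (B p2 * (A p3 * Z p4))) =
        X (t + t') * (C q1 * (B q2 * (A q3 * Z q4))) := by
    intro p1 p2 p3 p4 q1 q2 q3 q4 h1 h2 h3 h4
    rw [h1, h2, h3, h4]
  simp only [mul_assoc, hX, hA, hB, hC, hZ, mX, mA, mB, mC, mZ, eAX, eBX, eZX, eCX, eZC, eZB,
    eZA, eAC, eBC, eAB, rAX, rBX, rZX, rCX, rZC, rZB, rZA, rAC, rBC, rAB]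
  apply fin <;> ring

variable {K : Type*} [Field K] {Γ : Type*} [Group Γ] {E : Type*} [Group E]

/-- PIECE S4B: terms `(k₁; 1, 1), (k₂; 1, 2), (k₃; 1, 3), (k₄; 2, 3)` (`t` version). -/
theorem s4b_res (D : ChevalleyDatum) (y : ℕ → K → E)
    (hy : ∀ (r : ℕ) (t u : K), y r t * y r u = y r (t + u)) {r s k1 k2 k3 k4 : ℕ}
    (hsig : sig D r s = [(k1, 1, 1), (k2, 1, 2), (k3, 1, 3), (k4, 2, 3)]) (N M : K)
    (cN : ∀ t u : K, y k3 u * y r t = y r t * y k3 u * y k4 (N * (-t) * u))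
    (cM : ∀ t u : K, y k2 u * y k1 t = y k1 t * y k2 u * y k4 (M * (-t) * u))
    (c1 : ∀ t u : K, y k1 u * y r t = y r t * y k1 u)
    (c2 : ∀ t u : K, y k2 u * y r t = y r t * y k2 u)
    (c4 : ∀ t u : K, y k4 u * y r t = y r t * y k4 u)
    (c13 : ∀ t u : K, y k3 u * y k1 t = y k1 t * y k3 u)
    (c14 : ∀ t u : K, y k4 u * y k1 t = y k1 t * y k4 u)
    (c23 : ∀ t u : K, y k3 u * y k2 t = y k2 t * y k3 u)
    (c24 : ∀ t u : K, y k4 u * y k2 t = y k2 t * y k4 u)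
    (c34 : ∀ t u : K, y k4 u * y k3 t = y k3 t * y k4 u) :
    ∀ t t' u : K, ∃ P : K, y r t * (sW y (D.commWord K r s t u))⁻¹ *
        (y r t' * (sW y (D.commWord K r s t' u))⁻¹) =
      y r (t + t') * (sW y (D.commWord K r s (t + t') u))⁻¹ * y k4 P := by
  obtain ⟨x1, x2, x3, x4, hl, h1, h2, h3, h4⟩ := map4 _ _ _ _ _ _ hsig
  obtain ⟨j1, C1, i1, l1⟩ := x1
  obtain ⟨j2, C2, i2, l2⟩ := x2
  obtain ⟨j3, C3, i3, l3⟩ := x3
  obtain ⟨j4, C4, i4, l4⟩ := x4
  simp only [Prod.mk.injEq] at h1 h2 h3 h4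
  obtain ⟨rfl, rfl, rfl⟩ := h1
  obtain ⟨rfl, rfl, rfl⟩ := h2
  obtain ⟨rfl, rfl, rfl⟩ := h3
  obtain ⟨rfl, rfl, rfl⟩ := h4
  have hw : ∀ t u : K, sW y (D.commWord K r s t u) =
      y j1 ((C1 : K) * (-t) ^ 1 * u ^ 1) * (y j2 ((C2 : K) * (-t) ^ 1 * u ^ 2) *
        (y j3 ((C3 : K) * (-t) ^ 1 * u ^ 3) * y j4 ((C4 : K) * (-t) ^ 2 * u ^ 3))) := by
    intro t u
    simp only [ChevalleyDatum.commWord, hl, List.map_cons, List.map_nil, sW_cons, sW_nil,
      mul_one]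
  have y0 : ∀ k, y k (0 : K) = 1 := by
    intro k
    have h := hy k 0 0
    rw [add_zero] at h
    exact mul_eq_left.1 h
  have yinv : ∀ (k : ℕ) (v : K), (y k v)⁻¹ = y k (-v) := by
    intro k v
    rw [inv_eq_iff_mul_eq_one, hy, add_neg_cancel, y0]
  intro t t' u
  have e1 : ∀ τ : K, -((C1 : K) * (-τ) ^ 1 * u ^ 1) = ((C1 : K) * u) * τ := fun τ => by ring
  have e2 : ∀ τ : K, -((C2 : K) * (-τ) ^ 1 * u ^ 2) = ((C2 : K) * u ^ 2) * τ := fun τ => by ring
  have e3 : ∀ τ : K, -((C3 : K) * (-τ) ^ 1 * u ^ 3) = ((C3 : K) * u ^ 3) * τ := fun τ => by ring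
  have e4 : ∀ τ : K, -((C4 : K) * (-τ) ^ 2 * u ^ 3) = (-(C4 : K) * u ^ 3) * τ ^ 2 :=
    fun τ => by ring
  simp only [hw, mul_inv_rev, yinv, e1, e2, e3, e4]
  exact core (y r) (y j1) (y j2) (y j3) (y j4) (hy r) (hy j1) (hy j2) (hy j3) (hy j4) N M
    cN cM c1 c2 c4 c13 c14 c23 c24 c34 _ _ _ _ t t'

end Cfsg.Agent.Helper91.STUS4B
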