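/-
Helper91: in `SU_4(q)`, `q = 2, 3`, the stabiliser of a pair of complementary totally isotropic planes is
not maximal: in coordinates `(w, w')` adapted to the pair it preserves the set of the vectors
`(w, l * J * conj w)`, `l` of norm one, and so does a unitary transvection outside it.  This file has the
part of the argument which does not depend on `q`.
-/
import Cfsg.Agent.Helper97.UForm

set_option autoImplicit false
open Cfsg Cfsg.Geo Matrix

namespace Cfsg.Agent.Helper91.SU4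

open Cfsg.Agent.Helper97

variable {F : Type*} [Field F]

/-- The invariant set, in coordinates. -/
def tiS (q : ℕ) (x : Fin 4 → F) : Prop :=
  ∃ l : F, l ^ (q + 1) = 1 ∧ x 2 = l * x 1 ^ q ∧ x 3 = -(l * x 0 ^ q)

instance tiS_dec [Fintype F] [DecidableEq F] (q : ℕ) (x : Fin 4 → F) : Decidable (tiS q x) := by
  unfold tiS
  infer_instance

/-- Transfer of the predicate along an isomorphism of fields. -/
theorem tiS_map {K : Type*} [Field K] (ψ : K ≃+* F) (q : ℕ) (u : Fin 4 → K) :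
    tiS q (fun i => ψ (u i)) ↔ tiS q u := by
  constructor
  · rintro ⟨l, h1, h2, h3⟩
    refine ⟨ψ.symm l, ?_, ?_, ?_⟩
    · apply ψ.injective
      rw [map_pow, ψ.apply_symm_apply, h1, map_one]
    · apply ψ.injective
      rw [map_mul, map_pow, ψ.apply_symm_apply]
      exact h2
    · apply ψ.injective
      rw [map_neg, map_mul, map_pow, ψ.apply_symm_apply]
      exact h3
  · rintro ⟨l, h1, h2, h3⟩
    refine ⟨ψ l, ?_, ?_, ?_⟩
    · rw [← map_pow, h1, map_one]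
    · show ψ (u 2) = ψ l * ψ (u 1) ^ q
      rw [h2, map_mul, map_pow]
    · show ψ (u 3) = -(ψ l * ψ (u 0) ^ q)
      rw [h3, map_neg, map_mul, map_pow]

theorem tiS_iff {q : ℕ} {σ : F ≃+* F} (hσ : IsSigma q σ) (x : Fin 4 → F) :
    tiS q x ↔ ∃ l : F, l * σ l = 1 ∧ x 2 = l * σ (x 1) ∧ x 3 = -(l * σ (x 0)) := by
  constructor
  · rintro ⟨l, h1, h2, h3⟩
    exact ⟨l, by rw [hσ.pow, ← pow_succ']; exact h1, by rw [hσ.pow]; exact h2,
      by rw [hσ.pow]; exact h3⟩
  · rintro ⟨l, h1, h2, h3⟩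
    exact ⟨l, by rw [pow_succ', ← hσ.pow]; exact h1, by rw [← hσ.pow]; exact h2,
      by rw [← hσ.pow]; exact h3⟩

/-- The block diagonal unitary matrices of determinant one preserve the set. -/
theorem tiS_diag {q : ℕ} {σ : F ≃+* F} (hσ : IsSigma q σ)
    (hfix : ∀ t : F, σ t = t → t ≠ 0 → t * t = 1)
    (a b c d e f g k : F)
    (r1 : a * σ e + c * σ g = 1) (r2 : a * σ f + c * σ k = 0)
    (r3 : b * σ e + d * σ g = 0) (r4 : b * σ f + d * σ k = 1)
    (hdet : (a * d - b * c) * (e * k - f * g) = 1)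
    (x : Fin 4 → F) (hx : tiS q x) :
    tiS q ![a * x 0 + b * x 1, c * x 0 + d * x 1, e * x 2 + f * x 3, g * x 2 + k * x 3] := by
  rw [tiS_iff hσ] at hx ⊢
  obtain ⟨l, hl, h2, h3⟩ := hx
  obtain ⟨Δ, hΔ⟩ : ∃ Δ : F, Δ = a * d - b * c := ⟨_, rfl⟩
  rw [← hΔ] at hdet
  have hΔ0 : Δ ≠ 0 := by
    intro h0
    rw [h0, zero_mul] at hdet
    exact zero_ne_one hdet
  have e1 : Δ * σ e = d := by rw [hΔ]; linear_combination d * r1 - c * r3
  have e2 : Δ * σ g = -b := by rw [hΔ]; linear_combination a * r3 - b * r1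
  have e3 : Δ * σ f = -c := by rw [hΔ]; linear_combination d * r2 - c * r4
  have e4 : Δ * σ k = a := by rw [hΔ]; linear_combination a * r4 - b * r2
  have s1 : σ Δ * e = σ d := by
    have h := congrArg σ e1
    rwa [map_mul, hσ.inv] at h
  have s2 : σ Δ * g = -σ b := by
    have h := congrArg σ e2
    rwa [map_mul, hσ.inv, map_neg] at h
  have s3 : σ Δ * f = -σ c := by
    have h := congrArg σ e3
    rwa [map_mul, hσ.inv, map_neg] at h
  have s4 : σ Δ * k = σ a := by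
    have h := congrArg σ e4
    rwa [map_mul, hσ.inv] at h
  have hsΔ : σ Δ = Δ := by
    have hexp : σ Δ = σ a * σ d - σ b * σ c := by rw [hΔ, map_sub, map_mul, map_mul]
    have h1 : σ Δ * σ Δ * (e * k - f * g) = σ Δ := by
      linear_combination (σ Δ * k) * s1 + σ d * s4 - (σ Δ * g) * s3 + σ c * s2 - hexp
    have hsΔ0 : σ Δ ≠ 0 := (map_ne_zero σ).mpr hΔ0
    have h2' : σ Δ * (e * k - f * g) = 1 := by
      apply mul_left_cancel₀ hsΔ0
      rw [← mul_assoc, h1, mul_one]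
    have hne : e * k - f * g ≠ 0 := by
      intro h0
      rw [h0, mul_zero] at hdet
      exact zero_ne_one hdet
    apply mul_right_cancel₀ hne
    rw [h2', hdet]
  have hΔ2 : Δ * Δ = 1 := hfix Δ hsΔ hΔ0
  rw [hsΔ] at s1 s2 s3 s4
  have f1 : e = Δ * σ d := by linear_combination (-e) * hΔ2 + Δ * s1
  have f2 : g = -(Δ * σ b) := by linear_combination (-g) * hΔ2 + Δ * s2
  have f3 : f = -(Δ * σ c) := by linear_combination (-f) * hΔ2 + Δ * s3
  have f4 : k = Δ * σ a := by linear_combination (-k) * hΔ2 + Δ * s4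
  refine ⟨l * Δ, ?_, ?_, ?_⟩
  · rw [map_mul, hsΔ]
    linear_combination (Δ * Δ) * hl + hΔ2
  · show e * x 2 + f * x 3 = l * Δ * σ (c * x 0 + d * x 1)
    rw [map_add, map_mul, map_mul, h2, h3, f1, f3]
    ring
  · show g * x 2 + k * x 3 = -(l * Δ * σ (a * x 0 + b * x 1))
    rw [map_add, map_mul, map_mul, h2, h3, f2, f4]
    ring

/-- The exchange of the two planes preserves the set. -/
theorem tiS_swap {q : ℕ} {σ : F ≃+* F} (hσ : IsSigma q σ) (x : Fin 4 → F) (hx : tiS q x) :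
    tiS q ![x 2, x 3, x 0, x 1] := by
  rw [tiS_iff hσ] at hx ⊢
  obtain ⟨l, hl, h2, h3⟩ := hx
  refine ⟨-l, ?_, ?_, ?_⟩
  · rw [map_neg]
    linear_combination hl
  · show x 0 = -l * σ (x 3)
    rw [h3, map_neg, map_mul, hσ.inv]
    linear_combination (-(x 0)) * hl
  · show x 1 = -(-l * σ (x 2))
    rw [h2, map_mul, hσ.inv]
    linear_combination (-(x 1)) * hl

/-- The determinant of a block triangular matrix of size 4. -/
theorem det4_diag (M : Matrix (Fin 4) (Fin 4) F)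
    (h20 : M 2 0 = 0) (h21 : M 2 1 = 0) (h30 : M 3 0 = 0) (h31 : M 3 1 = 0) :
    M.det = (M 0 0 * M 1 1 - M 0 1 * M 1 0) * (M 2 2 * M 3 3 - M 2 3 * M 3 2) := by
  rw [← Matrix.det_submatrix_equiv_self (finSumFinEquiv : Fin 2 ⊕ Fin 2 ≃ Fin 4) M,
    ← Matrix.fromBlocks_toBlocks (M.submatrix (finSumFinEquiv : Fin 2 ⊕ Fin 2 ≃ Fin 4)
      (finSumFinEquiv : Fin 2 ⊕ Fin 2 ≃ Fin 4))]
  have hz : (M.submatrix (finSumFinEquiv : Fin 2 ⊕ Fin 2 ≃ Fin 4)
      (finSumFinEquiv : Fin 2 ⊕ Fin 2 ≃ Fin 4)).toBlocks₂₁ = 0 := by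
    ext i j
    fin_cases i <;> fin_cases j
    · exact h20
    · exact h21
    · exact h30
    · exact h31
  rw [hz, Matrix.det_fromBlocks_zero₂₁, Matrix.det_fin_two, Matrix.det_fin_two]
  rfl

/-- The determinant of a block anti-triangular matrix of size 4. -/
theorem det4_anti (M : Matrix (Fin 4) (Fin 4) F)
    (h22 : M 2 2 = 0) (h23 : M 2 3 = 0) (h32 : M 3 2 = 0) (h33 : M 3 3 = 0) :
    M.det = (M 0 2 * M 1 3 - M 0 3 * M 1 2) * (M 2 0 * M 3 1 - M 2 1 * M 3 0) := by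
  have hs : Equiv.Perm.sign (Equiv.swap (0 : Fin 4) 2 * Equiv.swap (1 : Fin 4) 3) = 1 := by
    rw [Equiv.Perm.sign_mul, Equiv.Perm.sign_swap (by decide), Equiv.Perm.sign_swap (by decide)]
    rfl
  have h1 := Matrix.det_permute' (Equiv.swap (0 : Fin 4) 2 * Equiv.swap (1 : Fin 4) 3) M
  rw [hs, Units.val_one, Int.cast_one, one_mul] at h1
  rw [← h1, det4_diag _ h22 h23 h32 h33]
  rfl

/-- The stabiliser in `GL` of a set of vectors. -/
def su4Stab (S : Set (Fin 4 → F)) : Subgroup (GL (Fin 4) F) where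
  carrier := {g | ∀ v, v ∈ S ↔ (g : Matrix (Fin 4) (Fin 4) F) *ᵥ v ∈ S}
  mul_mem' := by
    intro a b ha hb v
    rw [Units.val_mul, ← Matrix.mulVec_mulVec, ← ha, ← hb]
  one_mem' := by
    intro v
    simp
  inv_mem' := by
    intro a ha v
    rw [ha (((a⁻¹ : GL (Fin 4) F) : Matrix (Fin 4) (Fin 4) F) *ᵥ v), Matrix.mulVec_mulVec,
      ← Units.val_mul, mul_inv_cancel, Units.val_one, Matrix.one_mulVec]

theorem su4_inv_mulVec (g : GL (Fin 4) F) (v : Fin 4 → F) :
    ((g⁻¹ : GL (Fin 4) F) : Matrix (Fin 4) (Fin 4) F) *ᵥ ((g : Matrix (Fin 4) (Fin 4) F) *ᵥ v) = v := by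
  rw [Matrix.mulVec_mulVec, ← Units.val_mul, inv_mul_cancel, Units.val_one, Matrix.one_mulVec]

theorem mat4_ext_mulVec {A B : Matrix (Fin 4) (Fin 4) F}
    (h : ∀ j, A *ᵥ Pi.single j 1 = B *ᵥ Pi.single j 1) : A = B := by
  ext i j
  have h1 := congrFun (h j) i
  rw [Matrix.mulVec_single_one, Matrix.mulVec_single_one] at h1
  exact h1

section main

variable [Fintype F]

/-- Pairs of complementary totally isotropic planes: the part of the argument which does not depend on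
the field.  `hK1` to `hK4` are checked by computation for `q = 2` and `q = 3`. -/
theorem su4_tipair_false_of {q : ℕ} {σ : F ≃+* F} (hσ : IsSigma q σ)
    (hfix : ∀ t : F, σ t = t → t ≠ 0 → t * t = 1)
    (c ω : F) (hc : σ c = -c) (hc0 : c ≠ 0)
    (hK1 : ∀ x : Fin 4 → F, tiS q x →
      tiS q ![x 0 + c * (x 2 - x 1), x 1, x 2, x 3 - c * (x 2 - x 1)])
    (hK2 : ∀ x : Fin 4 → F, tiS q x →
      tiS q ![x 0 - c * (x 2 - x 1), x 1, x 2, x 3 + c * (x 2 - x 1)])
    (hK3 : tiS q ![0, ω, ω, 0]) (hK4 : ¬ tiS q ![c * ω, ω, ω, 0])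
    (H : Subgroup (GL (Fin 4) F)) (hH : IsMaximalIn (GU 4 F q ⊓ specialLinear (Fin 4) F) H)
    (D : Fin 2 → Submodule F (Fin 4 → F)) (hD : IsMDecomposition 2 D)
    (hts : ∀ i, IsTotallySingularFor (hermForm 4 F q) (D i))
    (hle : H ≤ decompositionStabilizer D) : False := by
  classical
  have hS := hσ.isSesq (n := 4)
  have key : ∀ i : Fin 2, i = 0 ∨ i = 1 := by decide
  have hsubr : ∀ v x y : Fin 4 → F,
      hermForm 4 F q v (x - y) = hermForm 4 F q v x - hermForm 4 F q v y := by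
    intro v x y
    have e : x - y = x + (-1 : F) • y := by rw [neg_smul, one_smul, sub_eq_add_neg]
    rw [e, hS.add_right, hS.smul_right, map_neg, map_one]
    ring
  have hsup : D 0 ⊔ D 1 = ⊤ := by
    rw [← hD.iSup_eq_top]
    apply le_antisymm
    · exact sup_le (le_iSup D 0) (le_iSup D 1)
    · apply iSup_le
      intro i
      rcases key i with rfl | rfl
      · exact le_sup_left
      · exact le_sup_right
  have hdec : ∀ v : Fin 4 → F, ∃ v0 ∈ D 0, ∃ v1 ∈ D 1, v0 + v1 = v := fun v =>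
    Submodule.mem_sup.1 (by rw [hsup]; exact Submodule.mem_top)
  -- a basis of the first plane
  obtain ⟨e1, e2, he1, he2, hrep0⟩ : ∃ e1 e2 : Fin 4 → F, e1 ∈ D 0 ∧ e2 ∈ D 0 ∧
      ∀ x ∈ D 0, ∃ α β : F, x = α • e1 + β • e2 := by
    have b0 := Module.finBasisOfFinrankEq F (D 0) (hD.finrank_eq 0)
    refine ⟨(b0 0 : Fin 4 → F), (b0 1 : Fin 4 → F), (b0 0).2, (b0 1).2, ?_⟩
    intro x hx
    refine ⟨b0.repr ⟨x, hx⟩ 0, b0.repr ⟨x, hx⟩ 1, ?_⟩
    have h1 := b0.sum_repr ⟨x, hx⟩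
    rw [Fin.sum_univ_two] at h1
    have h2 := congrArg Subtype.val h1
    simpa using h2.symm
  have hsingle : ∀ (i : Fin 4) (y : Fin 4 → F), hermForm 4 F q (Pi.single i 1) y = σ (y i) := by
    intro i y
    rw [hσ.herm_eq, Finset.sum_eq_single i]
    · rw [Pi.single_eq_same, one_mul]
    · intro j _ hj
      rw [Pi.single_eq_of_ne hj, zero_mul]
    · intro hni
      exact absurd (Finset.mem_univ i) hni
  have hI : ∀ y ∈ D 1, hermForm 4 F q e1 y = 0 → hermForm 4 F q e2 y = 0 → y = 0 := by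
    intro y hy h1 h2
    funext i
    obtain ⟨v0, hv0, v1, hv1, hv⟩ := hdec (Pi.single i 1)
    obtain ⟨α, β, rfl⟩ := hrep0 v0 hv0
    have h3 := hsingle i y
    rw [← hv, hS.add_left, hts 1 v1 hv1 y hy, add_zero, hS.add_left, hS.smul_left, hS.smul_left, h1,
      h2, mul_zero, mul_zero, add_zero] at h3
    exact (map_eq_zero σ).1 h3.symm
  -- the dual basis of the second plane
  obtain ⟨f1, f2, hf1, hf2, h11, h21, h12, h22⟩ : ∃ f1 f2 : Fin 4 → F, f1 ∈ D 1 ∧ f2 ∈ D 1 ∧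
      hermForm 4 F q e1 f1 = 1 ∧ hermForm 4 F q e2 f1 = 0 ∧
      hermForm 4 F q e1 f2 = 0 ∧ hermForm 4 F q e2 f2 = 1 := by
    have hinj : Function.Injective
        (fun y : D 1 => (hermForm 4 F q e1 y, hermForm 4 F q e2 y)) := by
      intro y y' hyy
      have h1 : hermForm 4 F q e1 ((y : Fin 4 → F) - y') = 0 := by
        rw [hsubr, sub_eq_zero]
        exact congrArg Prod.fst hyy
      have h2 : hermForm 4 F q e2 ((y : Fin 4 → F) - y') = 0 := by
        rw [hsubr, sub_eq_zero]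
        exact congrArg Prod.snd hyy
      have h3 := hI _ ((D 1).sub_mem y.2 y'.2) h1 h2
      exact Subtype.ext (sub_eq_zero.1 h3)
    have hcard : Nat.card (D 1) = Nat.card (F × F) := by
      rw [Module.natCard_eq_pow_finrank (K := F) (V := D 1), hD.finrank_eq 1, Nat.card_prod, pow_two]
    have hsurj := ((Nat.bijective_iff_injective_and_card _).2 ⟨hinj, hcard⟩).2
    obtain ⟨y1, hy1⟩ := hsurj (1, 0)
    obtain ⟨y2, hy2⟩ := hsurj (0, 1)
    exact ⟨y1, y2, y1.2, y2.2, congrArg Prod.fst hy1, congrArg Prod.snd hy1,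
      congrArg Prod.fst hy2, congrArg Prod.snd hy2⟩
  have hrep1 : ∀ y ∈ D 1, ∃ α β : F, y = α • f1 + β • f2 := by
    intro y hy
    refine ⟨σ (hermForm 4 F q e1 y), σ (hermForm 4 F q e2 y), ?_⟩
    have hmem : y - (σ (hermForm 4 F q e1 y) • f1 + σ (hermForm 4 F q e2 y) • f2) ∈ D 1 :=
      (D 1).sub_mem hy ((D 1).add_mem ((D 1).smul_mem _ hf1) ((D 1).smul_mem _ hf2))
    have h0 := hI _ hmem
      (by rw [hsubr, hS.add_right, hS.smul_right, hS.smul_right, hσ.inv, hσ.inv, h11, h12]; ring)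
      (by rw [hsubr, hS.add_right, hS.smul_right, hS.smul_right, hσ.inv, hσ.inv, h21, h22]; ring)
    exact sub_eq_zero.1 h0
  have g13 : hermForm 4 F q f1 e1 = 1 := by rw [hσ.herm_symm, h11, map_one]
  have g14 : hermForm 4 F q f1 e2 = 0 := by rw [hσ.herm_symm, h21, map_zero]
  have g23 : hermForm 4 F q f2 e1 = 0 := by rw [hσ.herm_symm, h12, map_zero]
  have g24 : hermForm 4 F q f2 e2 = 1 := by rw [hσ.herm_symm, h22, map_one]
  -- coordinates
  obtain ⟨B, hBdef⟩ : ∃ B : (Fin 4 → F) → (Fin 4 → F),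
      ∀ x, B x = x 0 • e1 + x 1 • e2 + x 2 • f1 + x 3 • f2 := ⟨_, fun _ => rfl⟩
  have hc0' : ∀ x, hermForm 4 F q (B x) f1 = x 0 := by
    intro x
    rw [hBdef, hS.add_left, hS.add_left, hS.add_left, hS.smul_left, hS.smul_left, hS.smul_left,
      hS.smul_left, h11, h21, hts 1 f1 hf1 f1 hf1, hts 1 f2 hf2 f1 hf1]
    ring
  have hc1' : ∀ x, hermForm 4 F q (B x) f2 = x 1 := by
    intro x
    rw [hBdef, hS.add_left, hS.add_left, hS.add_left, hS.smul_left, hS.smul_left, hS.smul_left,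
      hS.smul_left, h12, h22, hts 1 f1 hf1 f2 hf2, hts 1 f2 hf2 f2 hf2]
    ring
  have hc2' : ∀ x, hermForm 4 F q (B x) e1 = x 2 := by
    intro x
    rw [hBdef, hS.add_left, hS.add_left, hS.add_left, hS.smul_left, hS.smul_left, hS.smul_left,
      hS.smul_left, g13, g23, hts 0 e1 he1 e1 he1, hts 0 e2 he2 e1 he1]
    ring
  have hc3' : ∀ x, hermForm 4 F q (B x) e2 = x 3 := by
    intro x
    rw [hBdef, hS.add_left, hS.add_left, hS.add_left, hS.smul_left, hS.smul_left, hS.smul_left,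
      hS.smul_left, g14, g24, hts 0 e1 he1 e2 he2, hts 0 e2 he2 e2 he2]
    ring
  have hform : ∀ x y, hermForm 4 F q (B x) (B y) =
      x 0 * σ (y 2) + x 1 * σ (y 3) + x 2 * σ (y 0) + x 3 * σ (y 1) := by
    intro x y
    rw [hBdef y, hS.add_right, hS.add_right, hS.add_right, hS.smul_right, hS.smul_right,
      hS.smul_right, hS.smul_right, hc0', hc1', hc2', hc3']
    ring
  have hBinj : ∀ x y : Fin 4 → F, B x = B y → x = y := by
    intro x y hxy
    funext i
    fin_cases i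
    · show x 0 = y 0
      rw [← hc0' x, ← hc0' y, hxy]
    · show x 1 = y 1
      rw [← hc1' x, ← hc1' y, hxy]
    · show x 2 = y 2
      rw [← hc2' x, ← hc2' y, hxy]
    · show x 3 = y 3
      rw [← hc3' x, ← hc3' y, hxy]
  have hBe : B ![1, 0, 0, 0] = e1 ∧ B ![0, 1, 0, 0] = e2 ∧ B ![0, 0, 1, 0] = f1 ∧
      B ![0, 0, 0, 1] = f2 := by
    refine ⟨?_, ?_, ?_, ?_⟩ <;> rw [hBdef] <;> simp
  have hBlin : ∀ (x y : Fin 4 → F) (s : F), B x + s • B y = B (x + s • y) := by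
    intro x y s
    rw [hBdef, hBdef, hBdef]
    simp only [Pi.add_apply, Pi.smul_apply, smul_eq_mul]
    module
  -- the matrix of the basis
  obtain ⟨g0, hg0def⟩ : ∃ g0 : Matrix (Fin 4) (Fin 4) F,
      g0 = Matrix.of (fun k i => (![e1, e2, f1, f2] : Fin 4 → Fin 4 → F) i k) := ⟨_, rfl⟩
  have hg0 : ∀ x, g0 *ᵥ x = B x := by
    intro x
    funext k
    rw [hBdef, hg0def]
    simp [Matrix.mulVec, dotProduct, Fin.sum_univ_four]
    ring
  have hg0det : g0.det ≠ 0 := by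
    intro hdet
    obtain ⟨v, hv0, hv⟩ := Matrix.exists_mulVec_eq_zero_iff.mpr hdet
    rw [hg0] at hv
    apply hv0
    apply hBinj
    rw [hv, hBdef]
    simp
  have hdetY : ∀ hm : GL (Fin 4) F, hm ∈ specialLinear (Fin 4) F → ∀ Y : Fin 4 → Fin 4 → F,
      (∀ j, (hm : Matrix (Fin 4) (Fin 4) F) *ᵥ B (Pi.single j 1) = B (Y j)) →
      (Matrix.of (fun i j => Y j i) : Matrix (Fin 4) (Fin 4) F).det = 1 := by
    intro hm hmS Y hY
    have hmul : (hm : Matrix (Fin 4) (Fin 4) F) * g0 = g0 * Matrix.of (fun i j => Y j i) := by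
      apply mat4_ext_mulVec
      intro j
      rw [← Matrix.mulVec_mulVec, ← Matrix.mulVec_mulVec, hg0, hY j, hg0]
      congr 1
      funext i
      rw [Matrix.mulVec_single_one]
      rfl
    have hdm : (hm : Matrix (Fin 4) (Fin 4) F).det = 1 := by
      have h1 := hmS
      rw [specialLinear, MonoidHom.mem_ker] at h1
      simpa using congrArg Units.val h1
    have h2 := congrArg Matrix.det hmul
    rw [Matrix.det_mul, Matrix.det_mul, hdm, one_mul] at h2
    have h3 : g0.det * 1 = g0.det * (Matrix.of (fun i j => Y j i)).det := by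
      rw [mul_one]
      exact h2
    exact (mul_left_cancel₀ hg0det h3).symm
  have hrel : ∀ hm : GL (Fin 4) F, hm ∈ GU 4 F q → ∀ (p r X Y : Fin 4 → F),
      (hm : Matrix (Fin 4) (Fin 4) F) *ᵥ p = B X → (hm : Matrix (Fin 4) (Fin 4) F) *ᵥ r = B Y →
      X 0 * σ (Y 2) + X 1 * σ (Y 3) + X 2 * σ (Y 0) + X 3 * σ (Y 1) = hermForm 4 F q p r := by
    intro hm hmG p r X Y hp hr
    rw [← hform, ← hp, ← hr]
    exact hmG p r
  -- the elements of `H` preserve the set
  have hmono : ∀ hm ∈ H, ∀ x, tiS q x →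
      ∃ y, tiS q y ∧ (hm : Matrix (Fin 4) (Fin 4) F) *ᵥ B x = B y := by
    intro hm hmH x hx
    have hmG : hm ∈ GU 4 F q := (hH.1.le hmH).1
    have hmS : hm ∈ specialLinear (Fin 4) F := (hH.1.le hmH).2
    obtain ⟨π, hπ⟩ := hle hmH
    have himg : ∀ (i : Fin 2) (v : Fin 4 → F), v ∈ D i →
        (hm : Matrix (Fin 4) (Fin 4) F) *ᵥ v ∈ D (π i) := by
      intro i v hv
      rw [← hπ i]
      exact Submodule.mem_map_of_mem hv
    have hlin : ∀ x : Fin 4 → F, (hm : Matrix (Fin 4) (Fin 4) F) *ᵥ B x =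
        x 0 • ((hm : Matrix (Fin 4) (Fin 4) F) *ᵥ e1) + x 1 • ((hm : Matrix (Fin 4) (Fin 4) F) *ᵥ e2) +
        x 2 • ((hm : Matrix (Fin 4) (Fin 4) F) *ᵥ f1) + x 3 • ((hm : Matrix (Fin 4) (Fin 4) F) *ᵥ f2) := by
      intro x
      rw [hBdef, Matrix.mulVec_add, Matrix.mulVec_add, Matrix.mulVec_add, Matrix.mulVec_smul,
        Matrix.mulVec_smul, Matrix.mulVec_smul, Matrix.mulVec_smul]
    rcases key (π 0) with hp | hp
    · rcases key (π 1) with hp1 | hp1
      · exact absurd (π.injective (hp.trans hp1.symm)) (by decide)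
      obtain ⟨a, c', ha⟩ := hrep0 _ (by have h := himg 0 e1 he1; rwa [hp] at h)
      obtain ⟨b, d, hb⟩ := hrep0 _ (by have h := himg 0 e2 he2; rwa [hp] at h)
      obtain ⟨e, g', he⟩ := hrep1 _ (by have h := himg 1 f1 hf1; rwa [hp1] at h)
      obtain ⟨f, k, hf⟩ := hrep1 _ (by have h := himg 1 f2 hf2; rwa [hp1] at h)
      have ha' : (hm : Matrix (Fin 4) (Fin 4) F) *ᵥ e1 = B ![a, c', 0, 0] := by
        rw [ha, hBdef]; simp
      have hb' : (hm : Matrix (Fin 4) (Fin 4) F) *ᵥ e2 = B ![b, d, 0, 0] := by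
        rw [hb, hBdef]; simp
      have he' : (hm : Matrix (Fin 4) (Fin 4) F) *ᵥ f1 = B ![0, 0, e, g'] := by
        rw [he, hBdef]; simp
      have hf' : (hm : Matrix (Fin 4) (Fin 4) F) *ᵥ f2 = B ![0, 0, f, k] := by
        rw [hf, hBdef]; simp
      have r1 := hrel hm hmG e1 f1 _ _ ha' he'
      have r2 := hrel hm hmG e1 f2 _ _ ha' hf'
      have r3 := hrel hm hmG e2 f1 _ _ hb' he'
      have r4 := hrel hm hmG e2 f2 _ _ hb' hf'
      rw [h11] at r1
      rw [h12] at r2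
      rw [h21] at r3
      rw [h22] at r4
      simp at r1 r2 r3 r4
      have hdet := hdetY hm hmS ![![a, c', 0, 0], ![b, d, 0, 0], ![0, 0, e, g'], ![0, 0, f, k]] (by
        intro j
        fin_cases j
        · show (hm : Matrix (Fin 4) (Fin 4) F) *ᵥ B (Pi.single 0 1) = B ![a, c', 0, 0]
          rw [← ha', ← hBe.1]
          congr 2
          funext i
          fin_cases i <;> simp
        · show (hm : Matrix (Fin 4) (Fin 4) F) *ᵥ B (Pi.single 1 1) = B ![b, d, 0, 0]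
          rw [← hb', ← hBe.2.1]
          congr 2
          funext i
          fin_cases i <;> simp
        · show (hm : Matrix (Fin 4) (Fin 4) F) *ᵥ B (Pi.single 2 1) = B ![0, 0, e, g']
          rw [← he', ← hBe.2.2.1]
          congr 2
          funext i
          fin_cases i <;> simp
        · show (hm : Matrix (Fin 4) (Fin 4) F) *ᵥ B (Pi.single 3 1) = B ![0, 0, f, k]
          rw [← hf', ← hBe.2.2.2]
          congr 2
          funext i
          fin_cases i <;> simp)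
      rw [det4_diag _ rfl rfl rfl rfl] at hdet
      have hdet' : (a * d - b * c') * (e * k - f * g') = 1 := hdet
      refine ⟨![a * x 0 + b * x 1, c' * x 0 + d * x 1, e * x 2 + f * x 3, g' * x 2 + k * x 3],
        tiS_diag hσ hfix a b c' d e f g' k r1 r2 r3 r4 hdet' x hx, ?_⟩
      rw [hlin, ha, hb, he, hf, hBdef]
      simp only [Matrix.cons_val_zero, Matrix.cons_val_one, Matrix.cons_val]
      module
    · rcases key (π 1) with hp1 | hp1
      swap
      · exact absurd (π.injective (hp.trans hp1.symm)) (by decide)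
      obtain ⟨e, g', he⟩ := hrep1 _ (by have h := himg 0 e1 he1; rwa [hp] at h)
      obtain ⟨f, k, hf⟩ := hrep1 _ (by have h := himg 0 e2 he2; rwa [hp] at h)
      obtain ⟨a, c', ha⟩ := hrep0 _ (by have h := himg 1 f1 hf1; rwa [hp1] at h)
      obtain ⟨b, d, hb⟩ := hrep0 _ (by have h := himg 1 f2 hf2; rwa [hp1] at h)
      have ha' : (hm : Matrix (Fin 4) (Fin 4) F) *ᵥ f1 = B ![a, c', 0, 0] := by
        rw [ha, hBdef]; simp
      have hb' : (hm : Matrix (Fin 4) (Fin 4) F) *ᵥ f2 = B ![b, d, 0, 0] := by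
        rw [hb, hBdef]; simp
      have he' : (hm : Matrix (Fin 4) (Fin 4) F) *ᵥ e1 = B ![0, 0, e, g'] := by
        rw [he, hBdef]; simp
      have hf' : (hm : Matrix (Fin 4) (Fin 4) F) *ᵥ e2 = B ![0, 0, f, k] := by
        rw [hf, hBdef]; simp
      have r1 := hrel hm hmG f1 e1 _ _ ha' he'
      have r2 := hrel hm hmG f1 e2 _ _ ha' hf'
      have r3 := hrel hm hmG f2 e1 _ _ hb' he'
      have r4 := hrel hm hmG f2 e2 _ _ hb' hf'
      rw [g13] at r1
      rw [g14] at r2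
      rw [g23] at r3
      rw [g24] at r4
      simp at r1 r2 r3 r4
      have hdet := hdetY hm hmS ![![0, 0, e, g'], ![0, 0, f, k], ![a, c', 0, 0], ![b, d, 0, 0]] (by
        intro j
        fin_cases j
        · show (hm : Matrix (Fin 4) (Fin 4) F) *ᵥ B (Pi.single 0 1) = B ![0, 0, e, g']
          rw [← he', ← hBe.1]
          congr 2
          funext i
          fin_cases i <;> simp
        · show (hm : Matrix (Fin 4) (Fin 4) F) *ᵥ B (Pi.single 1 1) = B ![0, 0, f, k]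
          rw [← hf', ← hBe.2.1]
          congr 2
          funext i
          fin_cases i <;> simp
        · show (hm : Matrix (Fin 4) (Fin 4) F) *ᵥ B (Pi.single 2 1) = B ![a, c', 0, 0]
          rw [← ha', ← hBe.2.2.1]
          congr 2
          funext i
          fin_cases i <;> simp
        · show (hm : Matrix (Fin 4) (Fin 4) F) *ᵥ B (Pi.single 3 1) = B ![b, d, 0, 0]
          rw [← hb', ← hBe.2.2.2]
          congr 2
          funext i
          fin_cases i <;> simp)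
      rw [det4_anti _ rfl rfl rfl rfl] at hdet
      have hdet' : (a * d - b * c') * (e * k - f * g') = 1 := hdet
      refine ⟨![a * x 2 + b * x 3, c' * x 2 + d * x 3, e * x 0 + f * x 1, g' * x 0 + k * x 1],
        tiS_diag hσ hfix a b c' d e f g' k r1 r2 r3 r4 hdet' ![x 2, x 3, x 0, x 1]
          (tiS_swap hσ x hx), ?_⟩
      rw [hlin, ha, hb, he, hf, hBdef]
      simp only [Matrix.cons_val_zero, Matrix.cons_val_one, Matrix.cons_val]
      module
  -- the invariant set and its stabiliser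
  obtain ⟨S, hSdef⟩ : ∃ S : Set (Fin 4 → F), S = {v | ∃ x, tiS q x ∧ v = B x} := ⟨_, rfl⟩
  have hSmem : ∀ v, v ∈ S ↔ ∃ x, tiS q x ∧ v = B x := by
    intro v
    rw [hSdef]
    rfl
  have key1 : ∀ hm ∈ H, ∀ v ∈ S, (hm : Matrix (Fin 4) (Fin 4) F) *ᵥ v ∈ S := by
    intro hm hmH v hv
    obtain ⟨x, hx, rfl⟩ := (hSmem v).1 hv
    obtain ⟨y, hy, hxy⟩ := hmono hm hmH x hx
    exact (hSmem _).2 ⟨y, hy, hxy⟩
  have hHL : H ≤ su4Stab S ⊓ (GU 4 F q ⊓ specialLinear (Fin 4) F) := by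
    intro hm hmH
    refine ⟨fun v => ⟨key1 hm hmH v, fun hv => ?_⟩, hH.1.le hmH⟩
    have h1 := key1 hm⁻¹ (H.inv_mem hmH) _ hv
    rwa [su4_inv_mulVec] at h1
  -- the transvection preserving the set
  have hu1 : hermForm 4 F q (B ![1, 0, 0, -1]) (B ![1, 0, 0, -1]) = 0 := by
    rw [hform]
    simp
  obtain ⟨t1, ht1G, ht1v, ht1inv⟩ := hσ.exists_utv (B ![1, 0, 0, -1]) hu1 c hc
  have hs1 : ∀ x, hermForm 4 F q (B x) (B ![1, 0, 0, -1]) = x 2 - x 1 := by
    intro x
    rw [hform]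
    show x 0 * σ 0 + x 1 * σ (-1) + x 2 * σ 1 + x 3 * σ 0 = x 2 - x 1
    rw [map_zero, map_neg, map_one]
    ring
  have ht1B : ∀ x, (t1 : Matrix (Fin 4) (Fin 4) F) *ᵥ B x =
      B ![x 0 + c * (x 2 - x 1), x 1, x 2, x 3 - c * (x 2 - x 1)] := by
    intro x
    rw [ht1v, hs1, hBlin]
    congr 1
    funext i
    fin_cases i
    · show x 0 + c * (x 2 - x 1) * 1 = x 0 + c * (x 2 - x 1)
      ring
    · show x 1 + c * (x 2 - x 1) * 0 = x 1
      ring
    · show x 2 + c * (x 2 - x 1) * 0 = x 2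
      ring
    · show x 3 + c * (x 2 - x 1) * (-1) = x 3 - c * (x 2 - x 1)
      ring
  have ht1Binv : ∀ x, ((t1⁻¹ : GL (Fin 4) F) : Matrix (Fin 4) (Fin 4) F) *ᵥ B x =
      B ![x 0 - c * (x 2 - x 1), x 1, x 2, x 3 + c * (x 2 - x 1)] := by
    intro x
    rw [ht1inv, hs1, sub_eq_add_neg, ← neg_smul, hBlin]
    congr 1
    funext i
    fin_cases i
    · show x 0 + -(c * (x 2 - x 1)) * 1 = x 0 - c * (x 2 - x 1)
      ring
    · show x 1 + -(c * (x 2 - x 1)) * 0 = x 1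
      ring
    · show x 2 + -(c * (x 2 - x 1)) * 0 = x 2
      ring
    · show x 3 + -(c * (x 2 - x 1)) * (-1) = x 3 + c * (x 2 - x 1)
      ring
  have ht1S : t1 ∈ su4Stab S := by
    intro v
    constructor
    · intro hv
      obtain ⟨x, hx, rfl⟩ := (hSmem v).1 hv
      rw [ht1B]
      exact (hSmem _).2 ⟨_, hK1 x hx, rfl⟩
    · intro hv
      obtain ⟨x, hx, hxv⟩ := (hSmem _).1 hv
      have h1 : v = ((t1⁻¹ : GL (Fin 4) F) : Matrix (Fin 4) (Fin 4) F) *ᵥ B x := by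
        rw [← hxv, su4_inv_mulVec]
      rw [h1, ht1Binv]
      exact (hSmem _).2 ⟨_, hK2 x hx, rfl⟩
  rcases hH.2 _ hHL inf_le_right with hL | hL
  · -- the transvection would stabilise the pair of planes
    have ht1H : t1 ∈ H := by
      rw [← hL]
      exact ⟨ht1S, ht1G⟩
    obtain ⟨π, hπ⟩ := hle ht1H
    have h3 : (t1 : Matrix (Fin 4) (Fin 4) F) *ᵥ e2 ∈ D (π 0) := by
      rw [← hπ 0]
      exact Submodule.mem_map_of_mem he2
    have h4 : (t1 : Matrix (Fin 4) (Fin 4) F) *ᵥ e2 = B ![-c, 1, 0, c] := by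
      rw [← hBe.2.1, ht1B]
      congr 1
      funext i
      fin_cases i
      · show (0 : F) + c * (0 - 1) = -c
        ring
      · rfl
      · rfl
      · show (0 : F) - c * (0 - 1) = c
        ring
    rw [h4] at h3
    rcases key (π 0) with hp | hp
    · rw [hp] at h3
      have h5 := hts 0 _ h3 e2 he2
      rw [hc3'] at h5
      exact hc0 h5
    · rw [hp] at h3
      have h5 := hts 1 _ h3 f2 hf2
      rw [hc1'] at h5
      exact one_ne_zero h5
  · -- a transvection of the unitary group moving a vector out of the set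
    have hu2 : hermForm 4 F q (B ![1, 0, 0, 0]) (B ![1, 0, 0, 0]) = 0 := by
      rw [hform]
      simp
    obtain ⟨t2, ht2G, ht2v, -⟩ := hσ.exists_utv (B ![1, 0, 0, 0]) hu2 c hc
    have ht2L : t2 ∈ su4Stab S ⊓ (GU 4 F q ⊓ specialLinear (Fin 4) F) := by
      rw [hL]
      exact ht2G
    have hv : B ![0, ω, ω, 0] ∈ S := (hSmem _).2 ⟨_, hK3, rfl⟩
    obtain ⟨x', hx', hxe⟩ := (hSmem _).1 ((ht2L.1 _).mp hv)
    have h6 : (t2 : Matrix (Fin 4) (Fin 4) F) *ᵥ B ![0, ω, ω, 0] = B ![c * ω, ω, ω, 0] := by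
      have hs2 : hermForm 4 F q (B ![0, ω, ω, 0]) (B ![1, 0, 0, 0]) = ω := by
        rw [hform]
        show (0 : F) * σ 0 + ω * σ 0 + ω * σ 1 + 0 * σ 0 = ω
        rw [map_zero, map_one]
        ring
      rw [ht2v, hs2, hBlin]
      congr 1
      funext i
      fin_cases i
      · show (0 : F) + c * ω * 1 = c * ω
        ring
      · show ω + c * ω * 0 = ω
        ring
      · show ω + c * ω * 0 = ω
        ring
      · show (0 : F) + c * ω * 0 = 0
        ring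
    rw [h6] at hxe
    rw [← hBinj _ _ hxe] at hx'
    exact hK4 hx'

end main

/-! ### Transfer of the concrete facts from a model of the field -/

section transfer

variable {K : Type*} [Field K]

theorem tiS_pullback (ψ : K ≃+* F) (x : Fin 4 → F) :
    ∃ u : Fin 4 → K, x = fun i => ψ (u i) :=
  ⟨fun i => ψ.symm (x i), by funext i; rw [ψ.apply_symm_apply]⟩

theorem tiS_K1_of (ψ : K ≃+* F) (q : ℕ) (c : K)
    (h : ∀ a b l : K, l ^ (q + 1) = 1 →
      tiS q ![a + c * (l * b ^ q - b), b, l * b ^ q, -(l * a ^ q) - c * (l * b ^ q - b)]) :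
    ∀ x : Fin 4 → F, tiS q x →
      tiS q ![x 0 + ψ c * (x 2 - x 1), x 1, x 2, x 3 - ψ c * (x 2 - x 1)] := by
  intro x hx
  obtain ⟨u, rfl⟩ := tiS_pullback ψ x
  rw [tiS_map] at hx
  have e : (![ψ (u 0) + ψ c * (ψ (u 2) - ψ (u 1)), ψ (u 1), ψ (u 2),
      ψ (u 3) - ψ c * (ψ (u 2) - ψ (u 1))] : Fin 4 → F) =
      fun i => ψ (![u 0 + c * (u 2 - u 1), u 1, u 2, u 3 - c * (u 2 - u 1)] i) := by
    funext i
    fin_cases i
    · show ψ (u 0) + ψ c * (ψ (u 2) - ψ (u 1)) = ψ (u 0 + c * (u 2 - u 1))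
      rw [map_add, map_mul, map_sub]
    · rfl
    · rfl
    · show ψ (u 3) - ψ c * (ψ (u 2) - ψ (u 1)) = ψ (u 3 - c * (u 2 - u 1))
      rw [map_sub, map_mul, map_sub]
  show tiS q ![ψ (u 0) + ψ c * (ψ (u 2) - ψ (u 1)), ψ (u 1), ψ (u 2),
      ψ (u 3) - ψ c * (ψ (u 2) - ψ (u 1))]
  rw [e, tiS_map]
  obtain ⟨l, h1, h2, h3⟩ := hx
  rw [h2, h3]
  exact h (u 0) (u 1) l h1

theorem tiS_K2_of (ψ : K ≃+* F) (q : ℕ) (c : K)
    (h : ∀ a b l : K, l ^ (q + 1) = 1 →
      tiS q ![a - c * (l * b ^ q - b), b, l * b ^ q, -(l * a ^ q) + c * (l * b ^ q - b)]) :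
    ∀ x : Fin 4 → F, tiS q x →
      tiS q ![x 0 - ψ c * (x 2 - x 1), x 1, x 2, x 3 + ψ c * (x 2 - x 1)] := by
  intro x hx
  obtain ⟨u, rfl⟩ := tiS_pullback ψ x
  rw [tiS_map] at hx
  have e : (![ψ (u 0) - ψ c * (ψ (u 2) - ψ (u 1)), ψ (u 1), ψ (u 2),
      ψ (u 3) + ψ c * (ψ (u 2) - ψ (u 1))] : Fin 4 → F) =
      fun i => ψ (![u 0 - c * (u 2 - u 1), u 1, u 2, u 3 + c * (u 2 - u 1)] i) := by
    funext i
    fin_cases i
    · show ψ (u 0) - ψ c * (ψ (u 2) - ψ (u 1)) = ψ (u 0 - c * (u 2 - u 1))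
      rw [map_sub, map_mul, map_sub]
    · rfl
    · rfl
    · show ψ (u 3) + ψ c * (ψ (u 2) - ψ (u 1)) = ψ (u 3 + c * (u 2 - u 1))
      rw [map_add, map_mul, map_sub]
  show tiS q ![ψ (u 0) - ψ c * (ψ (u 2) - ψ (u 1)), ψ (u 1), ψ (u 2),
      ψ (u 3) + ψ c * (ψ (u 2) - ψ (u 1))]
  rw [e, tiS_map]
  obtain ⟨l, h1, h2, h3⟩ := hx
  rw [h2, h3]
  exact h (u 0) (u 1) l h1

theorem tiS_K3_of (ψ : K ≃+* F) (q : ℕ) (w : K) (h : tiS q ![0, w, w, 0]) :
    tiS q ![0, ψ w, ψ w, 0] := by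
  have e : (![0, ψ w, ψ w, 0] : Fin 4 → F) = fun i => ψ (![0, w, w, 0] i) := by
    funext i
    fin_cases i
    · exact (map_zero ψ).symm
    · rfl
    · rfl
    · exact (map_zero ψ).symm
  rw [e, tiS_map]
  exact h

theorem tiS_K4_of (ψ : K ≃+* F) (q : ℕ) (c w : K) (h : ¬ tiS q ![c * w, w, w, 0]) :
    ¬ tiS q ![ψ c * ψ w, ψ w, ψ w, 0] := by
  have e : (![ψ c * ψ w, ψ w, ψ w, 0] : Fin 4 → F) = fun i => ψ (![c * w, w, w, 0] i) := by
    funext i
    fin_cases i
    · exact (map_mul ψ c w).symm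
    · rfl
    · rfl
    · exact (map_zero ψ).symm
  rw [e, tiS_map]
  exact h

end transfer

end Cfsg.Agent.Helper91.SU4
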