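/-
Helper91: in `SU_4(2)` the stabiliser of a pair of complementary totally isotropic planes is not
maximal (it lies in the stabiliser of a set of 46 vectors, which a unitary transvection preserves too).
-/
import Cfsg.Agent.Helper91.SU4Ti
import Cfsg.Agent.Helper98.F4

set_option autoImplicit false
open Cfsg Cfsg.Geo Matrix

namespace Cfsg.Agent.Helper91

open Cfsg.Agent.Helper97 Cfsg.Agent.Helper98 Cfsg.Agent.Helper91.SU4

theorem su4_two_K1 : ∀ a b l : F4, l ^ (2 + 1) = 1 →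
    tiS 2 ![a + 1 * (l * b ^ 2 - b), b, l * b ^ 2, -(l * a ^ 2) - 1 * (l * b ^ 2 - b)] := by
  decide

theorem su4_two_K2 : ∀ a b l : F4, l ^ (2 + 1) = 1 →
    tiS 2 ![a - 1 * (l * b ^ 2 - b), b, l * b ^ 2, -(l * a ^ 2) + 1 * (l * b ^ 2 - b)] := by
  decide

theorem su4_two_K3 : tiS 2 ![(0 : F4), F4.w, F4.w, 0] := by
  decide

theorem su4_two_K4 : ¬ tiS 2 ![(1 : F4) * F4.w, F4.w, F4.w, 0] := by
  decide

theorem su4_two_tipair_false {F : Type*} [Field F] [Fintype F] (hF : Fintype.card F = 2 ^ 2)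
    (H : Subgroup (GL (Fin 4) F)) (hH : IsMaximalIn (GU 4 F 2 ⊓ specialLinear (Fin 4) F) H)
    (D : Fin 2 → Submodule F (Fin 4 → F)) (hD : IsMDecomposition 2 D)
    (hts : ∀ i, IsTotallySingularFor (hermForm 4 F 2) (D i))
    (hle : H ≤ decompositionStabilizer D) : False := by
  classical
  obtain ⟨σ, hσ⟩ := exists_sigma hF
  have hc : Fintype.card F4 = Fintype.card F := by rw [hF]; exact F4.card_eq
  obtain ⟨ψ⟩ : Nonempty (F4 ≃+* F) := ⟨FiniteField.ringEquivOfCardEq hc⟩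
  have h2 : (2 : F) = 0 := by
    have h : (1 + 1 : F4) = 0 := by decide
    have h1 := congrArg ψ h
    rw [map_add, map_one, map_zero, one_add_one_eq_two] at h1
    exact h1
  have hneg : ∀ b : F, -b = b := fun b => by
    rw [neg_eq_iff_add_eq_zero, ← two_mul, h2, zero_mul]
  have hfix : ∀ t : F, σ t = t → t ≠ 0 → t * t = 1 := by
    intro t ht ht0
    rw [hσ.pow, pow_two] at ht
    have h1 : t = 1 := mul_right_cancel₀ ht0 (ht.trans (one_mul t).symm)
    rw [h1, mul_one]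
  have hc1 : σ (ψ 1) = -(ψ 1) := by rw [map_one, map_one, hneg]
  have hc0 : ψ (1 : F4) ≠ 0 := by rw [map_one]; exact one_ne_zero
  exact su4_tipair_false_of hσ hfix (ψ 1) (ψ F4.w) hc1 hc0
    (tiS_K1_of ψ 2 1 su4_two_K1) (tiS_K2_of ψ 2 1 su4_two_K2)
    (tiS_K3_of ψ 2 F4.w su4_two_K3) (tiS_K4_of ψ 2 1 F4.w su4_two_K4) H hH D hD hts hle

end Cfsg.Agent.Helper91
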