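/-
Helper91: in `SU_4(3)` the stabiliser of a pair of complementary totally isotropic planes is not
maximal (it lies in the stabiliser of a set of 321 vectors, which a unitary transvection preserves too).
-/
import Cfsg.Agent.Helper91.SU4Ti
import Cfsg.Agent.Helper64.SU3Base

set_option autoImplicit false
open Cfsg Cfsg.Geo Matrix

namespace Cfsg.Agent.Helper91

open Cfsg.Agent.Helper97 Cfsg.Agent.Helper64.SU3 Cfsg.Agent.Helper91.SU4

/-- A square root of `-1` in the field with nine elements. -/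
def su4I : K9 := ⟨0, 1⟩

theorem su4_three_K1 : ∀ a b l : K9, l ^ (3 + 1) = 1 →
    tiS 3 ![a + su4I * (l * b ^ 3 - b), b, l * b ^ 3, -(l * a ^ 3) - su4I * (l * b ^ 3 - b)] := by
  decide +kernel

theorem su4_three_K2 : ∀ a b l : K9, l ^ (3 + 1) = 1 →
    tiS 3 ![a - su4I * (l * b ^ 3 - b), b, l * b ^ 3, -(l * a ^ 3) + su4I * (l * b ^ 3 - b)] := by
  decide +kernel

theorem su4_three_K3 : tiS 3 ![(0 : K9), su4I, su4I, 0] := by
  decide +kernel

theorem su4_three_K4 : ¬ tiS 3 ![su4I * su4I, su4I, su4I, 0] := by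
  decide +kernel

theorem su4I_pow : su4I ^ 3 = -su4I := by
  decide +kernel

theorem su4I_ne : su4I ≠ 0 := by
  decide +kernel

theorem su4_three_tipair_false {F : Type*} [Field F] [Fintype F] (hF : Fintype.card F = 3 ^ 2)
    (H : Subgroup (GL (Fin 4) F)) (hH : IsMaximalIn (GU 4 F 3 ⊓ specialLinear (Fin 4) F) H)
    (D : Fin 2 → Submodule F (Fin 4 → F)) (hD : IsMDecomposition 2 D)
    (hts : ∀ i, IsTotallySingularFor (hermForm 4 F 3) (D i))
    (hle : H ≤ decompositionStabilizer D) : False := by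
  classical
  obtain ⟨σ, hσ⟩ := exists_sigma hF
  have hc : Fintype.card K9 = Fintype.card F := by rw [hF]; exact su3_card_K9
  obtain ⟨ψ⟩ : Nonempty (K9 ≃+* F) := ⟨FiniteField.ringEquivOfCardEq hc⟩
  have hfix : ∀ t : F, σ t = t → t ≠ 0 → t * t = 1 := by
    intro t ht ht0
    rw [hσ.pow] at ht
    have h1 : t * (t * t) = t * 1 := by
      rw [mul_one]
      calc t * (t * t) = t ^ 3 := by ring
        _ = t := ht
    exact mul_left_cancel₀ ht0 h1
  have hc1 : σ (ψ su4I) = -(ψ su4I) := by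
    rw [hσ.pow, ← map_pow, su4I_pow, map_neg]
  have hc0 : ψ su4I ≠ 0 := fun h => su4I_ne (ψ.injective (h.trans (map_zero ψ).symm))
  exact su4_tipair_false_of hσ hfix (ψ su4I) (ψ su4I) hc1 hc0
    (tiS_K1_of ψ 3 su4I su4_three_K1) (tiS_K2_of ψ 3 su4I su4_three_K2)
    (tiS_K3_of ψ 3 su4I su4_three_K3) (tiS_K4_of ψ 3 su4I su4I su4_three_K4) H hH D hD hts hle

end Cfsg.Agent.Helper91
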