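import Mathlib
import Cfsg.Prelude.Def_Classical
import Cfsg.Agent.Helper6.BN
import Cfsg.Agent.Helper40.BNStD
import Cfsg.Agent.Helper79.Quotient
import Cfsg.Agent.S0298
import Cfsg.Agent.S2544

/-!
# CALL S2547 piece ODD1 (helper91): the Steinberg character of `PΩ_3(q)`, `q` odd,
by transport from `PSL_2(q)` (S0298 + S2544).
-/

set_option autoImplicit false

namespace Cfsg.Agent.Helper91.StODD1

open Cfsg

/-- transport of a Steinberg-type character along a group isomorphism -/
theorem st_transport {G' : Type*} {H' : Type*} [Group G'] [Group H'] (e : G' ≃* H')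
    (p : ℕ) [Fact p.Prime]
    (h : ∃ χ : H' → ℂ, Cfsg.IsIrrCharacter H' χ ∧ ∀ P : Sylow p H', χ 1 = Nat.card P ∧
      ∀ x : H', x ∈ P → x ≠ 1 → χ x = 0) :
    ∃ χ : G' → ℂ, Cfsg.IsIrrCharacter G' χ ∧ ∀ P : Sylow p G', χ 1 = Nat.card P ∧
      ∀ x : G', x ∈ P → x ≠ 1 → χ x = 0 := by
  obtain ⟨χ, hχ, hP⟩ := h
  refine ⟨fun x => χ (e x),
    Cfsg.Agent.Helper79.isIrrCharacter_comp e.toMonoidHom e.surjective hχ, ?_⟩
  intro P
  have hinj : Function.Injective e.symm.toMonoidHom := e.symm.injective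
  have hrange : (P : Subgroup G') ≤ e.symm.toMonoidHom.range := by
    rw [MonoidHom.range_eq_top.2 e.symm.surjective]; exact le_top
  obtain ⟨Q, hQ⟩ : ∃ Q : Sylow p H',
      (Q : Subgroup H') = (P : Subgroup G').comap e.symm.toMonoidHom :=
    ⟨P.comapOfInjective e.symm.toMonoidHom hinj hrange, rfl⟩
  obtain ⟨h1, h2⟩ := hP Q
  have hmem : ∀ y : H', y ∈ Q ↔ e.symm y ∈ P := by
    intro y
    have : y ∈ (Q : Subgroup H') ↔ e.symm y ∈ (P : Subgroup G') := by
      rw [hQ]; exact Subgroup.mem_comap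
    exact this
  constructor
  · show χ (e 1) = Nat.card P
    rw [map_one, h1]
    have hcard : Nat.card ↥(Q : Subgroup H') = Nat.card ↥(P : Subgroup G') := by
      have hmap : (Q : Subgroup H') = (P : Subgroup G').map e.toMonoidHom := by
        ext y
        rw [hQ, Subgroup.mem_comap, Subgroup.mem_map]
        constructor
        · intro hy
          exact ⟨e.symm y, hy, e.apply_symm_apply y⟩
        · rintro ⟨x, hx, rfl⟩
          have : e.symm.toMonoidHom (e.toMonoidHom x) = x := e.symm_apply_apply x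
          rw [this]; exact hx
      rw [hmap]
      exact Subgroup.card_map_of_injective e.injective
    exact_mod_cast congrArg (Nat.cast : ℕ → ℂ) hcard
  · intro x hx hx1
    apply h2 (e x)
    · rw [hmem, e.symm_apply_apply]; exact hx
    · intro hc
      apply hx1
      exact e.injective (hc.trans (map_one e).symm)

-- === PIECE ODD1 ===  (S0298 + S2544 + TRANS)
theorem p_ODD1 {F : Type*} [Field F] [Fintype F] (p : ℕ) [Fact p.Prime] [CharP F p]
    (hodd : Odd (Fintype.card F)) :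
    ∃ χ : Cfsg.POmega F (Cfsg.quadFormOdd 1 F) → ℂ,
      Cfsg.IsIrrCharacter (Cfsg.POmega F (Cfsg.quadFormOdd 1 F)) χ ∧
      ∀ P : Sylow p (Cfsg.POmega F (Cfsg.quadFormOdd 1 F)), χ 1 = Nat.card P ∧
        ∀ x : Cfsg.POmega F (Cfsg.quadFormOdd 1 F), x ∈ P → x ≠ 1 → χ x = 0 := by
  obtain ⟨e⟩ := Cfsg.Agent.S0298.result (F := F) hodd
  exact st_transport e p (Cfsg.Agent.S2544.result (F := F) p 2 le_rfl)

end Cfsg.Agent.Helper91.StODD1
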