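/-
Helper91: a Sylow 2-subgroup of the Mathieu group M22: it is a group of order 2^7 generated by
conjugates of its central involution (and products), and it is self-normalizing.
-/
import Cfsg.Agent.Helper91.SylM22Data
import Cfsg.Agent.Helper91.M22Chain

set_option autoImplicit false
set_option maxRecDepth 100000

namespace Cfsg.Agent.Helper91.SylM22

open Cfsg Cfsg.Agent.Helper91 Cfsg.Agent.Helper91.Syl

theorem closed_ok : closedOK C E cay = true := by decide +kernel

theorem words_ok : wordsOK C E W = true := by decide +kernel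

theorem inc_ok : incB (E.map tcode) = true := by decide +kernel

theorem group_ok : groupOK C E cay W = true := by
  rw [groupOK, closed_ok, words_ok, inc_ok]; rfl

theorem cent_ok : centOK C E = true := by decide +kernel

theorem inH_ok : C.all (tabOK 8388609 []) = true := by decide +kernel

theorem fus_ok : fusOK 8388609 [] C steps = true := by decide +kernel

theorem le_H : genGroup C ≤ stabSub 8388609 [] := genGroup_le_stabSub inH_ok

theorem length_E : E.length = 2 ^ 7 := by decide +kernel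

/-- The pointwise stabilizer of the mask 10846245. Levels of the stabilizer chain (base 1; orbit lengths 16). -/

def fin0Levels : List Level := [
  ⟨[.sub 0, .compl 0, .sub 10846245, .compl 10846245],
    5930970, 1,
    [[0, 1, 2, 3, 4, 5, 6, 7, 8, 9, 10, 11, 12, 13, 14, 15, 16, 17, 18, 19, 20, 21, 22, 23],
     [0, 3, 2, 1, 6, 5, 4, 9, 19, 7, 11, 10, 22, 20, 17, 15, 16, 14, 18, 8, 13, 21, 12, 23],
     [0, 4, 2, 6, 1, 5, 3, 8, 7, 19, 14, 17, 20, 22, 10, 15, 16, 11, 18, 9, 12, 21, 13, 23],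
     [0, 6, 2, 4, 3, 5, 1, 19, 9, 8, 17, 14, 13, 12, 11, 15, 16, 10, 18, 7, 22, 21, 20, 23],
     [0, 7, 2, 9, 8, 5, 19, 1, 4, 3, 13, 20, 17, 10, 22, 15, 16, 12, 18, 6, 11, 21, 14, 23],
     [0, 8, 2, 19, 7, 5, 9, 4, 1, 6, 22, 12, 11, 14, 13, 15, 16, 20, 18, 3, 17, 21, 10, 23],
     [0, 9, 2, 7, 19, 5, 8, 3, 6, 1, 20, 13, 14, 11, 12, 15, 16, 22, 18, 4, 10, 21, 17, 23],
     [0, 10, 2, 11, 14, 5, 17, 13, 22, 20, 1, 3, 19, 7, 4, 15, 16, 6, 18, 12, 9, 21, 8, 23],
     [0, 11, 2, 10, 17, 5, 14, 20, 12, 13, 3, 1, 8, 9, 6, 15, 16, 4, 18, 22, 7, 21, 19, 23],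
     [0, 12, 2, 22, 20, 5, 13, 17, 11, 14, 19, 8, 1, 6, 9, 15, 16, 7, 18, 10, 4, 21, 3, 23],
     [0, 13, 2, 20, 22, 5, 12, 10, 14, 11, 7, 9, 6, 1, 8, 15, 16, 19, 18, 17, 3, 21, 4, 23],
     [0, 14, 2, 17, 10, 5, 11, 22, 13, 12, 4, 6, 9, 8, 1, 15, 16, 3, 18, 20, 19, 21, 7, 23],
     [0, 17, 2, 14, 11, 5, 10, 12, 20, 22, 6, 4, 7, 19, 3, 15, 16, 1, 18, 13, 8, 21, 9, 23],
     [0, 19, 2, 8, 9, 5, 7, 6, 3, 4, 12, 22, 10, 17, 20, 15, 16, 13, 18, 1, 14, 21, 11, 23],
     [0, 20, 2, 13, 12, 5, 22, 11, 17, 10, 9, 7, 4, 3, 19, 15, 16, 8, 18, 14, 1, 21, 6, 23],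
     [0, 22, 2, 12, 13, 5, 20, 14, 10, 17, 8, 19, 3, 4, 7, 15, 16, 9, 18, 11, 6, 21, 1, 23]]⟩]

/-- The pointwise stabilizer of the mask 10846245. Final rigidity certificate. -/

def fin0Fin : List Step :=
  [.sub 2, .compl 2, .and 5930970 16777213, .cw 15073798 [5930968], .compl 15073798, .and 5930968 15073798,
   .and 5930968 1703417, .cw 15762208 [1605080], .compl 15762208, .and 4325888 15762208, .and 4325888 1015007,
   .fix 17, .and 1605080 15762208, .and 1605080 1015007, .cw 13893731 [556248], .compl 13893731,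
   .and 4194816 13893731, .and 4194816 2883484, .fix 22, .fix 9, .and 1048832 13893731, .and 1048832 2883484,
   .fix 20, .fix 8, .and 556248 13893731, .and 556248 2883484, .fix 6, .cw 14747201 [556184], .compl 14747201,
   .and 556184 14747201, .and 556184 2030014, .fix 10, .cw 16262146 [555160], .compl 16262146,
   .and 555160 16262146, .and 555160 515069, .cw 15515712 [22680], .compl 15515712, .and 532480 15515712,
   .and 532480 1261503, .fix 19, .fix 13, .and 22680 15515712, .and 22680 1261503, .fix 14, .cw 15747077 [],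
   .compl 15747077, .and 6296 15747077, .and 6296 1030138, .fix 11, .cw 15335473 [], .compl 15335473,
   .and 4248 15335473, .and 4248 1441742, .fix 4, .cw 16056344 [], .compl 16056344, .and 4232 16056344,
   .and 4232 720871, .fix 3, .cw 15274244 [], .compl 15274244, .and 4224 15274244, .and 4224 1502971, .fix 12,
   .fix 7]

theorem fin0_chain_ok : checkChain [] 10846245 10846245 [] fin0Levels fin0Fin = true := by
  decide +kernel

theorem fin0_card : Nat.card (stabSub 10846245 []) = 2 ^ 4 := by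
  rw [chain_card [] fin0Levels 10846245 10846245 [] fin0Fin fin0_chain_ok (fun g hg => hg.2)]
  decide +kernel

theorem psi_1 : psiM E 0 0 1 = 8388609 := by decide +kernel
theorem psi_2 : psiM E 0 8388609 2 = 65568 := by decide +kernel
theorem psi_3 : psiM E 0 8454177 4 = 2392068 := by decide +kernel
theorem ext_3 : extOKm E 0 8454177 2392068 [2] = true := by decide +kernel
theorem psi_4 : psiM E 4 8454181 1 = 32768 := by decide +kernel
theorem psi_5 : psiM E 4 8486949 2 = 2359296 := by decide +kernel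

/-- No element of odd prime order normalizes the group. -/
theorem no_odd : ∀ r : ℕ, r.Prime → r % 2 = 1 → ∀ x, x ∉ XC (stabSub 8388609 []) (genGroup C) r 0 0 := by
  intro r hr hr2 x0 hx0
  have hx1 := rule_fix' group_ok hr2 hx0 1 8388609 8388609 psi_1 (by decide) (by decide)
  have hx2 := rule_fix' group_ok hr2 hx1 2 65568 8454177 psi_2 (by decide) (by decide)
  obtain ⟨x3, hx3⟩ := rule_ext1 group_ok le_H hr hr2 hx2 4 2392068 2 4 8454181 psi_3 ext_3 (by decide) (by decide)
  have hx4 := rule_fix' group_ok hr2 hx3 1 32768 8486949 psi_4 (by decide) (by decide)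
  have hx5 := rule_fix' group_ok hr2 hx4 2 2359296 10846245 psi_5 (by decide) (by decide)
  exact rule_end' hr hr2 10846245 4 (by decide) fin0_card hx5

theorem card_H : Nat.card (stabSub 8388609 []) = 2 ^ 7 * 3465 := by
  rw [card_stabSub_M22]
  norm_num

/-- The data of the Sylow 2-subgroup of M22. -/
theorem sylData : SylData 8388609 [] C E cay W steps 7 3465 :=
  ⟨group_ok, length_E, by decide, cent_ok, inH_ok, fus_ok, card_H, by decide, no_odd⟩

end Cfsg.Agent.Helper91.SylM22
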