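import Mathlib
import Cfsg.Agent.Helper97.TGDefs

set_option autoImplicit false

/-!
Piece DS3 of CALL S2414 (helper97): the double swap `dS a b` is an involution.
-/

universe u

namespace Cfsg.Agent.Helper91

open Cfsg Matrix Cfsg.Agent.Helper45 Cfsg.Agent.Helper98 Cfsg.Agent.Helper97.TG

section generic

variable {ι : Type} [Fintype ι] [DecidableEq ι] {F : Type u} [Field F]

theorem tgds3_reflO_congr (Q : QuadraticForm F (ι → F)) {v v' : ι → F} (h : v = v')
    (hv : Q v ≠ 0) (hv' : Q v' ≠ 0) : reflO Q v hv = reflO Q v' hv' := by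
  subst h
  rfl

end generic

section plus

variable {m : ℕ} {F : Type u} [Field F]

/-- DS3 -/
theorem tg_dS_sq (a b : Fin m) (hab : a ≠ b) : (dS (F := F) a b) ^ 2 = 1 := by
  have hba : b ≠ a := fun h => hab h.symm
  -- the two reflections commute
  have hpol : QuadraticMap.polar ⇑(QP m F) (eV m F a - fV m F a) (eV m F b - fV m F b) = 0 := by
    rw [QuadraticMap.polar_sub_left, polar_eV_left, polar_fV_left]
    simp [hab, hba]
  have hfix : mv ⇑(QP m F) (reflO (QP m F) (eV m F a - fV m F a) (QP_eV_sub_fV_ne a))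
      (eV m F b - fV m F b) = eV m F b - fV m F b := by
    rw [mv_reflO, hpol, mul_zero, zero_smul, sub_zero]
  have hra : (reflO (QP m F) (eV m F a - fV m F a) (QP_eV_sub_fV_ne a))⁻¹ =
      reflO (QP m F) (eV m F a - fV m F a) (QP_eV_sub_fV_ne a) :=
    inv_eq_of_mul_eq_one_left (reflO_mul_self (QP m F) _ _)
  have hconj := conj_reflO (QP m F) (reflO (QP m F) (eV m F a - fV m F a) (QP_eV_sub_fV_ne a))
    (eV m F b - fV m F b) (QP_eV_sub_fV_ne b) (by rw [hfix]; exact QP_eV_sub_fV_ne b)
  rw [hra] at hconj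
  have hconj' : reflO (QP m F) (eV m F a - fV m F a) (QP_eV_sub_fV_ne a) *
      reflO (QP m F) (eV m F b - fV m F b) (QP_eV_sub_fV_ne b) *
      reflO (QP m F) (eV m F a - fV m F a) (QP_eV_sub_fV_ne a) =
      reflO (QP m F) (eV m F b - fV m F b) (QP_eV_sub_fV_ne b) := by
    rw [hconj]
    exact tgds3_reflO_congr (QP m F) hfix _ _
  unfold dS
  rw [pow_two, ← mul_assoc, hconj', reflO_mul_self]

end plus

end Cfsg.Agent.Helper91
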