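/-
Helper91: a group of even permutations of 13 points containing an 11-cycle and a 13-cycle has order
divisible by 5 (otherwise it would be sharply 3-transitive of degree 13).
-/
import Cfsg.Agent.Helper58.Twin7
import Cfsg.Agent.Helper58.Burnside
import Cfsg.Agent.Helper12.Sharp3

set_option autoImplicit false

namespace Cfsg.Agent.Helper91.AltGen

open Equiv MulAction

/-- In an affine group over `ZMod p`, an element fixing two points is trivial. -/
theorem affine_eq_one_of_fix_two {p : ℕ} [Fact p.Prime] {β : Type*} (e : ZMod p ≃ β) (g : Perm β)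
    (hg : ∃ a b : ZMod p, ∀ z : ZMod p, e.symm (g (e z)) = a * z + b) {c d : β} (hcd : c ≠ d)
    (hc : g c = c) (hd : g d = d) : g = 1 := by
  obtain ⟨a, b, hab⟩ := hg
  have h1 := hab (e.symm c)
  have h2 := hab (e.symm d)
  rw [Equiv.apply_symm_apply, hc] at h1
  rw [Equiv.apply_symm_apply, hd] at h2
  have hne : e.symm c - e.symm d ≠ 0 := by
    intro h
    exact hcd (e.symm.injective (sub_eq_zero.1 h))
  have ha : a = 1 := by
    have h3 : (a - 1) * (e.symm c - e.symm d) = 0 := by
      linear_combination h2 - h1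
    rcases mul_eq_zero.1 h3 with h | h
    · exact sub_eq_zero.1 h
    · exact absurd h hne
  have hb : b = 0 := by
    rw [ha, one_mul] at h1
    have h4 : e.symm c + b = e.symm c + 0 := by rw [add_zero]; exact h1.symm
    exact add_left_cancel h4
  ext z
  have h4 := hab (e.symm z)
  rw [Equiv.apply_symm_apply, ha, hb, one_mul, add_zero] at h4
  have h5 := e.symm.injective h4
  rw [h5]; rfl

/-- A 3-transitive action in which the stabiliser of one triple of distinct points is trivial is
sharply 3-transitive. -/
theorem sharp3_of_triple {M : Type*} [Group M] {X : Type*} [MulAction M X]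
    (h3 : IsMultiplyPretransitive M X 3) {a b c : X} (hab : a ≠ b) (hac : a ≠ c) (hbc : b ≠ c)
    (h : ∀ g : M, g • a = a → g • b = b → g • c = c → g = 1) (e : Fin 3 ↪ X) :
    stabilizer M e = ⊥ := by
  have hinj3 : Function.Injective ![a, b, c] := by
    intro i j hij
    fin_cases i <;> fin_cases j <;> simp_all
  have hst0 : stabilizer M (⟨![a, b, c], hinj3⟩ : Fin 3 ↪ X) = ⊥ := by
    rw [eq_bot_iff]
    intro g hg
    rw [MulAction.mem_stabilizer_iff] at hg
    have h0 := congrArg (fun f : Fin 3 ↪ X => f 0) hg
    have h1 := congrArg (fun f : Fin 3 ↪ X => f 1) hg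
    have h2 := congrArg (fun f : Fin 3 ↪ X => f 2) hg
    exact Subgroup.mem_bot.2 (h g h0 h1 h2)
  obtain ⟨g, hg⟩ := h3.exists_smul_eq (⟨![a, b, c], hinj3⟩ : Fin 3 ↪ X) e
  rw [← hg, MulAction.stabilizer_smul_eq_stabilizer_map_conj, hst0, Subgroup.map_bot]

/-- A group of even permutations of 13 points containing an 11-cycle and a 13-cycle has order divisible
by 5. -/
theorem twin13_five_dvd {α : Type*} [Fintype α] [DecidableEq α] (hα : Fintype.card α = 13)
    (G : Subgroup (Perm α)) (hG : G ≤ alternatingGroup α) {x y : Perm α} (hx : x ∈ G) (hy : y ∈ G)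
    (hxc : x.IsCycle) (hxs : x.support.card = 11) (hyc : y.IsCycle) (hys : y.support.card = 13) :
    5 ∣ Nat.card G := by
  classical
  by_contra h5
  have hp13 : Fact (Nat.Prime 13) := ⟨by norm_num⟩
  have hp11 : Fact (Nat.Prime 11) := ⟨by norm_num⟩
  have hp2 : Fact (Nat.Prime 2) := ⟨by norm_num⟩
  -- transitivity and primitivity of G
  have h13 : 13 ∣ Nat.card G := by
    have := orderOf_dvd_natCard (⟨y, hy⟩ : G)
    rwa [Subgroup.orderOf_mk, hyc.orderOf, hys] at this
  have htr : IsPretransitive G α := Cfsg.Agent.Helper58.transitive_of_prime_dvd_card hα G h13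
  have hprim : IsPreprimitive G α :=
    IsPreprimitive.of_prime_card (by rw [Nat.card_eq_fintype_card, hα]; norm_num)
  -- 3-transitivity
  have hsc : Set.ncard ((x.support : Set α)ᶜ) = 1 + 1 := by
    apply Nat.add_left_cancel (n := (x.support : Set α).ncard)
    rw [Set.ncard_add_ncard_compl, Set.ncard_coe_finset, hxs, Nat.card_eq_fintype_card, hα]
  have hprimF : IsPreprimitive (fixingSubgroup G ((x.support : Set α)ᶜ))
      (SubMulAction.ofFixingSubgroup G ((x.support : Set α)ᶜ)) := by
    have := Equiv.Perm.isPretransitive_of_isCycle_mem hxc hx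
    apply IsPreprimitive.of_prime_card
    convert (show Nat.Prime 11 by norm_num)
    rw [Nat.card_eq_fintype_card, Fintype.card_subtype, ← hxs]
    apply congr_arg
    ext z
    simp [SubMulAction.mem_ofFixingSubgroup_iff]
  have hJ : IsMultiplyPreprimitive G α (1 + 2) :=
    hprim.isMultiplyPreprimitive hsc (by rw [Nat.card_eq_fintype_card, hα]; norm_num) hprimF
  have h3 : IsMultiplyPretransitive G α 3 := by
    have : IsMultiplyPretransitive G α (1 + 2) := inferInstance
    exact this
  -- the group induced on the support of x by its pointwise stabiliser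
  obtain ⟨D, hD⟩ : ∃ D : Finset α, D = x.support := ⟨_, rfl⟩
  have hDcard : D.card = 11 := by rw [hD]; exact hxs
  have hcardβ : Fintype.card {a // a ∈ D} = 11 := by rw [Fintype.card_coe, hDcard]
  obtain ⟨T, hT⟩ : ∃ T : Subgroup (Perm {a // a ∈ D}),
      T = G.comap (Perm.ofSubtype : Perm {a // a ∈ D} →* Perm α) := ⟨_, rfl⟩
  have hinj : Function.Injective (Perm.ofSubtype : Perm {a // a ∈ D} →* Perm α) :=
    Equiv.Perm.ofSubtype_injective
  have hxD : ∀ a, x a ∈ D ↔ a ∈ D := by
    intro a; rw [hD]; exact Equiv.Perm.apply_mem_support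
  have hx' : Perm.ofSubtype (x.subtypePerm hxD) = x :=
    Equiv.Perm.ofSubtype_subtypePerm hxD (fun a ha => by rw [hD]; exact Equiv.Perm.mem_support.2 ha)
  have hTmem : ∀ g : Perm {a // a ∈ D}, g ∈ T ↔ Perm.ofSubtype g ∈ G := by
    intro g; rw [hT, Subgroup.mem_comap]
  have hxT : x.subtypePerm hxD ∈ T := by rw [hTmem, hx']; exact hx
  have h11 : 11 ∣ Nat.card T := by
    have := orderOf_dvd_natCard (⟨x.subtypePerm hxD, hxT⟩ : T)
    rwa [Subgroup.orderOf_mk, ← orderOf_injective _ hinj, hx', hxc.orderOf, hxs] at this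
  have hTtr : IsPretransitive T {a // a ∈ D} :=
    Cfsg.Agent.Helper58.transitive_of_prime_dvd_card hcardβ T h11
  have hTdvd : Nat.card T ∣ Nat.card G := by
    have h1 : Nat.card (T.map (Perm.ofSubtype : Perm {a // a ∈ D} →* Perm α)) = Nat.card T :=
      (Nat.card_congr (T.equivMapOfInjective _ hinj).toEquiv).symm
    rw [← h1]
    exact Subgroup.card_dvd_of_le (by rw [hT]; exact Subgroup.map_comap_le _ _)
  have h5T : ¬ 5 ∣ Nat.card T := fun h => h5 (h.trans hTdvd)
  -- the point stabilisers of T are trivial
  have hsharpT : ∀ g ∈ T, ∀ c : {a // a ∈ D}, g c = c → g = 1 := by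
    rcases Cfsg.Agent.Helper58.affine_or_two_transitive hcardβ T with h2 | ⟨e, he⟩
    · exfalso
      obtain ⟨e2⟩ : Nonempty (Fin 2 ↪ {a // a ∈ D}) :=
        Function.Embedding.nonempty_of_card_le (by rw [Fintype.card_fin, hcardβ]; norm_num)
      have hidx : (stabilizer T e2).index = Nat.card (Fin 2 ↪ {a // a ∈ D}) := by
        exact @MulAction.index_stabilizer_of_transitive T _ _ _ e2 h2
      rw [Nat.card_eq_fintype_card, Fintype.card_embedding_eq, hcardβ, Fintype.card_fin] at hidx
      have hdvd := Subgroup.index_dvd_card (stabilizer T e2)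
      rw [hidx] at hdvd
      exact h5T (Dvd.dvd.trans (by decide : 5 ∣ Nat.descFactorial 11 2) hdvd)
    · have hsol := Cfsg.Agent.Helper58.solvable_of_affine T e he
      have hdvd := Cfsg.Agent.Helper58.card_dvd_of_solvable_prime_degree hcardβ T hsol
      have hcard : Nat.card T = 11 ∨ Nat.card T = 22 := by
        obtain ⟨k, hk⟩ := h11
        have hk10 : k ∣ 10 := by
          rw [hk] at hdvd
          exact (Nat.mul_dvd_mul_iff_left (by norm_num)).1 hdvd
        have hk5 : ¬ 5 ∣ k := fun h => h5T (by rw [hk]; exact Dvd.dvd.mul_left h 11)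
        have hkle : k ≤ 10 := Nat.le_of_dvd (by norm_num) hk10
        have hk12 : k = 1 ∨ k = 2 := by
          interval_cases k
          all_goals omega
        rcases hk12 with rfl | rfl
        · left; rw [hk]
        · right; rw [hk]
      intro g hg c hc
      rcases hcard with h11c | h22
      · have hidx : (stabilizer T c).index = Nat.card {a // a ∈ D} :=
          MulAction.index_stabilizer_of_transitive T c
        rw [Nat.card_eq_fintype_card, hcardβ] at hidx
        have hmul := Subgroup.card_mul_index (stabilizer T c)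
        rw [hidx, h11c] at hmul
        have hone : Nat.card (stabilizer T c) = 1 := by omega
        have hbot : stabilizer T c = ⊥ := Subgroup.card_eq_one.1 hone
        have hmem : (⟨g, hg⟩ : T) ∈ stabilizer T c := by
          rw [MulAction.mem_stabilizer_iff]; exact hc
        rw [hbot, Subgroup.mem_bot] at hmem
        exact congrArg Subtype.val hmem
      · exfalso
        obtain ⟨t, ht⟩ := exists_prime_orderOf_dvd_card' (G := T) 2 (by rw [h22]; norm_num)
        have hto : orderOf (t : Perm {a // a ∈ D}) = 2 := by rw [Subgroup.orderOf_coe]; exact ht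
        have hsign : Perm.sign (t : Perm {a // a ∈ D}) = 1 := by
          rw [← Equiv.Perm.sign_ofSubtype]
          have ht2 : Perm.ofSubtype (t : Perm {a // a ∈ D}) ∈ G := (hTmem _).1 t.2
          exact Perm.mem_alternatingGroup.1 (hG ht2)
        obtain ⟨n, hn⟩ := Equiv.Perm.cycleType_prime_order (σ := (t : Perm {a // a ∈ D}))
          (by rw [hto]; norm_num)
        rw [hto] at hn
        have hsum := Equiv.Perm.sum_cycleType (t : Perm {a // a ∈ D})
        rw [hn, Multiset.sum_replicate, smul_eq_mul] at hsum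
        have hs2 := Equiv.Perm.sign_of_cycleType (t : Perm {a // a ∈ D})
        rw [hn, Multiset.sum_replicate, smul_eq_mul, Multiset.card_replicate, hsign] at hs2
        have heven : Even ((n + 1) * 2 + (n + 1)) :=
          (neg_one_pow_eq_one_iff_even (by decide : (-1 : ℤˣ) ≠ 1)).1 hs2.symm
        have hle : (t : Perm {a // a ∈ D}).support.card ≤ 11 := by
          rw [← hcardβ]; exact Finset.card_le_univ _
        have hn4 : (t : Perm {a // a ∈ D}).support.card ≤ 8 := by
          obtain ⟨r, hr⟩ := heven
          omega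
        have hfix : 1 < ((t : Perm {a // a ∈ D}).supportᶜ).card := by
          rw [Finset.card_compl, hcardβ]; omega
        obtain ⟨c1, hc1, d1, hd1, hcd1⟩ := Finset.one_lt_card.1 hfix
        rw [Finset.mem_compl, Equiv.Perm.notMem_support] at hc1 hd1
        have hone := affine_eq_one_of_fix_two e (t : Perm {a // a ∈ D}) (he _ t.2) hcd1 hc1 hd1
        rw [hone, orderOf_one] at hto
        exact absurd hto (by norm_num)
  -- the two fixed points of x, and sharpness
  have hDc : (Dᶜ).card = 2 := by rw [Finset.card_compl, hα, hDcard]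
  obtain ⟨a, b, hab, hDab⟩ := Finset.card_eq_two.1 hDc
  obtain ⟨c, hcD⟩ : ∃ c, c ∈ D := Finset.card_pos.1 (by rw [hDcard]; norm_num)
  have haD : a ∉ D := by
    have : a ∈ Dᶜ := by rw [hDab]; simp
    exact Finset.mem_compl.1 this
  have hbD : b ∉ D := by
    have : b ∈ Dᶜ := by rw [hDab]; simp
    exact Finset.mem_compl.1 this
  have hac : a ≠ c := fun h => haD (h ▸ hcD)
  have hbc : b ≠ c := fun h => hbD (h ▸ hcD)
  have hsharp0 : ∀ h ∈ G, h a = a → h b = b → h c = c → h = 1 := by
    intro h hh ha hb hc
    have hfix : ∀ z, z ∉ D → h z = z := by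
      intro z hz
      have hz' : z ∈ Dᶜ := Finset.mem_compl.2 hz
      rw [hDab, Finset.mem_insert, Finset.mem_singleton] at hz'
      rcases hz' with rfl | rfl
      · exact ha
      · exact hb
    have hhD : ∀ z, h z ∈ D ↔ z ∈ D := by
      intro z
      constructor
      · intro hz
        by_contra hzn
        rw [hfix z hzn] at hz; exact hzn hz
      · intro hz
        by_contra hzn
        have h1 : h (h z) = h z := hfix (h z) hzn
        have h2 : h z = z := h.injective h1
        rw [h2] at hzn; exact hzn hz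
    have hh' : Perm.ofSubtype (h.subtypePerm hhD) = h :=
      Equiv.Perm.ofSubtype_subtypePerm hhD (fun z hz => by
        by_contra hzn; exact hz (hfix z hzn))
    have hhT : h.subtypePerm hhD ∈ T := by rw [hTmem, hh']; exact hh
    have hone := hsharpT _ hhT ⟨c, hcD⟩ (by
      apply Subtype.ext
      rw [Equiv.Perm.subtypePerm_apply]
      exact hc)
    rw [← hh', hone, map_one]
  have hsharp : ∀ e : Fin 3 ↪ α, stabilizer G e = ⊥ :=
    sharp3_of_triple h3 hab hac hbc
      (fun g ha hb hc => Subtype.ext (hsharp0 g.1 g.2 ha hb hc))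
  obtain ⟨f, hf1, hf, -⟩ := Cfsg.Agent.Helper12.sharp3_odd h3 hsharp (by rw [hα]; exact ⟨6, rfl⟩)
    (by rw [hα]; norm_num)
  rw [hα] at hf
  have hf4 : f < 4 := by
    by_contra hge
    have : 2 ^ 4 ≤ 2 ^ f := Nat.pow_le_pow_right (by norm_num) (by omega)
    omega
  interval_cases f <;> norm_num at hf

end Cfsg.Agent.Helper91.AltGen
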